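import Mathlib
import Cfsg.Prelude.Def_GeometricClasses
import Cfsg.Agent.Lib.Helper93.SUPair
import Cfsg.Agent.Lib.Helper65.MonoDefs
import Cfsg.Agent.Lib.Helper18.UnitaryWitt

/-!
# S5655 (helper44): unitary decomposition stabilisers are maximal in `SU_n(q)` -- definitions and
the statements of the pieces (see the proof note; every `...Stmt` below is a `Prop`, leaf pieces
prove it, glue pieces prove it from other `...Stmt`s passed as hypotheses).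

Notation: `h = Cfsg.hermForm N F q`, `μ = {t | t^(q+1) = 1}`, `L = {a | a + a^q = 0}`,
`qrefl q N w t` (helper18) is `x ↦ x + (t-1) h(x,w) w`, `Cen q Y w` (helper93): `w` isotropic and all
unitary transvections `T_{w,a}`, `a ∈ L`, lie in `Y`; `MIn Y A`: the matrix `A` is in `Y`.
-/

set_option autoImplicit false
set_option linter.unusedSectionVars false
set_option linter.unusedVariables false

namespace Cfsg.Agent.Lib.Helper44.UD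

open Matrix Cfsg.Agent.Lib.Helper93 Cfsg.Agent.Lib.Helper18 Cfsg.Agent.Lib.Helper7

section
variable {F : Type*} [Field F] [Fintype F] {n : ℕ}

/-- `SU_n(q)` as a subgroup of `GL_n(F)`. -/
def SUg (n : ℕ) (F : Type*) [Field F] (q : ℕ) : Subgroup (GL (Fin n) F) :=
  Cfsg.GU n F q ⊓ Cfsg.Geo.specialLinear (Fin n) F

/-- every column has at most one nonzero entry (for invertible `A`: monomial) -/
def IsMono (A : Matrix (Fin n) (Fin n) F) : Prop := ∀ j, ∃ i, ∀ i', A i' j ≠ 0 → i' = i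

/-- column `k` has at most one nonzero entry -/
def Col1 (A : Matrix (Fin n) (Fin n) F) (k : Fin n) : Prop := ∃ i, ∀ i', A i' k ≠ 0 → i' = i

/-- `X` contains every monomial matrix of `SU_n(q)` -/
def MonSU (q : ℕ) (X : Subgroup (GL (Fin n) F)) : Prop :=
  ∀ g : GL (Fin n) F, g ∈ Cfsg.GU n F q → (g : Matrix (Fin n) (Fin n) F).det = 1 →
    IsMono (g : Matrix (Fin n) (Fin n) F) → g ∈ X

/-- `Y` contains every monomial matrix of `GU_n(q)` -/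
def MonGU (q : ℕ) (Y : Subgroup (GL (Fin n) F)) : Prop :=
  ∀ g : GL (Fin n) F, g ∈ Cfsg.GU n F q → IsMono (g : Matrix (Fin n) (Fin n) F) → g ∈ Y

/-- `A` permutes the coordinate blocks given by `blk` -/
def IsBlk {t : ℕ} (blk : Fin n → Fin t) (A : Matrix (Fin n) (Fin n) F) : Prop :=
  ∃ σ : Equiv.Perm (Fin t), ∀ i j, A i j ≠ 0 → blk i = σ (blk j)

/-- the block of a coordinate, for blocks given by an equivalence `Fin n ≃ Fin t × Fin k` -/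
def blkOf {n t k : ℕ} (e : Fin n ≃ Fin t × Fin k) (i : Fin n) : Fin t := (e i).1

/-- `X` contains every element of `SU_n(q)` permuting the coordinate blocks -/
def BlkIn (q : ℕ) {t : ℕ} (blk : Fin n → Fin t) (X : Subgroup (GL (Fin n) F)) : Prop :=
  ∀ g : GL (Fin n) F, g ∈ Cfsg.GU n F q → (g : Matrix (Fin n) (Fin n) F).det = 1 →
    IsBlk blk (g : Matrix (Fin n) (Fin n) F) → g ∈ X

/-- non-monomial elements of `X` have no column of weight one -/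
def NoCol1 (X : Subgroup (GL (Fin n) F)) : Prop :=
  ∀ x ∈ X, ¬ IsMono (x : Matrix (Fin n) (Fin n) F) → ∀ k, ¬ Col1 (x : Matrix (Fin n) (Fin n) F) k

/-- non-monomial elements of `X` have at most one zero in each column -/
def ColZ (X : Subgroup (GL (Fin n) F)) : Prop :=
  ∀ x ∈ X, ¬ IsMono (x : Matrix (Fin n) (Fin n) F) → ∀ k a b : Fin n, a ≠ b →
    ¬ ((x : Matrix (Fin n) (Fin n) F) a k = 0 ∧ (x : Matrix (Fin n) (Fin n) F) b k = 0)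

/-- non-monomial elements of `X` have at most one zero in each row -/
def RowZ (X : Subgroup (GL (Fin n) F)) : Prop :=
  ∀ x ∈ X, ¬ IsMono (x : Matrix (Fin n) (Fin n) F) → ∀ a k k' : Fin n, k ≠ k' →
    ¬ ((x : Matrix (Fin n) (Fin n) F) a k = 0 ∧ (x : Matrix (Fin n) (Fin n) F) a k' = 0)

/-- `y` has a zero entry -/
def HasZero (y : GL (Fin n) F) : Prop := ∃ z a, (y : Matrix (Fin n) (Fin n) F) z a = 0

/-- at least four nonzero coordinates -/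
def Wt4 (w : Fin n → F) : Prop :=
  ∃ a b c d : Fin n, a ≠ b ∧ a ≠ c ∧ a ≠ d ∧ b ≠ c ∧ b ≠ d ∧ c ≠ d ∧
    w a ≠ 0 ∧ w b ≠ 0 ∧ w c ≠ 0 ∧ w d ≠ 0

/-- exactly four nonzero coordinates -/
def Supp4 (w : Fin n → F) : Prop :=
  ∃ a b c d : Fin n, a ≠ b ∧ a ≠ c ∧ a ≠ d ∧ b ≠ c ∧ b ≠ d ∧ c ≠ d ∧
    w a ≠ 0 ∧ w b ≠ 0 ∧ w c ≠ 0 ∧ w d ≠ 0 ∧ ∀ r, r ≠ a → r ≠ b → r ≠ c → r ≠ d → w r = 0

/-- the isotropic vector `e_0 + e_1` of `F^(N+2)` (characteristic 2) -/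
def c0 (N : ℕ) : Fin (N + 2) → F := Pi.single 0 1 + Pi.single 1 1

/-- `g` acts on the hyperbolic pair `w, w'` by `w ↦ χ w`, `w' ↦ (χ^q)⁻¹ w' + a χ w` and on the
orthogonal complement of `w, w'` as the quasi-reflection `r_{e,s}`. -/
def BAct (q N : ℕ) (w w' e : Fin N → F) (g : Matrix (Fin N) (Fin N) F) (χ a s : F) : Prop :=
  g *ᵥ w = χ • w ∧ g *ᵥ w' = (χ ^ q)⁻¹ • w' + (a * χ) • w ∧
    ∀ x, Cfsg.hermForm N F q x w = 0 → Cfsg.hermForm N F q x w' = 0 →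
      g *ᵥ x = qrefl q N e s *ᵥ x

/-- the pairs `(N(χ), a)` of the elements of `Y` acting as in `BAct` -/
def Gam (q N : ℕ) (Y : Subgroup (GL (Fin N) F)) (w w' e : Fin N → F) : Set (F × F) :=
  {p | ∃ (g : Matrix (Fin N) (Fin N) F) (χ s : F), MIn Y g ∧ χ ≠ 0 ∧ s ^ (q + 1) = 1 ∧
      p.1 = χ ^ (q + 1) ∧ BAct q N w w' e g χ p.2 s}

end

/-! ## Statements of the pieces -/

section
variable (F : Type*) [Field F] [Fintype F] (q : ℕ)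

/-! ### the two-reflection lemma -/

def BorelStmt : Prop :=
  Fintype.card F = q ^ 2 → ∀ Γ : Set (F × F),
    ((1 : F), (0 : F)) ∈ Γ →
    (∀ x ∈ Γ, ∀ y ∈ Γ, (x.1 * y.1, y.2 + x.2 / y.1) ∈ Γ) →
    (∀ x ∈ Γ, (x.1⁻¹, -(x.2 * x.1)) ∈ Γ) →
    (∀ x ∈ Γ, x.1 ≠ 0 ∧ x.1 ^ q = x.1 ∧ x.2 + x.2 ^ q = 0) →
    q + 1 ≤ Γ.ncard → ∀ a : F, a + a ^ q = 0 → ((1 : F), a) ∈ Γ

def HypStmt : Prop :=
  Fintype.card F = q ^ 2 → ∀ (N : ℕ) (u v w : Fin N → F),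
    Cfsg.hermForm N F q u u = 1 → Cfsg.hermForm N F q v v = 1 →
    Cfsg.hermForm N F q u v ^ (q + 1) ≠ 1 → (∃ a b : F, w = a • u + b • v) → w ≠ 0 →
    Cfsg.hermForm N F q w w = 0 →
    ∃ w' : Fin N → F, (∃ a b : F, w' = a • u + b • v) ∧ Cfsg.hermForm N F q w' w' = 0 ∧
      Cfsg.hermForm N F q w w' = 1

def TRKStmt : Prop :=
  Fintype.card F = q ^ 2 → ∀ (N : ℕ) (Y : Subgroup (GL (Fin N) F)), Y ≤ Cfsg.GU N F q →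
    ∀ w w' e : Fin N → F, Cfsg.hermForm N F q w w = 0 → Cfsg.hermForm N F q w' w' = 0 →
    Cfsg.hermForm N F q w w' = 1 → (e = 0 ∨ Cfsg.hermForm N F q e e = 1) →
    Cfsg.hermForm N F q e w = 0 → Cfsg.hermForm N F q e w' = 0 →
    ((1 : F), (0 : F)) ∈ Gam q N Y w w' e ∧
    (∀ x ∈ Gam q N Y w w' e, ∀ y ∈ Gam q N Y w w' e,
      (x.1 * y.1, y.2 + x.2 / y.1) ∈ Gam q N Y w w' e) ∧
    (∀ x ∈ Gam q N Y w w' e, (x.1⁻¹, -(x.2 * x.1)) ∈ Gam q N Y w w' e) ∧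
    (∀ x ∈ Gam q N Y w w' e, x.1 ≠ 0 ∧ x.1 ^ q = x.1 ∧ x.2 + x.2 ^ q = 0)

def TRCStmt : Prop :=
  Fintype.card F = q ^ 2 → ∀ (N : ℕ) (Y : Subgroup (GL (Fin N) F)), Y ≤ Cfsg.GU N F q →
    ∀ u v e w w' : Fin N → F, Cfsg.hermForm N F q u u = 1 → Cfsg.hermForm N F q v v = 1 →
    Cfsg.hermForm N F q u v ≠ 0 → Cfsg.hermForm N F q u v ^ (q + 1) ≠ 1 →
    (e = 0 ∨ Cfsg.hermForm N F q e e = 1) →
    Cfsg.hermForm N F q e u = 0 → Cfsg.hermForm N F q e v = 0 →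
    (∀ t : F, t ^ (q + 1) = 1 → MIn Y (qrefl q N u t * qrefl q N e t⁻¹)) →
    (∀ t : F, t ^ (q + 1) = 1 → MIn Y (qrefl q N v t * qrefl q N e t⁻¹)) →
    (∃ a b : F, w = a • u + b • v) → (∃ a b : F, w' = a • u + b • v) →
    Cfsg.hermForm N F q w w = 0 → Cfsg.hermForm N F q w' w' = 0 →
    Cfsg.hermForm N F q w w' = 1 →
    q + 1 ≤ (Gam q N Y w w' e).ncard

def TRFStmt : Prop :=
  Fintype.card F = q ^ 2 → ∀ (N : ℕ) (Y : Subgroup (GL (Fin N) F)), Y ≤ Cfsg.GU N F q →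
    ∀ w w' e : Fin N → F, Cfsg.hermForm N F q w w = 0 → Cfsg.hermForm N F q w' w' = 0 →
    Cfsg.hermForm N F q w w' = 1 → (e = 0 ∨ Cfsg.hermForm N F q e e = 1) →
    Cfsg.hermForm N F q e w = 0 → Cfsg.hermForm N F q e w' = 0 →
    ∀ a : F, ((1 : F), a) ∈ Gam q N Y w w' e → MIn Y (Cfsg.unitaryTransvection N q w a)

/-- the two-reflection lemma -/
def TRStmt : Prop :=
  Fintype.card F = q ^ 2 → ∀ (N : ℕ) (Y : Subgroup (GL (Fin N) F)), Y ≤ Cfsg.GU N F q →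
    ∀ u v e : Fin N → F, Cfsg.hermForm N F q u u = 1 → Cfsg.hermForm N F q v v = 1 →
    Cfsg.hermForm N F q u v ≠ 0 → Cfsg.hermForm N F q u v ^ (q + 1) ≠ 1 →
    (e = 0 ∨ Cfsg.hermForm N F q e e = 1) →
    Cfsg.hermForm N F q e u = 0 → Cfsg.hermForm N F q e v = 0 →
    (∀ t : F, t ^ (q + 1) = 1 → MIn Y (qrefl q N u t * qrefl q N e t⁻¹)) →
    (∀ t : F, t ^ (q + 1) = 1 → MIn Y (qrefl q N v t * qrefl q N e t⁻¹)) →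
    ∀ w : Fin N → F, (∃ a b : F, w = a • u + b • v) → Cfsg.hermForm N F q w w = 0 → Cen q Y w

/-! ### transvection centres -/

def T2AStmt : Prop :=
  Fintype.card F = q ^ 2 → ∀ (N : ℕ) (Y : Subgroup (GL (Fin N) F)), Y ≤ Cfsg.GU N F q →
    ∀ w : Fin N → F, Cen q Y w → ∀ a b : Fin N, a ≠ b → w a ≠ 0 → w b ≠ 0 →
    (∀ ρa ρb : F, ρa ^ (q + 1) = 1 → ρb ^ (q + 1) = 1 →
      (w a ^ (q + 1) + w b ^ (q + 1) = 0 → ρa * ρb = 1) →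
      ∃ d : Matrix (Fin N) (Fin N) F, MIn Y d ∧
        d *ᵥ w = w + ((ρa - 1) * w a) • Pi.single a 1 + ((ρb - 1) * w b) • Pi.single b 1) →
    ∃ ε : F, ε ^ (q + 1) = -1 ∧ Cen q Y (Pi.single a 1 + ε • Pi.single b 1)

def MonoExStmt : Prop :=
  Fintype.card F = q ^ 2 → ∀ n : ℕ, 3 ≤ n → ∀ (a b c d : Fin n) (l m : F), a ≠ b → c ≠ d →
    l ^ (q + 1) = 1 → m ^ (q + 1) = 1 →
    ∃ g : GL (Fin n) F, g ∈ Cfsg.GU n F q ∧ (g : Matrix (Fin n) (Fin n) F).det = 1 ∧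
      IsMono (g : Matrix (Fin n) (Fin n) F) ∧
      (g : Matrix (Fin n) (Fin n) F) *ᵥ Pi.single a 1 = l • Pi.single c 1 ∧
      (g : Matrix (Fin n) (Fin n) F) *ᵥ Pi.single b 1 = m • Pi.single d 1

def OrbStmt : Prop :=
  Fintype.card F = q ^ 2 → ∀ n : ℕ, 3 ≤ n → ∀ X : Subgroup (GL (Fin n) F), X ≤ Cfsg.GU n F q →
    MonSU q X → ∀ (a b : Fin n) (ε : F), a ≠ b → ε ^ (q + 1) = -1 →
    Cen q X (Pi.single a 1 + ε • Pi.single b 1) →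
    ∀ (c d : Fin n) (ε' : F), c ≠ d → ε' ^ (q + 1) = -1 →
      Cen q X (Pi.single c 1 + ε' • Pi.single d 1)

def PlaneStmt : Prop :=
  Fintype.card F = q ^ 2 → ∀ (n : ℕ) (Y : Subgroup (GL (Fin n) F)), Y ≤ Cfsg.GU n F q →
    ∀ i j : Fin n, i ≠ j →
    (∀ ε : F, ε ^ (q + 1) = -1 → Cen q Y (Pi.single i 1 + ε • Pi.single j 1)) →
    ∀ a b : F, a ^ (q + 1) + b ^ (q + 1) = 1 →
    ∃ g : GL (Fin n) F, g ∈ Y ∧
      (g : Matrix (Fin n) (Fin n) F) *ᵥ Pi.single i 1 = a • Pi.single i 1 + b • Pi.single j 1 ∧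
      ∀ c : Fin n, c ≠ i → c ≠ j →
        (g : Matrix (Fin n) (Fin n) F) *ᵥ Pi.single c 1 = Pi.single c 1

def T2Stmt : Prop :=
  Fintype.card F = q ^ 2 → 3 ≤ q → ∀ n : ℕ, 4 ≤ n → ∀ Y : Subgroup (GL (Fin n) F),
    Y ≤ Cfsg.GU n F q →
    (∀ (i j : Fin n) (ε : F), i ≠ j → ε ^ (q + 1) = -1 →
      Cen q Y (Pi.single i 1 + ε • Pi.single j 1)) →
    SUg n F q ≤ Y

def CW1Stmt : Prop :=
  Fintype.card F = q ^ 2 → 3 ≤ q → ∀ n : ℕ, 4 ≤ n → ∀ X : Subgroup (GL (Fin n) F),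
    X ≤ Cfsg.GU n F q → MonSU q X → ∀ w : Fin n → F, Cen q X w → w ≠ 0 → (∃ c, w c = 0) →
    SUg n F q ≤ X

def TRXStmt : Prop :=
  Fintype.card F = q ^ 2 → 3 ≤ q → ∀ (N : ℕ) (Y : Subgroup (GL (Fin N) F)), Y ≤ Cfsg.GU N F q →
    ∀ u e : Fin N → F, Cfsg.hermForm N F q u u = 1 → (e = 0 ∨ Cfsg.hermForm N F q e e = 1) →
    (∀ j, u j ≠ 0 → e j = 0) → (∃ a b : Fin N, a ≠ b ∧ u a ≠ 0 ∧ u b ≠ 0) →
    (∀ j, u j ≠ 0 → ∀ t : F, t ^ (q + 1) = 1 →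
      MIn Y (qrefl q N (Pi.single j 1) t * qrefl q N e t⁻¹)) →
    (∀ t : F, t ^ (q + 1) = 1 → MIn Y (qrefl q N u t * qrefl q N e t⁻¹)) →
    ∃ w : Fin N → F, w ≠ 0 ∧ Cen q Y w ∧ ∀ c, u c = 0 → w c = 0

/-! ### monomial case, `q ≥ 3` -/

def H1AStmt : Prop :=
  Fintype.card F = q ^ 2 → 3 ≤ q → ∀ n : ℕ, 4 ≤ n → ∀ X : Subgroup (GL (Fin n) F),
    X ≤ SUg n F q → MonSU q X → ∀ x ∈ X, ¬ IsMono (x : Matrix (Fin n) (Fin n) F) →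
    (∃ k, Col1 (x : Matrix (Fin n) (Fin n) F) k) → SUg n F q ≤ X

def RKUStmt : Prop :=
  Fintype.card F = q ^ 2 → ∀ (n : ℕ) (x : GL (Fin n) F), x ∈ Cfsg.GU n F q →
    ∀ j l l' : Fin n, j ≠ l → j ≠ l' → l ≠ l' → ∀ t : Fˣ, (t : F) ^ (q + 1) = 1 →
    (t : F) ^ 2 ≠ 1 → (t : F) ^ 3 ≠ 1 →
    IsMono ((x * Cfsg.Agent.Lib.Helper65.Mono.dg j l t * x⁻¹ : GL (Fin n) F) :
      Matrix (Fin n) (Fin n) F) →
    IsMono ((x * Cfsg.Agent.Lib.Helper65.Mono.dg j l' t * x⁻¹ : GL (Fin n) F) :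
      Matrix (Fin n) (Fin n) F) →
    Col1 (x : Matrix (Fin n) (Fin n) F) j

def H1BStmt : Prop :=
  Fintype.card F = q ^ 2 → 3 ≤ q → ∀ n : ℕ, 5 ≤ n → ∀ X : Subgroup (GL (Fin n) F),
    X ≤ SUg n F q → MonSU q X → ∀ x ∈ X, ¬ IsMono (x : Matrix (Fin n) (Fin n) F) →
    (∃ i j i' j' : Fin n, i ≠ j ∧ ∀ r, r ≠ i' → r ≠ j' →
      (x : Matrix (Fin n) (Fin n) F) r i = 0 ∧ (x : Matrix (Fin n) (Fin n) F) r j = 0) →
    SUg n F q ≤ X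

def P3Stmt : Prop :=
  Fintype.card F = q ^ 2 → 3 ≤ q → ∀ n : ℕ, 5 ≤ n → ∀ X : Subgroup (GL (Fin n) F),
    X ≤ SUg n F q → MonSU q X → ¬ (SUg n F q ≤ X) → ColZ X ∧ RowZ X

def TrickStmt : Prop :=
  Fintype.card F = q ^ 2 → ∀ γ γ' ρ : F, γ ≠ 0 → γ' ≠ 0 → ρ ^ q = ρ →
    ∃ t t' : F, t ^ (q + 1) = 1 ∧ t' ^ (q + 1) = 1 ∧
      t * γ + (t * γ) ^ q + (t' * γ' + (t' * γ') ^ q) = ρ

def FixCountStmt : Prop :=
  ∀ (n : ℕ) (y : Matrix (Fin n) (Fin n) F), IsMono y → y * y = 1 →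
    (∃ p p' : Fin n → F, ∀ v : Fin n → F, ∃ a b : F, y *ᵥ v - v = a • p + b • p') →
    n ≤ {c : Fin n | y *ᵥ Pi.single c 1 = Pi.single c (1 : F)}.ncard + 4

def ZeroStmt : Prop :=
  Fintype.card F = q ^ 2 → ∀ n : ℕ, 9 ≤ n → ∀ X : Subgroup (GL (Fin n) F),
    X ≤ SUg n F q → MonSU q X → ColZ X →
    (∃ x ∈ X, ¬ IsMono (x : Matrix (Fin n) (Fin n) F)) →
    ∃ y ∈ X, ¬ IsMono (y : Matrix (Fin n) (Fin n) F) ∧ HasZero y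

def ReflMonoStmt : Prop :=
  ∀ (n : ℕ) (w : Fin n → F) (s : F),
    (∃ a b c : Fin n, a ≠ b ∧ a ≠ c ∧ b ≠ c ∧ w a ≠ 0 ∧ w b ≠ 0 ∧ w c ≠ 0) →
    IsMono (qrefl q n w s) → s = 1

def Step4Stmt : Prop :=
  Fintype.card F = q ^ 2 → ∀ n : ℕ, 4 ≤ n → ∀ X : Subgroup (GL (Fin n) F),
    X ≤ SUg n F q → MonSU q X → NoCol1 X → RowZ X →
    ∀ y ∈ X, ¬ IsMono (y : Matrix (Fin n) (Fin n) F) → HasZero y → q + 1 ≤ n

def Step5OddStmt : Prop :=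
  Fintype.card F = q ^ 2 → (2 : F) ≠ 0 → ∀ n : ℕ, 7 ≤ n → q + 1 ≤ n →
    ∀ X : Subgroup (GL (Fin n) F), X ≤ SUg n F q → MonSU q X → NoCol1 X → ColZ X → RowZ X →
    ∀ y ∈ X, ¬ IsMono (y : Matrix (Fin n) (Fin n) F) → HasZero y → False

/-! ### monomial case, `q ≥ 4` even -/

def E1Stmt : Prop :=
  Fintype.card F = q ^ 2 → (2 : F) = 0 → ∀ N : ℕ, 5 ≤ N → q + 1 ≤ N + 2 →
    ∀ X : Subgroup (GL (Fin (N + 2)) F), X ≤ SUg (N + 2) F q → MonSU q X → NoCol1 X → ColZ X →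
    ∀ y ∈ X, ¬ IsMono (y : Matrix (Fin (N + 2)) (Fin (N + 2)) F) → HasZero y →
    ∃ y₁ ∈ X, ¬ IsMono (y₁ : Matrix (Fin (N + 2)) (Fin (N + 2)) F) ∧
      ∃ κ : F, (y₁ : Matrix (Fin (N + 2)) (Fin (N + 2)) F) *ᵥ c0 N = κ • c0 N

def DHomStmt : Prop :=
  Fintype.card F = q ^ 2 → (2 : F) = 0 → ∀ (N : ℕ) (X : Subgroup (GL (Fin (N + 2)) F)),
    X ≤ Cfsg.GU (N + 2) F q →
    ∃ Y : Subgroup (GL (Fin N) F), Y ≤ Cfsg.GU N F q ∧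
      ∀ A : GL (Fin N) F, A ∈ Y ↔ ∃ g ∈ X,
        (∃ κ : F, (g : Matrix (Fin (N + 2)) (Fin (N + 2)) F) *ᵥ c0 N = κ • c0 N) ∧
        ∀ i j : Fin N, (A : Matrix (Fin N) (Fin N) F) i j =
          (g : Matrix (Fin (N + 2)) (Fin (N + 2)) F) i.succ.succ j.succ.succ

def LiftStmt : Prop :=
  Fintype.card F = q ^ 2 → (2 : F) = 0 → ∀ (N : ℕ) (A : GL (Fin N) F), A ∈ Cfsg.GU N F q →
    IsMono (A : Matrix (Fin N) (Fin N) F) →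
    ∃ g : GL (Fin (N + 2)) F, g ∈ Cfsg.GU (N + 2) F q ∧
      (g : Matrix (Fin (N + 2)) (Fin (N + 2)) F).det = 1 ∧
      IsMono (g : Matrix (Fin (N + 2)) (Fin (N + 2)) F) ∧
      (∃ κ : F, (g : Matrix (Fin (N + 2)) (Fin (N + 2)) F) *ᵥ c0 N = κ • c0 N) ∧
      ∀ i j : Fin N, (A : Matrix (Fin N) (Fin N) F) i j =
        (g : Matrix (Fin (N + 2)) (Fin (N + 2)) F) i.succ.succ j.succ.succ

def ThmGStmt : Prop :=
  Fintype.card F = q ^ 2 → 3 ≤ q → ∀ N : ℕ, 3 ≤ N → ∀ Y : Subgroup (GL (Fin N) F),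
    Y ≤ Cfsg.GU N F q → MonGU q Y → (∃ g ∈ Y, ¬ IsMono (g : Matrix (Fin N) (Fin N) F)) →
    ∃ (a b : Fin N) (ε : F), a ≠ b ∧ ε ^ (q + 1) = -1 ∧
      Cen q Y (Pi.single a 1 + ε • Pi.single b 1)

def E5Stmt : Prop :=
  Fintype.card F = q ^ 2 → (2 : F) = 0 → ∀ N : ℕ, 5 ≤ N →
    ∀ X : Subgroup (GL (Fin (N + 2)) F), X ≤ SUg (N + 2) F q → MonSU q X → NoCol1 X →
    ∀ g ∈ X, (∃ κ : F, (g : Matrix (Fin (N + 2)) (Fin (N + 2)) F) *ᵥ c0 N = κ • c0 N) →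
    (∃ (a b : Fin N) (ε a' : F), a ≠ b ∧ ε ^ (q + 1) = -1 ∧ a' + a' ^ q = 0 ∧ a' ≠ 0 ∧ a' ≠ 1 ∧
      ∀ i j : Fin N, (g : Matrix (Fin (N + 2)) (Fin (N + 2)) F) i.succ.succ j.succ.succ =
        Cfsg.unitaryTransvection N q (Pi.single a 1 + ε • Pi.single b 1) a' i j) → False

def Step5EvenStmt : Prop :=
  Fintype.card F = q ^ 2 → (2 : F) = 0 → 4 ≤ q → ∀ N : ℕ, 5 ≤ N → q + 1 ≤ N + 2 →
    ∀ X : Subgroup (GL (Fin (N + 2)) F), X ≤ SUg (N + 2) F q → MonSU q X → NoCol1 X → ColZ X →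
    RowZ X → ∀ y ∈ X, ¬ IsMono (y : Matrix (Fin (N + 2)) (Fin (N + 2)) F) → HasZero y → False

/-- the monomial group is maximal in `SU_n(q)`, `q ≥ 3` -/
def MQ3Stmt : Prop :=
  Fintype.card F = q ^ 2 → 3 ≤ q → ∀ n : ℕ, 13 ≤ n → ∀ X : Subgroup (GL (Fin n) F),
    X ≤ SUg n F q → MonSU q X → (∃ x ∈ X, ¬ IsMono (x : Matrix (Fin n) (Fin n) F)) →
    SUg n F q ≤ X

/-! ### monomial case, `q = 2` -/

def Q2AStmt : Prop :=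
  Fintype.card F = 2 ^ 2 → ∀ n : ℕ, 4 ≤ n → ∀ X : Subgroup (GL (Fin n) F),
    X ≤ Cfsg.GU n F 2 → MonSU 2 X → (∃ x ∈ X, ¬ IsMono (x : Matrix (Fin n) (Fin n) F)) →
    ∃ w : Fin n → F, Cen 2 X w ∧ Wt4 w

def Q2BStmt : Prop :=
  Fintype.card F = 2 ^ 2 → ∀ n : ℕ, 8 ≤ n → ∀ X : Subgroup (GL (Fin n) F),
    X ≤ Cfsg.GU n F 2 → MonSU 2 X → ∀ w : Fin n → F, Cen 2 X w → Wt4 w →
    ∃ w' : Fin n → F, Cen 2 X w' ∧ Supp4 w'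

def Q2CStmt : Prop :=
  Fintype.card F = 2 ^ 2 → ∀ n : ℕ, 5 ≤ n → ∀ X : Subgroup (GL (Fin n) F),
    X ≤ Cfsg.GU n F 2 → MonSU 2 X → (∃ w' : Fin n → F, Cen 2 X w' ∧ Supp4 w') →
    SUg n F 2 ≤ X

/-- the monomial group is maximal in `SU_n(2)` -/
def MQ2Stmt : Prop :=
  Fintype.card F = 2 ^ 2 → ∀ n : ℕ, 8 ≤ n → ∀ X : Subgroup (GL (Fin n) F),
    X ≤ Cfsg.GU n F 2 → MonSU 2 X → (∃ x ∈ X, ¬ IsMono (x : Matrix (Fin n) (Fin n) F)) →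
    SUg n F 2 ≤ X

def Q2GenStmt : Prop :=
  Fintype.card F = 2 ^ 2 → ∀ n : ℕ, 3 ≤ n → ∀ X : Subgroup (GL (Fin n) F),
    X ≤ Cfsg.GU n F 2 →
    (∀ (i j : Fin n) (ε : F), i ≠ j → ε ^ (2 + 1) = -1 →
      Cen 2 X (Pi.single i 1 + ε • Pi.single j 1)) →
    MonSU 2 X

/-! ### blocks of dimension `k ≥ 2` -/

def K2MixedStmt : Prop :=
  Fintype.card F = q ^ 2 → ∀ (n t k : ℕ) (e : Fin n ≃ Fin t × Fin k), 2 ≤ k →
    ∀ X : Subgroup (GL (Fin n) F), X ≤ SUg n F q → BlkIn q (blkOf e) X →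
    (∃ g ∈ X, ¬ IsBlk (blkOf e) (g : Matrix (Fin n) (Fin n) F)) →
    ∃ w : Fin n → F, Cen q X w ∧ ∃ a b : Fin n, w a ≠ 0 ∧ w b ≠ 0 ∧ blkOf e a ≠ blkOf e b

def UnitFStmt : Prop :=
  Fintype.card F = q ^ 2 → ∀ p₁ p₂ c : F, (p₁ ≠ 0 ∨ p₂ ≠ 0) → c ≠ 0 → c ^ q = c →
    ∃ x y : F, x ^ (q + 1) + y ^ (q + 1) = 1 ∧ (p₁ * x ^ q + p₂ * y ^ q) ^ (q + 1) = c

def K2ReduceStmt : Prop :=
  Fintype.card F = q ^ 2 → ∀ (n t k : ℕ) (e : Fin n ≃ Fin t × Fin k), 7 ≤ n → 2 ≤ k →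
    ∀ X : Subgroup (GL (Fin n) F), X ≤ SUg n F q → BlkIn q (blkOf e) X →
    ∀ w : Fin n → F, Cen q X w → (∃ a b : Fin n, w a ≠ 0 ∧ w b ≠ 0 ∧ blkOf e a ≠ blkOf e b) →
    ∃ (a b : Fin n) (ε : F), blkOf e a ≠ blkOf e b ∧ ε ^ (q + 1) = -1 ∧
      Cen q X (Pi.single a 1 + ε • Pi.single b 1)

def BlkMonoExStmt : Prop :=
  Fintype.card F = q ^ 2 → ∀ (n t k : ℕ) (e : Fin n ≃ Fin t × Fin k), 3 ≤ n →
    ∀ a b c d : Fin n, blkOf e a ≠ blkOf e b → blkOf e c ≠ blkOf e d →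
    ∃ g : GL (Fin n) F, g ∈ Cfsg.GU n F q ∧ (g : Matrix (Fin n) (Fin n) F).det = 1 ∧
      IsBlk (blkOf e) (g : Matrix (Fin n) (Fin n) F) ∧
      ∃ l m : F, l ≠ 0 ∧ m ≠ 0 ∧
        (g : Matrix (Fin n) (Fin n) F) *ᵥ Pi.single a 1 = l • Pi.single c 1 ∧
        (g : Matrix (Fin n) (Fin n) F) *ᵥ Pi.single b 1 = m • Pi.single d 1

def K2OrbStmt : Prop :=
  Fintype.card F = q ^ 2 → ∀ (n t k : ℕ) (e : Fin n ≃ Fin t × Fin k), 5 ≤ n → 2 ≤ k →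
    ∀ X : Subgroup (GL (Fin n) F), X ≤ SUg n F q → BlkIn q (blkOf e) X →
    (∃ (a b : Fin n) (ε : F), blkOf e a ≠ blkOf e b ∧ ε ^ (q + 1) = -1 ∧
      Cen q X (Pi.single a 1 + ε • Pi.single b 1)) →
    ∀ (i j : Fin n) (ε : F), i ≠ j → ε ^ (q + 1) = -1 →
      Cen q X (Pi.single i 1 + ε • Pi.single j 1)

def K2NonMonoStmt : Prop :=
  Fintype.card F = 2 ^ 2 → ∀ (n t k : ℕ) (e : Fin n ≃ Fin t × Fin k), 3 ≤ k → 2 ≤ t →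
    ∃ g : GL (Fin n) F, g ∈ Cfsg.GU n F 2 ∧ (g : Matrix (Fin n) (Fin n) F).det = 1 ∧
      IsBlk (blkOf e) (g : Matrix (Fin n) (Fin n) F) ∧ ¬ IsMono (g : Matrix (Fin n) (Fin n) F)

/-- blocks of dimension `k ≥ 2` -/
def K2Stmt : Prop :=
  Fintype.card F = q ^ 2 → ∀ (n t k : ℕ) (e : Fin n ≃ Fin t × Fin k), 13 ≤ n → 2 ≤ t → 2 ≤ k →
    ¬ (k = 2 ∧ q = 2) → ∀ X : Subgroup (GL (Fin n) F), X ≤ SUg n F q → BlkIn q (blkOf e) X →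
    (∃ g ∈ X, ¬ IsBlk (blkOf e) (g : Matrix (Fin n) (Fin n) F)) → SUg n F q ≤ X

/-! ### blocks of dimension `1`, properness, adapted bases -/

def K1EqStmt : Prop :=
  ∀ (n t : ℕ) (e : Fin n ≃ Fin t × Fin 1) (g : GL (Fin n) F),
    IsBlk (blkOf e) (g : Matrix (Fin n) (Fin n) F) ↔ IsMono (g : Matrix (Fin n) (Fin n) F)

def K1Stmt : Prop :=
  Fintype.card F = q ^ 2 → ∀ (n t : ℕ) (e : Fin n ≃ Fin t × Fin 1), 13 ≤ n →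
    ∀ X : Subgroup (GL (Fin n) F), X ≤ SUg n F q → BlkIn q (blkOf e) X →
    (∃ g ∈ X, ¬ IsBlk (blkOf e) (g : Matrix (Fin n) (Fin n) F)) → SUg n F q ≤ X

def BlkProperStmt : Prop :=
  Fintype.card F = q ^ 2 → ∀ (n t k : ℕ) (e : Fin n ≃ Fin t × Fin k), 13 ≤ n → 2 ≤ t →
    ∃ g : GL (Fin n) F, g ∈ SUg n F q ∧ ¬ IsBlk (blkOf e) (g : Matrix (Fin n) (Fin n) F)

def OnbStmt : Prop :=
  Fintype.card F = q ^ 2 → ∀ (n k : ℕ) (W : Submodule F (Fin n → F)),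
    Cfsg.Geo.IsNondegenerateOn (Cfsg.hermForm n F q) W → Module.finrank F W = k →
    ∃ b : Fin k → Fin n → F, IsFr q n k b ∧ ∀ i, b i ∈ W

def AdaptStmt : Prop :=
  Fintype.card F = q ^ 2 → ∀ (n t k : ℕ) (D : Fin t → Submodule F (Fin n → F)),
    Cfsg.Geo.IsNondegenerateMDecomposition (Cfsg.hermForm n F q) k D →
    ∃ (e : Fin n ≃ Fin t × Fin k) (P : GL (Fin n) F), P ∈ Cfsg.GU n F q ∧
      ∀ j : Fin n, (P : Matrix (Fin n) (Fin n) F) *ᵥ Pi.single j 1 ∈ D (blkOf e j)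

def ConjStmt : Prop :=
  Fintype.card F = q ^ 2 → ∀ (n t k : ℕ) (D : Fin t → Submodule F (Fin n → F)),
    Cfsg.Geo.IsNondegenerateMDecomposition (Cfsg.hermForm n F q) k D →
    ∀ (e : Fin n ≃ Fin t × Fin k) (P : GL (Fin n) F), P ∈ Cfsg.GU n F q →
    (∀ j : Fin n, (P : Matrix (Fin n) (Fin n) F) *ᵥ Pi.single j 1 ∈ D (blkOf e j)) →
    ∀ g : GL (Fin n) F, g ∈ Cfsg.Geo.decompositionStabilizer D ↔
      IsBlk (blkOf e) ((P⁻¹ * g * P : GL (Fin n) F) : Matrix (Fin n) (Fin n) F)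

end

end Cfsg.Agent.Lib.Helper44.UD
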