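import Mathlib
import Cfsg.Agent.Lib.Helper44.UDDefs

/-!
# S5655 (helper44): corrected piece statement `DHom2Stmt` (replaces `DHomStmt`: it also exports
the invertibility of the block of an element stabilising the line of `c0`).
-/

set_option autoImplicit false
set_option linter.unusedSectionVars false
set_option linter.unusedVariables false

namespace Cfsg.Agent.Lib.Helper44.UD

open Matrix Cfsg.Agent.Lib.Helper93 Cfsg.Agent.Lib.Helper18 Cfsg.Agent.Lib.Helper7

section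
variable (F : Type*) [Field F] [Fintype F] (q : ℕ)

def DHom2Stmt : Prop :=
  Fintype.card F = q ^ 2 → (2 : F) = 0 → ∀ (N : ℕ) (X : Subgroup (GL (Fin (N + 2)) F)),
    X ≤ Cfsg.GU (N + 2) F q →
    ∃ Y : Subgroup (GL (Fin N) F), Y ≤ Cfsg.GU N F q ∧
      (∀ A : GL (Fin N) F, A ∈ Y ↔ ∃ g ∈ X,
        (∃ κ : F, (g : Matrix (Fin (N + 2)) (Fin (N + 2)) F) *ᵥ c0 N = κ • c0 N) ∧
        ∀ i j : Fin N, (A : Matrix (Fin N) (Fin N) F) i j =
          (g : Matrix (Fin (N + 2)) (Fin (N + 2)) F) i.succ.succ j.succ.succ) ∧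
      (∀ g ∈ X, (∃ κ : F, (g : Matrix (Fin (N + 2)) (Fin (N + 2)) F) *ᵥ c0 N = κ • c0 N) →
        ∃ A : GL (Fin N) F, ∀ i j : Fin N, (A : Matrix (Fin N) (Fin N) F) i j =
          (g : Matrix (Fin (N + 2)) (Fin (N + 2)) F) i.succ.succ j.succ.succ)

end

end Cfsg.Agent.Lib.Helper44.UD
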