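import Mathlib
import Cfsg.Prelude.Def_GeometricClasses
import Cfsg.Prelude.Def_LieClassical
import Cfsg.Agent.Lib.Helper71.Asch5

/-! Project BAD (helper44, sub-project of helper49's SUG = S5663): a group of isometries of the
hermitian form in dimension 9 over the field with 4 elements which lies in a tensor product
`3 ⊗ 3` normalises a group `3^{1+4}`.  Definitions shared by the pieces. -/

set_option autoImplicit false

namespace Cfsg.Agent.Lib.Helper44.BAD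

open Matrix Cfsg.Geo Cfsg.Agent.Lib.Helper71.Asch
open scoped Kronecker

/-- the cyclic permutation matrix of size 3 -/
def bY (F : Type*) [Field F] : Matrix (Fin 3) (Fin 3) F := !![0, 0, 1; 1, 0, 0; 0, 1, 0]

/-- the group `3^{1+2}` over the field with 4 elements, as a set of matrices: the non-zero
multiples of `diag(1, d, d²) * Y ^ k` (over the field with 4 elements every `d ≠ 0` is a cube
root of unity) -/
def bS (F : Type*) [Field F] : Set (Matrix (Fin 3) (Fin 3) F) :=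
  {M | ∃ (c d : F) (k : ℕ), c ≠ 0 ∧ d ≠ 0 ∧ M = c • (Matrix.diagonal ![1, d, d ^ 2] * bY F ^ k)}

/-- the unitary matrices of size 3 for the standard hermitian form `Σ x_i y_i ^ q` -/
def bU (F : Type*) [Field F] (q : ℕ) : Set (Matrix (Fin 3) (Fin 3) F) :=
  {M | Mᵀ * M.map (fun x : F => x ^ q) = 1}

/-- a scalar matrix of size 3 -/
def bScal {F : Type*} [Field F] (M : Matrix (Fin 3) (Fin 3) F) : Prop :=
  ∃ c : F, M = c • (1 : Matrix (Fin 3) (Fin 3) F)

/-- `bS` is closed under products and inverses -/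
def SMULp (F : Type*) [Field F] : Prop :=
  (1 : Matrix (Fin 3) (Fin 3) F) ∈ bS F ∧ (∀ M ∈ bS F, ∀ M' ∈ bS F, M * M' ∈ bS F) ∧
  (∀ M ∈ bS F, ∃ M' ∈ bS F, M * M' = 1 ∧ M' * M = 1)

/-- commutators in `bS` are scalar -/
def SCOMp (F : Type*) [Field F] : Prop :=
  ∀ M ∈ bS F, ∀ M' ∈ bS F, ∃ c : F, c ≠ 0 ∧ M * M' = c • (M' * M)

/-- every unitary matrix normalises `bS` -/
def SNORMp (F : Type*) [Field F] : Prop :=
  ∀ g ∈ bU F 2, ∀ M ∈ bS F, ∃ M' ∈ bS F, g * M = M' * g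

/-- the unitary matrices are transitive on the non-scalar elements of `bS` -/
def STRANSp (F : Type*) [Field F] : Prop :=
  ∀ M ∈ bS F, ∀ M' ∈ bS F, ¬ bScal M → ¬ bScal M' → ∃ g ∈ bU F 2, g * M = M' * g

/-- auxiliary facts on the non-scalar elements of `bS` -/
def SAUXp (F : Type*) [Field F] : Prop :=
  (∃ M ∈ bS F, ¬ bScal M) ∧ (∀ M ∈ bS F, ¬ bScal M → ¬ bScal (M * M)) ∧
  (∀ s ∈ bS F, ∃ M ∈ bS F, ∃ M' ∈ bS F, ¬ bScal M ∧ ¬ bScal M' ∧ s = M * M')

variable {n : ℕ} {F : Type*} [Field F]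

/-- `E` is the group of the `P (a ⊗ b) P⁻¹`, `a, b ∈ bS` -/
def EIs (e : Fin n ≃ Fin 3 × Fin 3) (P : GL (Fin n) F) (E : Subgroup (GL (Fin n) F)) : Prop :=
  ∀ g : GL (Fin n) F, g ∈ E ↔ ∃ a ∈ bS F, ∃ b ∈ bS F, g.1 = tmat e P a b

/-- in the coordinates `P'`, `e` the hermitian form is `c` times the standard one -/
def StdF (q : ℕ) (e : Fin n ≃ Fin 3 × Fin 3) (P' : GL (Fin n) F) (c : F) : Prop :=
  ∀ x y : Fin 3 × Fin 3 → F, Cfsg.hermForm n F q (P'.1 *ᵥ (x ∘ e)) (P'.1 *ᵥ (y ∘ e)) =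
    c * ∑ a, x a * (y a) ^ q

end Cfsg.Agent.Lib.Helper44.BAD
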