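import Mathlib
import Cfsg.Agent.Lib.Helper44.Dickson
import Cfsg.Agent.Lib.Helper44.OrthForms
import Cfsg.Agent.Lib.Helper51.HypPairs

/-!
Splitting of conjugacy classes from the isometry group `O(Q)` to its commutator subgroup `Ω(Q)`
in characteristic two: an isometry fixing a non-singular vector commutes with a reflection, so
its `O`-class does not split.  For the minus-type form every involution fixes a non-singular
vector (totally singular subspaces have dimension at most `m - 1`).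
-/

set_option autoImplicit false

namespace Cfsg.Agent.Lib.Helper44

open Module QuadraticMap Cfsg.Agent.Lib.Helper52 Cfsg.Agent.Lib.Helper51

section Split

variable {ι : Type} [Fintype ι] [DecidableEq ι] {F : Type*} [Field F]
variable (Q : QuadraticForm F (ι → F))

/-- If `t` fixes a non-singular vector, every `O`-conjugate of `t` is an `Ω`-conjugate. -/
theorem conj_commutator_of_fixed [Fintype F] [Nonempty ι] (h2 : (2 : F) = 0)
    (hQ : (polarBilin Q).Nondegenerate) (h : Fintype.card F ≠ 2 ∨ Fintype.card ι ≠ 4)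
    (t s : ↥(Cfsg.isometryGroup F ⇑Q)) (u : ι → F) (hu : Q u ≠ 0)
    (htu : ((t : Matrix.GeneralLinearGroup ι F) : Matrix ι ι F).mulVec u = u)
    (hconj : IsConj t s) :
    ∃ g ∈ commutator ↥(Cfsg.isometryGroup F ⇑Q), g * t * g⁻¹ = s := by
  obtain ⟨c, hc⟩ := isConj_iff.mp hconj
  by_cases hcm : c ∈ commutator ↥(Cfsg.isometryGroup F ⇑Q)
  · exact ⟨c, hcm, hc⟩
  · have hu' : Q (((t : Matrix.GeneralLinearGroup ι F) : Matrix ι ι F).mulVec u) ≠ 0 := by
      rw [htu]; exact hu
    have h1 := conj_refl Q t u hu hu'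
    have h3 : refl Q (((t : Matrix.GeneralLinearGroup ι F) : Matrix ι ι F).mulVec u) hu' =
        refl Q u hu := by
      apply isometry_ext
      rw [coe_refl, coe_refl, htu]
    rw [h3] at h1
    have hcomm : refl Q u hu * t * (refl Q u hu)⁻¹ = t := by
      have h4 : t * refl Q u hu = refl Q u hu * t := mul_inv_eq_iff_eq_mul.mp h1
      rw [← h4]
      group
    have hcu : Q (((c : Matrix.GeneralLinearGroup ι F) : Matrix ι ι F).mulVec u) ≠ 0 := by
      rw [isometry_apply]; exact hu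
    have h5 := conj_refl Q c u hu hcu
    refine ⟨c * refl Q u hu, ?_, ?_⟩
    · have e : c * refl Q u hu =
          refl Q (((c : Matrix.GeneralLinearGroup ι F) : Matrix ι ι F).mulVec u) hcu * c := by
        rw [← h5]
        group
      rw [mem_commutator_iff_even_rank Q h2 hQ h, e, even_rank_flip Q hQ,
        ← mem_commutator_iff_even_rank Q h2 hQ h]
      exact hcm
    · have e : c * refl Q u hu * t * (c * refl Q u hu)⁻¹ =
          c * (refl Q u hu * t * (refl Q u hu)⁻¹) * c⁻¹ := by group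
      rw [e, hcomm, hc]

end Split

section Minus

open Matrix

/-- subspaces of `F^n` orthogonal for the dot product have dimensions adding to at most `n` -/
theorem finrank_add_le_of_dot' {F : Type*} [Field F] {n : ℕ} (X Y : Submodule F (Fin n → F))
    (h : ∀ x ∈ X, ∀ y ∈ Y, x ⬝ᵥ y = 0) : finrank F X + finrank F Y ≤ n := by
  classical
  set B : LinearMap.BilinForm F (Fin n → F) := Matrix.toBilin' (1 : Matrix (Fin n) (Fin n) F) with hB
  have hnd : B.Nondegenerate := by
    rw [hB, LinearMap.BilinForm.nondegenerate_toBilin'_iff_det_ne_zero]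
    simp
  have hle : Y ≤ B.orthogonal X := by
    intro y hy
    rw [LinearMap.BilinForm.mem_orthogonal_iff]
    intro x hx
    show B x y = 0
    rw [hB, Matrix.toBilin'_apply', Matrix.one_mulVec]
    exact h x hx y hy
  have h1 := Submodule.finrank_mono hle
  rw [LinearMap.BilinForm.finrank_orthogonal hnd, finrank_pi, Fintype.card_fin] at h1
  have h2 : finrank F X ≤ n := by
    have := Submodule.finrank_le X
    rwa [finrank_pi, Fintype.card_fin] at this
  omega

/-- A totally singular subspace of the minus-type form of dimension `2k + 2` has dimension at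
most `k`. -/
theorem finrank_le_of_singular_minus {F : Type*} [Field F] (k : ℕ) (a b : F)
    (hab : ∀ z₁ z₂ : F, z₁ ^ 2 + a * z₁ * z₂ + b * z₂ ^ 2 = 0 → z₁ = 0 ∧ z₂ = 0)
    (U : Submodule F ((Fin k ⊕ Fin k) ⊕ Fin 2 → F))
    (hU : ∀ u ∈ U, Cfsg.quadFormMinus k F a b u = 0) : finrank F U ≤ k := by
  let πx : ((Fin k ⊕ Fin k) ⊕ Fin 2 → F) →ₗ[F] (Fin k → F) :=
    LinearMap.funLeft F F (fun i => Sum.inl (Sum.inl i))
  let πy : ((Fin k ⊕ Fin k) ⊕ Fin 2 → F) →ₗ[F] (Fin k → F) :=
    LinearMap.funLeft F F (fun i => Sum.inl (Sum.inr i))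
  let T : U →ₗ[F] (Fin k → F) := πy.comp U.subtype
  let K := LinearMap.ker T
  have hKy : ∀ d ∈ K, ∀ i, (d : (Fin k ⊕ Fin k) ⊕ Fin 2 → F) (Sum.inl (Sum.inr i)) = 0 := by
    intro d hd i
    have : T d = 0 := hd
    exact congrFun this i
  have hKz : ∀ d ∈ K, (d : (Fin k ⊕ Fin k) ⊕ Fin 2 → F) (Sum.inr 0) = 0 ∧
      (d : (Fin k ⊕ Fin k) ⊕ Fin 2 → F) (Sum.inr 1) = 0 := by
    intro d hd
    have h1 := hU d.1 d.2
    unfold Cfsg.quadFormMinus at h1
    have h2 : ∑ i : Fin k, (d : (Fin k ⊕ Fin k) ⊕ Fin 2 → F) (Sum.inl (Sum.inl i)) *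
        (d : (Fin k ⊕ Fin k) ⊕ Fin 2 → F) (Sum.inl (Sum.inr i)) = 0 := by
      apply Finset.sum_eq_zero
      intro i _
      rw [hKy d hd i, mul_zero]
    rw [h2, zero_add] at h1
    exact hab _ _ h1
  let S : K →ₗ[F] (Fin k → F) := (πx.comp U.subtype).domRestrict K
  have hS_inj : Function.Injective S := by
    rw [injective_iff_map_eq_zero]
    intro d hd
    apply Subtype.ext
    apply Subtype.ext
    show (d.1 : (Fin k ⊕ Fin k) ⊕ Fin 2 → F) = 0
    ext i
    rcases i with (i | i) | i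
    · exact congrFun hd i
    · exact hKy d.1 d.2 i
    · fin_cases i
      · exact (hKz d.1 d.2).1
      · exact (hKz d.1 d.2).2
  have horth : ∀ x ∈ LinearMap.range S, ∀ y ∈ LinearMap.range T, x ⬝ᵥ y = 0 := by
    rintro x ⟨d, rfl⟩ y ⟨d', rfl⟩
    have h1 := hU (d.1 + d') (U.add_mem d.1.2 d'.2)
    have h2 := hU d' d'.2
    unfold Cfsg.quadFormMinus at h1 h2
    have hz := hKz d.1 d.2
    simp only [Pi.add_apply, hKy d.1 d.2, hz.1, hz.2, zero_add] at h1
    have h3 : ∑ i : Fin k, ((d.1 : (Fin k ⊕ Fin k) ⊕ Fin 2 → F) (Sum.inl (Sum.inl i)) +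
          (d' : (Fin k ⊕ Fin k) ⊕ Fin 2 → F) (Sum.inl (Sum.inl i))) *
          (d' : (Fin k ⊕ Fin k) ⊕ Fin 2 → F) (Sum.inl (Sum.inr i))
        = ∑ i : Fin k, (d.1 : (Fin k ⊕ Fin k) ⊕ Fin 2 → F) (Sum.inl (Sum.inl i)) *
            (d' : (Fin k ⊕ Fin k) ⊕ Fin 2 → F) (Sum.inl (Sum.inr i))
          + ∑ i : Fin k, (d' : (Fin k ⊕ Fin k) ⊕ Fin 2 → F) (Sum.inl (Sum.inl i)) *
            (d' : (Fin k ⊕ Fin k) ⊕ Fin 2 → F) (Sum.inl (Sum.inr i)) := by
      rw [← Finset.sum_add_distrib]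
      apply Finset.sum_congr rfl
      intro i _
      ring
    rw [h3] at h1
    have h4 : ∑ i : Fin k, (d.1 : (Fin k ⊕ Fin k) ⊕ Fin 2 → F) (Sum.inl (Sum.inl i)) *
        (d' : (Fin k ⊕ Fin k) ⊕ Fin 2 → F) (Sum.inl (Sum.inr i)) = 0 := by
      linear_combination h1 - h2
    exact h4
  have hdim := finrank_add_le_of_dot' _ _ horth
  have h5 : finrank F (LinearMap.range S) = finrank F K := LinearMap.finrank_range_of_inj hS_inj
  have h6 := LinearMap.finrank_range_add_finrank_ker T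
  have h7 : finrank F (LinearMap.ker T) = finrank F K := rfl
  omega

/-- An involution in the isometry group of the minus-type form (characteristic two) fixes a
non-singular vector. -/
theorem exists_fixed_nonsingular_minus {F : Type*} [Field F] (h2 : (2 : F) = 0) (k : ℕ)
    (a b : F) (hab : ∀ z₁ z₂ : F, z₁ ^ 2 + a * z₁ * z₂ + b * z₂ ^ 2 = 0 → z₁ = 0 ∧ z₂ = 0)
    (t : ↥(Cfsg.isometryGroup F ⇑(QMinus k F a b))) (ht : t * t = 1) :
    ∃ u : (Fin k ⊕ Fin k) ⊕ Fin 2 → F, QMinus k F a b u ≠ 0 ∧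
      ((t : Matrix.GeneralLinearGroup ((Fin k ⊕ Fin k) ⊕ Fin 2) F) :
        Matrix ((Fin k ⊕ Fin k) ⊕ Fin 2) ((Fin k ⊕ Fin k) ⊕ Fin 2) F).mulVec u = u := by
  by_contra hcon
  push Not at hcon
  set Tt : ((Fin k ⊕ Fin k) ⊕ Fin 2 → F) →ₗ[F] ((Fin k ⊕ Fin k) ⊕ Fin 2 → F) :=
    Matrix.toLin' ((t : Matrix.GeneralLinearGroup ((Fin k ⊕ Fin k) ⊕ Fin 2) F) :
      Matrix ((Fin k ⊕ Fin k) ⊕ Fin 2) ((Fin k ⊕ Fin k) ⊕ Fin 2) F) with hTt
  have hTT : ∀ x, Tt (Tt x) = x := by
    intro x
    rw [hTt, ← Matrix.toLin'_mul_apply, ← coe_mul', ht]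
    simp
  have hsing : ∀ u ∈ LinearMap.ker (sid Tt), Cfsg.quadFormMinus k F a b u = 0 := by
    intro u hu
    have h1 : Tt u = u := by
      have : sid Tt u = 0 := hu
      rw [sid_apply, sub_eq_zero] at this
      exact this
    have h3 : QMinus k F a b u = 0 := by
      by_contra h4
      apply hcon u h4
      rw [← Matrix.toLin'_apply]
      exact h1
    rw [coe_QMinus] at h3
    exact h3
  have hle := finrank_le_of_singular_minus k a b hab _ hsing
  have hrk : LinearMap.range (sid Tt) ≤ LinearMap.ker (sid Tt) := by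
    rintro _ ⟨x, rfl⟩
    show sid Tt (sid Tt x) = 0
    rw [sid_apply, sid_apply, map_sub, hTT]
    have : (2 : F) • (x - Tt x) = 0 := by rw [h2, zero_smul]
    rw [two_smul] at this
    rw [← this]
    abel
  have h5 := Submodule.finrank_mono hrk
  have h6 := LinearMap.finrank_range_add_finrank_ker (sid Tt)
  rw [Module.finrank_fintype_fun_eq_card] at h6
  simp only [Fintype.card_sum, Fintype.card_fin] at h6
  omega

end Minus

end Cfsg.Agent.Lib.Helper44
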