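import Mathlib
import Cfsg.Agent.Lib.Helper44.Dickson
import Cfsg.Agent.Lib.Helper44.OrthSplit

/-!
Maximal totally singular subspaces and reflections: for a quadratic form with non-degenerate
polar form on a space of dimension `2m`, totally singular subspaces `U`, `U'` of dimension `m`
and a reflection `r`, the dimensions of `U ⊓ U'` and `U ⊓ r U'` differ by exactly one.
Consequence in characteristic two over a finite field: an isometry `g` lies in the commutator
subgroup of the isometry group iff `dim (U ⊓ g U) ≡ m (mod 2)`.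
-/

set_option autoImplicit false

namespace Cfsg.Agent.Lib.Helper44

open Module QuadraticMap Cfsg.Agent.Lib.Helper52

section Abstract

variable {F V : Type*} [Field F] [AddCommGroup V] [Module F V]

theorem finrank_map_inj [FiniteDimensional F V] (S : Submodule F V) (f : V →ₗ[F] V)
    (hinj : Function.Injective f) : finrank F (S.map f) = finrank F S := by
  have h1 : Function.Injective (f.comp S.subtype) := hinj.comp Subtype.val_injective
  have h2 := LinearMap.finrank_range_of_inj h1
  rw [LinearMap.range_comp, Submodule.range_subtype] at h2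
  exact h2

/-- A linear functional not vanishing on `X` cuts out a hyperplane of `X`. -/
theorem finrank_inf_ker_add_one [FiniteDimensional F V] (X : Submodule F V) (φ : V →ₗ[F] F)
    {x₀ : V} (hx₀ : x₀ ∈ X) (hφ : φ x₀ ≠ 0) :
    finrank F ↥(X ⊓ LinearMap.ker φ) + 1 = finrank F X := by
  have hnot : x₀ ∉ X ⊓ LinearMap.ker φ := fun h => hφ h.2
  have e : X = (X ⊓ LinearMap.ker φ) ⊔ Submodule.span F {x₀} := by
    apply le_antisymm
    · intro x hx
      have h1 : x = (x - (φ x / φ x₀) • x₀) + (φ x / φ x₀) • x₀ := by abel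
      rw [h1]
      refine Submodule.add_mem _ (Submodule.mem_sup_left ⟨?_, ?_⟩)
        (Submodule.mem_sup_right (Submodule.smul_mem _ _ (Submodule.mem_span_singleton_self x₀)))
      · exact X.sub_mem hx (X.smul_mem _ hx₀)
      · show φ (x - (φ x / φ x₀) • x₀) = 0
        rw [map_sub, map_smul, smul_eq_mul, div_mul_cancel₀ _ hφ, sub_self]
    · apply sup_le inf_le_left
      rw [Submodule.span_singleton_le_iff_mem]
      exact hx₀
  have h3 := finrank_sup_span_singleton (X ⊓ LinearMap.ker φ) hnot
  rw [← e] at h3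
  exact h3.symm

theorem inf_ker_eq_of_forall (X : Submodule F V) (φ : V →ₗ[F] F) (h : ∀ x ∈ X, φ x = 0) :
    X ⊓ LinearMap.ker φ = X :=
  inf_eq_left.mpr (fun x hx => h x hx)

theorem polar_of_singular (Q : QuadraticForm F V) (U : Submodule F V) (hU : ∀ x ∈ U, Q x = 0)
    {x y : V} (hx : x ∈ U) (hy : y ∈ U) : polar Q x y = 0 := by
  rw [polar, hU _ (U.add_mem hx hy), hU x hx, hU y hy]
  ring

/-- A totally singular subspace of half the dimension is its own orthogonal complement. -/
theorem orthogonal_eq_of_singular [FiniteDimensional F V] (Q : QuadraticForm F V)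
    (hQ : (polarBilin Q).Nondegenerate) (U : Submodule F V) (hU : ∀ x ∈ U, Q x = 0)
    (hd : 2 * finrank F U = finrank F V) :
    LinearMap.BilinForm.orthogonal (polarBilin Q) U = U := by
  symm
  apply Submodule.eq_of_le_of_finrank_eq
  · intro y hy
    rw [LinearMap.BilinForm.mem_orthogonal_iff]
    intro x hx
    exact polar_of_singular Q U hU hx hy
  · rw [LinearMap.BilinForm.finrank_orthogonal hQ]
    omega

theorem polar_qrefl_right (Q : QuadraticForm F V) {u : V} (hu : Q u ≠ 0) (y : V) :
    polar Q (qrefl Q u y) u = -polar Q y u := by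
  have h1 : polar Q (qrefl Q u y) (qrefl Q u (-u)) = polar Q y (-u) :=
    polar_of_isometry Q (fun x => qrefl_isometry Q hu x) y (-u)
  rw [map_neg, qrefl_self Q hu, neg_neg, polar_neg_right] at h1
  exact h1

/-- Reflecting one of two maximal totally singular subspaces changes the dimension of their
intersection by exactly one. -/
theorem finrank_inf_flip [FiniteDimensional F V] (Q : QuadraticForm F V)
    (hQ : (polarBilin Q).Nondegenerate) (U U' : Submodule F V) (hU : ∀ x ∈ U, Q x = 0)
    (hU' : ∀ x ∈ U', Q x = 0) (hd : 2 * finrank F U = finrank F V)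
    (hd' : 2 * finrank F U' = finrank F V) (u : V) (hu : Q u ≠ 0) :
    finrank F ↥(U ⊓ U'.map (qrefl Q u)) + 1 = finrank F ↥(U ⊓ U') ∨
      finrank F ↥(U ⊓ U'.map (qrefl Q u)) = finrank F ↥(U ⊓ U') + 1 := by
  set φ : V →ₗ[F] F := (polarBilin Q).flip u with hφ
  have hφa : ∀ x, φ x = polar Q x u := fun x => rfl
  set U'' : Submodule F V := U'.map (qrefl Q u) with hU''
  -- the hyperplane sections coincide
  have hsec : U'' ⊓ LinearMap.ker φ = U' ⊓ LinearMap.ker φ := by
    ext x
    simp only [Submodule.mem_inf, LinearMap.mem_ker, hφa]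
    constructor
    · rintro ⟨⟨y, hy, rfl⟩, hx⟩
      rw [polar_qrefl_right Q hu, neg_eq_zero] at hx
      have hyx : qrefl Q u y = y := qrefl_fix Q hx
      rw [hyx]
      exact ⟨hy, hx⟩
    · rintro ⟨hx, hxu⟩
      exact ⟨⟨x, hx, qrefl_fix Q hxu⟩, hxu⟩
  have hsec' : (U ⊓ U'') ⊓ LinearMap.ker φ = (U ⊓ U') ⊓ LinearMap.ker φ := by
    rw [inf_assoc, hsec, ← inf_assoc]
  -- `u` is not in `U'`
  have huU' : u ∉ U' := fun h => hu (hU' u h)
  have hU'perp := orthogonal_eq_of_singular Q hQ U' hU' hd'
  have hUperp := orthogonal_eq_of_singular Q hQ U hU hd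
  obtain ⟨x₁, hx₁, hx₁u⟩ : ∃ x ∈ U', φ x ≠ 0 := by
    by_contra hcon
    push Not at hcon
    apply huU'
    rw [← hU'perp, LinearMap.BilinForm.mem_orthogonal_iff]
    intro x hx
    exact hcon x hx
  -- not both
  have hnot : ¬ ((∃ x ∈ U ⊓ U', φ x ≠ 0) ∧ (∃ y ∈ U ⊓ U'', φ y ≠ 0)) := by
    rintro ⟨⟨x, ⟨hxU, hxU'⟩, hxu⟩, ⟨y, ⟨hyU, ⟨x', hx', rfl⟩⟩, hyu⟩⟩
    rw [hφa] at hxu hyu
    rw [polar_qrefl_right Q hu, neg_ne_zero] at hyu
    have h1 : polar Q x (qrefl Q u x') = 0 := polar_of_singular Q U hU hxU hyU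
    rw [qrefl_apply, polar_sub_right, polar_smul_right, polar_of_singular Q U' hU' hxU' hx',
      zero_sub, neg_eq_zero, smul_eq_mul] at h1
    exact mul_ne_zero (mul_ne_zero (inv_ne_zero hu) hyu) hxu h1
  -- at least one
  have hone : (∃ x ∈ U ⊓ U', φ x ≠ 0) ∨ (∃ y ∈ U ⊓ U'', φ y ≠ 0) := by
    set H : Submodule F V := U' ⊓ LinearMap.ker φ with hH
    have hHdim : finrank F H + 1 = finrank F U' := finrank_inf_ker_add_one U' φ hx₁ hx₁u
    set W : Submodule F V := U ⊔ H with hW
    have hWdim := Submodule.finrank_sup_add_finrank_inf_eq U H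
    have hWperp := LinearMap.BilinForm.finrank_orthogonal hQ W
    have hWle : finrank F W ≤ finrank F V := Submodule.finrank_le W
    have hlt : finrank F ↥(U ⊓ H) < finrank F ↥(LinearMap.BilinForm.orthogonal (polarBilin Q) W) := by
      rw [← hW] at hWdim
      omega
    have hWU : LinearMap.BilinForm.orthogonal (polarBilin Q) W ≤ U := by
      have := LinearMap.BilinForm.orthogonal_le (B := polarBilin Q) (le_sup_left : U ≤ W)
      rwa [hUperp] at this
    obtain ⟨z, hzW, hzH⟩ : ∃ z ∈ LinearMap.BilinForm.orthogonal (polarBilin Q) W, z ∉ H := by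
      by_contra hcon
      push Not at hcon
      have hle : LinearMap.BilinForm.orthogonal (polarBilin Q) W ≤ U ⊓ H :=
        le_inf hWU (fun z hz => hcon z hz)
      have := Submodule.finrank_mono hle
      omega
    have hzU : z ∈ U := hWU hzW
    -- `H^⊥ = U' ⊔ span u`
    have hHperp : LinearMap.BilinForm.orthogonal (polarBilin Q) H = U' ⊔ Submodule.span F {u} := by
      symm
      apply Submodule.eq_of_le_of_finrank_eq
      · apply sup_le
        · intro y hy
          rw [LinearMap.BilinForm.mem_orthogonal_iff]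
          intro x hx
          exact polar_of_singular Q U' hU' hx.1 hy
        · rw [Submodule.span_singleton_le_iff_mem, LinearMap.BilinForm.mem_orthogonal_iff]
          intro x hx
          exact hx.2
      · rw [finrank_sup_span_singleton U' huU', LinearMap.BilinForm.finrank_orthogonal hQ]
        omega
    have hzH' : z ∈ U' ⊔ Submodule.span F {u} := by
      rw [← hHperp]
      exact LinearMap.BilinForm.orthogonal_le (B := polarBilin Q) (le_sup_right : H ≤ W) hzW
    obtain ⟨x, hx, w, hw, rfl⟩ := Submodule.mem_sup.mp hzH'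
    obtain ⟨c, rfl⟩ := Submodule.mem_span_singleton.mp hw
    have hQz : c * (c * Q u + polar Q x u) = 0 := by
      have h1 := hU _ hzU
      rw [QuadraticMap.map_add (⇑Q), QuadraticMap.map_smul, polar_smul_right, hU' x hx] at h1
      simp only [smul_eq_mul] at h1
      linear_combination h1
    rcases mul_eq_zero.mp hQz with hc | hc
    · left
      rw [hc, zero_smul, add_zero] at hzU hzH
      refine ⟨x, ⟨hzU, hx⟩, fun h => hzH ⟨hx, h⟩⟩
    · right
      have hpx : polar Q x u = -(c * Q u) := by linear_combination hc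
      have hc0 : c ≠ 0 := by
        rintro rfl
        rw [zero_smul, add_zero] at hzH
        apply hzH
        refine ⟨hx, ?_⟩
        show φ x = 0
        rw [hφa, hpx]
        simp
      have hrx : qrefl Q u x = x + c • u := by
        rw [qrefl_apply, hpx]
        have : (Q u)⁻¹ * -(c * Q u) = -c := by field_simp
        rw [this, neg_smul, sub_neg_eq_add]
      refine ⟨x + c • u, ⟨hzU, ⟨x, hx, hrx⟩⟩, ?_⟩
      rw [hφa, ← hrx, polar_qrefl_right Q hu, hpx, neg_neg]
      exact mul_ne_zero hc0 hu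
  -- conclusion
  by_cases h1 : ∃ x ∈ U ⊓ U', φ x ≠ 0
  · left
    have h2 : ¬ ∃ y ∈ U ⊓ U'', φ y ≠ 0 := fun h => hnot ⟨h1, h⟩
    push Not at h2
    obtain ⟨x, hx, hxu⟩ := h1
    have e1 := finrank_inf_ker_add_one (U ⊓ U') φ hx hxu
    have e2 := inf_ker_eq_of_forall (U ⊓ U'') φ h2
    rw [← hsec', e2] at e1
    exact e1
  · right
    obtain ⟨y, hy, hyu⟩ := hone.resolve_left h1
    push Not at h1
    have e1 := finrank_inf_ker_add_one (U ⊓ U'') φ hy hyu
    have e2 := inf_ker_eq_of_forall (U ⊓ U') φ h1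
    rw [hsec', e2] at e1
    exact e1.symm

end Abstract

section Mat

open Cfsg.Agent.Lib.Helper51

variable {ι : Type} [Fintype ι] [DecidableEq ι] {F : Type*} [Field F]
variable (Q : QuadraticForm F (ι → F))

theorem toLin'_iso_injective (g : ↥(Cfsg.isometryGroup F ⇑Q)) :
    Function.Injective (Matrix.toLin' ((g : Matrix.GeneralLinearGroup ι F) : Matrix ι ι F)) := by
  apply Function.LeftInverse.injective (g := Matrix.toLin'
    (((g⁻¹ : ↥(Cfsg.isometryGroup F ⇑Q)) : Matrix.GeneralLinearGroup ι F) : Matrix ι ι F))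
  intro x
  rw [Matrix.toLin'_apply, Matrix.toLin'_apply]
  exact coe_inv_mulVec' Q g x

theorem toLin'_iso_surjective (g : ↥(Cfsg.isometryGroup F ⇑Q)) :
    Function.Surjective (Matrix.toLin' ((g : Matrix.GeneralLinearGroup ι F) : Matrix ι ι F)) := by
  apply Function.RightInverse.surjective (g := Matrix.toLin'
    (((g⁻¹ : ↥(Cfsg.isometryGroup F ⇑Q)) : Matrix.GeneralLinearGroup ι F) : Matrix ι ι F))
  intro x
  rw [Matrix.toLin'_apply, Matrix.toLin'_apply]
  exact coe_inv_mulVec Q g x

theorem toLin'_sub_one (M : Matrix ι ι F) : Matrix.toLin' (M - 1) = sid (Matrix.toLin' M) := by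
  apply LinearMap.ext
  intro x
  rw [sid_apply, Matrix.toLin'_apply, Matrix.toLin'_apply, Matrix.sub_mulVec, Matrix.one_mulVec]

/-- A property of isometries whose truth value is flipped by every reflection characterises the
commutator subgroup (characteristic two). -/
theorem mem_commutator_iff_of_flip [Fintype F] [Nonempty ι] (h2 : (2 : F) = 0)
    (hQ : (polarBilin Q).Nondegenerate) (h : Fintype.card F ≠ 2 ∨ Fintype.card ι ≠ 4)
    (P : ↥(Cfsg.isometryGroup F ⇑Q) → Prop)
    (hP : ∀ (g : ↥(Cfsg.isometryGroup F ⇑Q)) (u : ι → F) (hu : Q u ≠ 0),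
      P (refl Q u hu * g) ↔ ¬ P g)
    (g : ↥(Cfsg.isometryGroup F ⇑Q)) :
    g ∈ commutator ↥(Cfsg.isometryGroup F ⇑Q) ↔ (P g ↔ P 1) := by
  rw [commutator_eq_pair_two Q h2 hQ h]
  have key : ∀ x ∈ Subgroup.closure (pairSet Q), ∀ y : ↥(Cfsg.isometryGroup F ⇑Q),
      (P (x * y) ↔ P y) := by
    intro x hx
    induction hx using Subgroup.closure_induction with
    | mem x hx =>
      intro y
      obtain ⟨u, v, hu, hv, rfl⟩ := eq_refl_mul_refl_of_mem_pairSet Q hx
      rw [mul_assoc, hP _ u hu, hP _ v hv, not_not]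
    | one =>
      intro y
      rw [one_mul]
    | mul a b _ _ ha hb =>
      intro y
      rw [mul_assoc, ha, hb]
    | inv a _ ha =>
      intro y
      have := ha (a⁻¹ * y)
      rw [mul_inv_cancel_left] at this
      exact this.symm
  constructor
  · intro hg
    have := key g hg 1
    rwa [mul_one] at this
  · intro hev
    rcases mem_or_forall_refl Q (closure_reflSet_eq_top_of_finite Q hQ h) g with hg | hg
    · exact hg
    · exfalso
      obtain ⟨v, hv⟩ := exists_Q_ne_zero Q hQ
      have h1 := hg _ (refl_mem_reflSet Q v hv)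
      have h3 := key _ h1 1
      rw [mul_one, hP g v hv, ← hev] at h3
      exact (not_iff_self h3)

/-- Reflections flip the parity of `dim (U ⊓ g U)` for a maximal totally singular `U`. -/
theorem even_inf_flip (hQ : (polarBilin Q).Nondegenerate) (U : Submodule F (ι → F))
    (hU : ∀ x ∈ U, Q x = 0) (hd : 2 * finrank F U = Fintype.card ι)
    (g : ↥(Cfsg.isometryGroup F ⇑Q)) (u : ι → F) (hu : Q u ≠ 0) :
    Even (finrank F ↥(U ⊓ U.map (Matrix.toLin'
        (((refl Q u hu * g : ↥(Cfsg.isometryGroup F ⇑Q)) : Matrix.GeneralLinearGroup ι F) :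
          Matrix ι ι F)))) ↔
      ¬ Even (finrank F ↥(U ⊓ U.map (Matrix.toLin'
        ((g : Matrix.GeneralLinearGroup ι F) : Matrix ι ι F)))) := by
  have e : Matrix.toLin' (((refl Q u hu * g : ↥(Cfsg.isometryGroup F ⇑Q)) :
      Matrix.GeneralLinearGroup ι F) : Matrix ι ι F) =
      qrefl Q u ∘ₗ Matrix.toLin' ((g : Matrix.GeneralLinearGroup ι F) : Matrix ι ι F) := by
    rw [coe_mul', coe_refl, Matrix.toLin'_mul, toLin'_reflectionMatrix]
  rw [e, Submodule.map_comp]
  have hV : finrank F (ι → F) = Fintype.card ι := Module.finrank_fintype_fun_eq_card F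
  have hU' : ∀ x ∈ U.map (Matrix.toLin' ((g : Matrix.GeneralLinearGroup ι F) : Matrix ι ι F)),
      Q x = 0 := by
    rintro _ ⟨y, hy, rfl⟩
    rw [toLin'_isometry Q g y]
    exact hU y hy
  have hd' : 2 * finrank F ↥(U.map (Matrix.toLin'
      ((g : Matrix.GeneralLinearGroup ι F) : Matrix ι ι F))) = finrank F (ι → F) := by
    rw [finrank_map_inj U _ (toLin'_iso_injective Q g), hV, hd]
  rcases finrank_inf_flip Q hQ U _ hU hU' (by rw [hV, hd]) hd' u hu with h | h
  · rw [← h, Nat.even_add_one, not_not]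
  · rw [h, Nat.even_add_one]

/-- In characteristic two, `g` lies in the commutator subgroup iff `dim (U ⊓ g U)` has the
parity of `dim U`, for a maximal totally singular subspace `U`. -/
theorem mem_commutator_iff_even_inf [Fintype F] [Nonempty ι] (h2 : (2 : F) = 0)
    (hQ : (polarBilin Q).Nondegenerate) (h : Fintype.card F ≠ 2 ∨ Fintype.card ι ≠ 4)
    (U : Submodule F (ι → F)) (hU : ∀ x ∈ U, Q x = 0) (hd : 2 * finrank F U = Fintype.card ι)
    (g : ↥(Cfsg.isometryGroup F ⇑Q)) :
    g ∈ commutator ↥(Cfsg.isometryGroup F ⇑Q) ↔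
      (Even (finrank F ↥(U ⊓ U.map (Matrix.toLin'
        ((g : Matrix.GeneralLinearGroup ι F) : Matrix ι ι F)))) ↔ Even (finrank F U)) := by
  have key := mem_commutator_iff_of_flip Q h2 hQ h
    (fun g => Even (finrank F ↥(U ⊓ U.map (Matrix.toLin'
      ((g : Matrix.GeneralLinearGroup ι F) : Matrix ι ι F)))))
    (fun g u hu => even_inf_flip Q hQ U hU hd g u hu) g
  have e : U ⊓ U.map (Matrix.toLin' (((1 : ↥(Cfsg.isometryGroup F ⇑Q)) :
      Matrix.GeneralLinearGroup ι F) : Matrix ι ι F)) = U := by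
    have : Matrix.toLin' (((1 : ↥(Cfsg.isometryGroup F ⇑Q)) :
        Matrix.GeneralLinearGroup ι F) : Matrix ι ι F) = LinearMap.id := by
      show Matrix.toLin' (1 : Matrix ι ι F) = LinearMap.id
      exact Matrix.toLin'_one
    rw [this, Submodule.map_id, inf_idem]
  rw [e] at key
  exact key

/-- Conjugation transports the image of `t - 1`. -/
theorem range_conj (c t s : ↥(Cfsg.isometryGroup F ⇑Q)) (hc : c * t * c⁻¹ = s) :
    LinearMap.range (Matrix.toLin' (((s : Matrix.GeneralLinearGroup ι F) : Matrix ι ι F) - 1)) =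
      (LinearMap.range (Matrix.toLin'
        (((t : Matrix.GeneralLinearGroup ι F) : Matrix ι ι F) - 1))).map
        (Matrix.toLin' ((c : Matrix.GeneralLinearGroup ι F) : Matrix ι ι F)) := by
  have e : ((s : Matrix.GeneralLinearGroup ι F) : Matrix ι ι F) - 1 =
      ((c : Matrix.GeneralLinearGroup ι F) : Matrix ι ι F) *
        (((t : Matrix.GeneralLinearGroup ι F) : Matrix ι ι F) - 1) *
        (((c⁻¹ : ↥(Cfsg.isometryGroup F ⇑Q)) : Matrix.GeneralLinearGroup ι F) : Matrix ι ι F) := by
    have h1 : ((s : Matrix.GeneralLinearGroup ι F) : Matrix ι ι F) =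
        ((c : Matrix.GeneralLinearGroup ι F) : Matrix ι ι F) *
          ((t : Matrix.GeneralLinearGroup ι F) : Matrix ι ι F) *
          (((c⁻¹ : ↥(Cfsg.isometryGroup F ⇑Q)) : Matrix.GeneralLinearGroup ι F) : Matrix ι ι F) := by
      rw [← hc]; rfl
    have h3 : ((c : Matrix.GeneralLinearGroup ι F) : Matrix ι ι F) *
        (((c⁻¹ : ↥(Cfsg.isometryGroup F ⇑Q)) : Matrix.GeneralLinearGroup ι F) : Matrix ι ι F) = 1 := by
      rw [← coe_mul', mul_inv_cancel]; rfl
    rw [h1, Matrix.mul_sub, Matrix.sub_mul, Matrix.mul_one, h3]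
  rw [e, Matrix.toLin'_mul, Matrix.toLin'_mul, LinearMap.range_comp_of_range_eq_top,
    LinearMap.range_comp]
  exact LinearMap.range_eq_top.mpr (toLin'_iso_surjective Q c⁻¹)

/-- Splitting of involution classes from `O` to `Ω` when `dim = 2m` (characteristic two). -/
theorem split_plus [Fintype F] [Nonempty ι] (h2 : (2 : F) = 0)
    (hQ : (polarBilin Q).Nondegenerate) (h : Fintype.card F ≠ 2 ∨ Fintype.card ι ≠ 4)
    (m : ℕ) (hm : Fintype.card ι = 2 * m) (t s : ↥(Cfsg.isometryGroup F ⇑Q)) (ht : t * t = 1)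
    (htO : t ∈ commutator ↥(Cfsg.isometryGroup F ⇑Q)) (hconj : IsConj t s) :
    (¬ ((((t : Matrix.GeneralLinearGroup ι F) : Matrix ι ι F) - 1).rank = m ∧
        ∀ v : ι → F, Q (v + Matrix.mulVec ((t : Matrix.GeneralLinearGroup ι F) : Matrix ι ι F) v) = 0) →
      ∃ g ∈ commutator ↥(Cfsg.isometryGroup F ⇑Q), g * t * g⁻¹ = s) ∧
    (((((t : Matrix.GeneralLinearGroup ι F) : Matrix ι ι F) - 1).rank = m ∧
        ∀ v : ι → F, Q (v + Matrix.mulVec ((t : Matrix.GeneralLinearGroup ι F) : Matrix ι ι F) v) = 0) →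
      ((∃ g ∈ commutator ↥(Cfsg.isometryGroup F ⇑Q), g * t * g⁻¹ = s) ↔
        Even (finrank F ↥(LinearMap.range (Matrix.toLin'
          (((t : Matrix.GeneralLinearGroup ι F) : Matrix ι ι F) - 1)) ⊓
          LinearMap.range (Matrix.toLin'
          (((s : Matrix.GeneralLinearGroup ι F) : Matrix ι ι F) - 1)))))) := by
  set Tt : (ι → F) →ₗ[F] (ι → F) :=
    Matrix.toLin' ((t : Matrix.GeneralLinearGroup ι F) : Matrix ι ι F) with hTt
  have hTT : ∀ x, Tt (Tt x) = x := by
    intro x
    rw [hTt, ← Matrix.toLin'_mul_apply, ← coe_mul', ht]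
    simp
  have hTtQ : ∀ x, Q (Tt x) = Q x := toLin'_isometry Q t
  have hsum : ∀ v : ι → F,
      v + Matrix.mulVec ((t : Matrix.GeneralLinearGroup ι F) : Matrix ι ι F) v = sid Tt v := by
    intro v
    rw [sid_apply, hTt, Matrix.toLin'_apply]
    have : (2 : F) • v = 0 := by rw [h2, zero_smul]
    rw [two_smul] at this
    have h3 : v = -v := by
      rw [eq_neg_iff_add_eq_zero]; exact this
    nth_rewrite 1 [h3]
    abel
  have hV : finrank F (ι → F) = Fintype.card ι := Module.finrank_fintype_fun_eq_card F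
  constructor
  · intro hnP
    by_cases hex : ∃ u : ι → F, Q u ≠ 0 ∧
        ((t : Matrix.GeneralLinearGroup ι F) : Matrix ι ι F).mulVec u = u
    · obtain ⟨u, hu, htu⟩ := hex
      exact conj_commutator_of_fixed Q h2 hQ h t s u hu htu hconj
    · exfalso
      apply hnP
      push Not at hex
      have hK : ∀ x ∈ LinearMap.ker (sid Tt), Q x = 0 := by
        intro x hx
        have h1 : Tt x = x := by
          have : sid Tt x = 0 := hx
          rw [sid_apply, sub_eq_zero] at this
          exact this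
        by_contra h4
        apply hex x h4
        rw [← Matrix.toLin'_apply]
        exact h1
      have hRK : LinearMap.range (sid Tt) ≤ LinearMap.ker (sid Tt) := by
        rintro _ ⟨x, rfl⟩
        show sid Tt (sid Tt x) = 0
        rw [sid_apply, sid_apply, map_sub, hTT]
        have : (2 : F) • (x - Tt x) = 0 := by rw [h2, zero_smul]
        rw [two_smul] at this
        rw [← this]
        abel
      have hKR : LinearMap.ker (sid Tt) ≤ LinearMap.range (sid Tt) := by
        rw [range_sub_id_eq_orthogonal Q hQ Tt hTtQ]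
        intro x hx
        rw [LinearMap.BilinForm.mem_orthogonal_iff]
        intro y hy
        exact polar_of_singular Q _ hK hy hx
      have heq : LinearMap.range (sid Tt) = LinearMap.ker (sid Tt) := le_antisymm hRK hKR
      have h6 := LinearMap.finrank_range_add_finrank_ker (sid Tt)
      rw [← heq, hV, hm] at h6
      refine ⟨?_, ?_⟩
      · rw [rank_sub_one, ← hTt]
        omega
      · intro v
        rw [hsum]
        exact hK _ (hRK ⟨v, rfl⟩)
  · rintro ⟨hrk, hsing⟩
    set U : Submodule F (ι → F) := LinearMap.range (Matrix.toLin'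
      (((t : Matrix.GeneralLinearGroup ι F) : Matrix ι ι F) - 1)) with hUdef
    have hUdim : finrank F U = m := by
      rw [hUdef, toLin'_sub_one, ← rank_sub_one]
      exact hrk
    have hU : ∀ x ∈ U, Q x = 0 := by
      rintro _ ⟨v, rfl⟩
      rw [toLin'_sub_one, ← hsum]
      exact hsing v
    have hd : 2 * finrank F U = Fintype.card ι := by rw [hUdim, hm]
    have hmeven : Even m := by
      rw [← hrk]
      exact (mem_commutator_iff_even_rank Q h2 hQ h t).mp htO
    constructor
    · rintro ⟨g, hg, hgt⟩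
      rw [range_conj Q g t s hgt]
      have := (mem_commutator_iff_even_inf Q h2 hQ h U hU hd g).mp hg
      rw [this, hUdim]
      exact hmeven
    · intro hev
      obtain ⟨c, hc⟩ := isConj_iff.mp hconj
      rw [range_conj Q c t s hc] at hev
      refine ⟨c, ?_, hc⟩
      rw [mem_commutator_iff_even_inf Q h2 hQ h U hU hd c, hUdim]
      exact iff_of_true hev hmeven

end Mat

end Cfsg.Agent.Lib.Helper44
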