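import Mathlib
import Cfsg.Prelude.Def_GeometricClasses

/-! Project O9 (helper44, statement S5835): shared definitions for the pieces FR9 / ST9. -/

set_option autoImplicit false

namespace Cfsg.Agent.Lib.Helper44.O9

open Matrix Cfsg.Geo

variable {F : Type*} [Field F]

/-- the decomposable vector `u ⊗ v` in the coordinates `Fin 2 → Fin 3` -/
def tvec (u v : Fin 3 → F) : (Fin 2 → Fin 3) → F := fun a => u (a 0) * v (a 1)

/-- the index bijection `Fin 9 ≃ Fin 3 × Fin 3` used for the nine lines -/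
def idx9 : Fin 9 ≃ Fin 3 × Fin 3 := (finProdFinEquiv (m := 3) (n := 3)).symm

/-- the nine lines spanned by the vectors `P ((w i ⊗ w j) ∘ e)` -/
def frame9 (e : Fin 9 ≃ (Fin 2 → Fin 3)) (P : GL (Fin 9) F) (w : Fin 3 → Fin 3 → F) :
    Fin 9 → Submodule F (Fin 9 → F) :=
  fun i => Submodule.span F {P.1 *ᵥ (tvec (w (idx9 i).1) (w (idx9 i).2) ∘ e)}

end Cfsg.Agent.Lib.Helper44.O9
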