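import Mathlib
import Cfsg.Prelude.Def_GeometricClasses
import Cfsg.Agent.Lib.Helper50.UnitForm

/-!
Rational structures for a quadratic subfield `F₀ ⊂ F` (helper44): vectors with coordinates in `F₀`,
the decomposition `x = a + θ b`, a unitary form whose `ζ`-multiple restricts to an alternating form on
the rational vectors, and the closure theorem: a set of vectors containing the rational ones, closed
under scalars and hyperbolic lines, and containing one isotropic vector that is not a multiple of a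
rational one, contains every isotropic vector.
-/

set_option autoImplicit false

namespace Cfsg.Agent.Lib.Helper44

open Matrix Cfsg.Agent.Lib.Helper50

section SubfClosure

variable {ι : Type} [Fintype ι] [DecidableEq ι] {F : Type*} [Field F]

/-- All coordinates lie in the subfield. -/
def RatV (F₀ : Subfield F) (u : ι → F) : Prop := ∀ i, u i ∈ F₀

omit [Fintype ι] [DecidableEq ι] in
theorem RatV.zero (F₀ : Subfield F) : RatV F₀ (0 : ι → F) := fun _ => F₀.zero_mem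

omit [Fintype ι] [DecidableEq ι] in
theorem RatV.add {F₀ : Subfield F} {u v : ι → F} (hu : RatV F₀ u) (hv : RatV F₀ v) :
    RatV F₀ (u + v) := fun i => F₀.add_mem (hu i) (hv i)

omit [Fintype ι] [DecidableEq ι] in
theorem RatV.sub {F₀ : Subfield F} {u v : ι → F} (hu : RatV F₀ u) (hv : RatV F₀ v) :
    RatV F₀ (u - v) := fun i => F₀.sub_mem (hu i) (hv i)

omit [Fintype ι] [DecidableEq ι] in
theorem RatV.smul {F₀ : Subfield F} {c : F} {u : ι → F} (hc : c ∈ F₀) (hu : RatV F₀ u) :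
    RatV F₀ (c • u) := fun i => F₀.mul_mem hc (hu i)

omit [Fintype ι] in
theorem RatV.single (F₀ : Subfield F) (j : ι) : RatV F₀ (Pi.single j (1 : F) : ι → F) := by
  intro i
  by_cases hij : i = j
  · subst hij
    rw [Pi.single_eq_same]
    exact F₀.one_mem
  · rw [Pi.single_eq_of_ne hij]
    exact F₀.zero_mem

/-- `θ` generates `F` over `F₀` as a two-dimensional extension. -/
structure IsTheta (F₀ : Subfield F) (θ : F) : Prop where
  notin : θ ∉ F₀
  dec : ∀ c : F, ∃ c₁ ∈ F₀, ∃ c₂ ∈ F₀, c = c₁ + θ * c₂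

variable {F₀ : Subfield F} {θ : F}

theorem IsTheta.unique (h : IsTheta F₀ θ) {c₁ c₂ : F} (h₁ : c₁ ∈ F₀) (h₂ : c₂ ∈ F₀)
    (h0 : c₁ + θ * c₂ = 0) : c₁ = 0 ∧ c₂ = 0 := by
  by_cases hc : c₂ = 0
  · subst hc
    rw [mul_zero, add_zero] at h0
    exact ⟨h0, rfl⟩
  · exfalso
    apply h.notin
    have : θ = -c₁ / c₂ := by
      rw [eq_div_iff hc]
      linear_combination h0
    rw [this]
    exact F₀.div_mem (F₀.neg_mem h₁) h₂

theorem IsTheta.ne_zero (h : IsTheta F₀ θ) : θ ≠ 0 := fun h0 => h.notin (h0 ▸ F₀.zero_mem)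

omit [Fintype ι] [DecidableEq ι] in
theorem IsTheta.vec_dec (h : IsTheta F₀ θ) (x : ι → F) :
    ∃ a b : ι → F, RatV F₀ a ∧ RatV F₀ b ∧ x = a + θ • b := by
  choose c₁ h₁ c₂ h₂ hc using h.dec
  refine ⟨fun i => c₁ (x i), fun i => c₂ (x i), fun i => h₁ _, fun i => h₂ _, funext fun i => ?_⟩
  rw [Pi.add_apply, Pi.smul_apply, smul_eq_mul]
  exact hc (x i)

omit [Fintype ι] [DecidableEq ι] in
theorem IsTheta.vec_unique (h : IsTheta F₀ θ) {a b : ι → F} (ha : RatV F₀ a) (hb : RatV F₀ b)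
    (h0 : a + θ • b = 0) : a = 0 ∧ b = 0 := by
  have key : ∀ i, a i = 0 ∧ b i = 0 := fun i => h.unique (ha i) (hb i) (by
    have := congrFun h0 i
    rwa [Pi.add_apply, Pi.smul_apply, smul_eq_mul, Pi.zero_apply] at this)
  exact ⟨funext fun i => (key i).1, funext fun i => (key i).2⟩

omit [Fintype ι] [DecidableEq ι] in
/-- Coefficients of a rational vector in terms of two `F`-independent rational vectors are
rational. -/
theorem IsTheta.coeff_mem (h : IsTheta F₀ θ) {r s ρ : ι → F} (hr : RatV F₀ r) (hs : RatV F₀ s)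
    (hind : ∀ x y : F, x • r + y • s = 0 → x = 0 ∧ y = 0) {p p' : F} (hρ : RatV F₀ ρ)
    (heq : ρ = p • r + p' • s) : p ∈ F₀ ∧ p' ∈ F₀ := by
  obtain ⟨p₁, hp₁, p₂, hp₂, rfl⟩ := h.dec p
  obtain ⟨q₁, hq₁, q₂, hq₂, rfl⟩ := h.dec p'
  have h0 : (p₁ • r + q₁ • s - ρ) + θ • (p₂ • r + q₂ • s) = 0 := by
    rw [heq]
    simp only [add_smul, mul_smul, smul_add]
    abel
  obtain ⟨-, h2⟩ := h.vec_unique (((hr.smul hp₁).add (hs.smul hq₁)).sub hρ)
    ((hr.smul hp₂).add (hs.smul hq₂)) h0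
  obtain ⟨e1, e2⟩ := hind _ _ h2
  subst e1 e2
  simp only [mul_zero, add_zero]
  exact ⟨hp₁, hq₁⟩

/-- An invertible matrix mapping every rational vector to a multiple of a rational vector is a
scalar multiple of a matrix with entries in the subfield. -/
theorem IsTheta.proj_rat_matrix (h : IsTheta F₀ θ) (A : Matrix ι ι F) (hA : IsUnit A.det) (j₀ : ι)
    (hproj : ∀ u, RatV F₀ u → ∃ (c : F) (r : ι → F), RatV F₀ r ∧ A *ᵥ u = c • r) :
    ∃ c : F, c ≠ 0 ∧ ∀ i j, c⁻¹ * A i j ∈ F₀ := by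
  have hinj : Function.Injective A.mulVec :=
    Matrix.mulVec_injective_iff_isUnit.mpr ((Matrix.isUnit_iff_isUnit_det A).mpr hA)
  choose lam ρ hρ hcol using fun j => hproj (Pi.single j 1) (RatV.single F₀ j)
  have hlam : ∀ j, lam j ≠ 0 := by
    intro j h0
    have h1 : A *ᵥ (Pi.single j 1) = A *ᵥ 0 := by
      rw [hcol, h0, zero_smul, Matrix.mulVec_zero]
    have h2 := congrFun (hinj h1) j
    rw [Pi.single_eq_same, Pi.zero_apply] at h2
    exact one_ne_zero h2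
  have hratio : ∀ j k, lam j / lam k ∈ F₀ := by
    intro j k
    by_cases hjk : j = k
    · subst hjk
      rw [div_self (hlam j)]
      exact F₀.one_mem
    obtain ⟨μ, ρ', hρ', hsum⟩ := hproj (Pi.single j 1 + Pi.single k 1)
      ((RatV.single F₀ j).add (RatV.single F₀ k))
    rw [Matrix.mulVec_add, hcol, hcol] at hsum
    have hind : ∀ x y : F, x • ρ j + y • ρ k = 0 → x = 0 ∧ y = 0 := by
      intro x y hxy
      have h1 : A *ᵥ ((x / lam j) • Pi.single j 1 + (y / lam k) • Pi.single k 1) = A *ᵥ 0 := by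
        rw [Matrix.mulVec_add, Matrix.mulVec_smul, Matrix.mulVec_smul, hcol, hcol, smul_smul,
          smul_smul, div_mul_cancel₀ _ (hlam j), div_mul_cancel₀ _ (hlam k), hxy,
          Matrix.mulVec_zero]
      have h2 := hinj h1
      have hj := congrFun h2 j
      have hk := congrFun h2 k
      simp only [Pi.add_apply, Pi.smul_apply, Pi.single_eq_same, smul_eq_mul, mul_one,
        Pi.single_eq_of_ne hjk, Pi.single_eq_of_ne (Ne.symm hjk), mul_zero, add_zero, zero_add,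
        Pi.zero_apply] at hj hk
      exact ⟨by simpa [hlam j] using hj, by simpa [hlam k] using hk⟩
    have hμ : μ ≠ 0 := by
      rintro rfl
      rw [zero_smul] at hsum
      exact hlam j (hind _ _ hsum).1
    have heq : ρ' = (lam j / μ) • ρ j + (lam k / μ) • ρ k := by
      have h1 : ρ' = μ⁻¹ • (lam j • ρ j + lam k • ρ k) := by
        rw [hsum, smul_smul, inv_mul_cancel₀ hμ, one_smul]
      rw [h1, smul_add, smul_smul, smul_smul, inv_mul_eq_div, inv_mul_eq_div]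
    obtain ⟨h1, h2⟩ := h.coeff_mem (hρ j) (hρ k) hind hρ' heq
    have h3 : lam j / lam k = (lam j / μ) / (lam k / μ) := by
      field_simp
    rw [h3]
    exact F₀.div_mem h1 h2
  refine ⟨lam j₀, hlam j₀, fun i j => ?_⟩
  have h1 : A i j = lam j * ρ j i := by
    have := congrFun (hcol j) i
    rwa [Matrix.mulVec_single_one, Pi.smul_apply, smul_eq_mul] at this
  rw [h1, ← mul_assoc, inv_mul_eq_div]
  exact F₀.mul_mem (hratio j j₀) (hρ j i)

/-- Data of a unitary form `f` for which `ζ f` restricts to an alternating `F₀`-valued form on the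
rational vectors, `F₀` being the fixed field of `σ`. -/
structure SubfData (σ : F ≃+* F) (f : (ι → F) → (ι → F) → F) (F₀ : Subfield F) (θ ζ : F) :
    Prop where
  uf : Cfsg.Geo.IsUnitaryForm σ f
  fix : ∀ c, c ∈ F₀ ↔ σ c = c
  theta : IsTheta F₀ θ
  zeta : ζ ≠ 0
  rat : ∀ u v, RatV F₀ u → RatV F₀ v → ζ * f u v ∈ F₀
  alt : ∀ u, RatV F₀ u → f u u = 0

/-- A set of vectors containing the rational ones, closed under non-zero scalars and under
hyperbolic lines. -/
structure CentreSet (f : (ι → F) → (ι → F) → F) (F₀ : Subfield F) (S : Set (ι → F)) : Prop where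
  rat : ∀ u, RatV F₀ u → u ∈ S
  smul : ∀ (c : F) (x : ι → F), c ≠ 0 → x ∈ S → c • x ∈ S
  line : ∀ (u v : ι → F) (α : F), u ∈ S → v ∈ S → f u u = 0 → f v v = 0 → f u v ≠ 0 →
    f (v + α • u) (v + α • u) = 0 → v + α • u ∈ S

variable {σ : F ≃+* F} {f : (ι → F) → (ι → F) → F} {ζ : F}

omit [Fintype ι] [DecidableEq ι] in
theorem SubfData.sigma_fix (D : SubfData σ f F₀ θ ζ) {c : F} (hc : c ∈ F₀) : σ c = c :=
  (D.fix c).1 hc

omit [Fintype ι] [DecidableEq ι] in
theorem SubfData.sigma_theta (D : SubfData σ f F₀ θ ζ) : σ θ ≠ θ :=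
  fun h => D.theta.notin ((D.fix θ).2 h)

omit [Fintype ι] [DecidableEq ι] in
theorem SubfData.skew (D : SubfData σ f F₀ θ ζ) {a b : ι → F} (ha : RatV F₀ a)
    (hb : RatV F₀ b) : f b a = - f a b := by
  have h := D.alt (a + b) (ha.add hb)
  rw [D.uf.add_left, uf_add_right D.uf, uf_add_right D.uf, D.alt a ha, D.alt b hb] at h
  linear_combination h

omit [Fintype ι] [DecidableEq ι] in
theorem SubfData.left_dec (D : SubfData σ f F₀ θ ζ) (a b y : ι → F) :
    f (a + θ • b) y = f a y + θ * f b y := by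
  rw [D.uf.add_left, D.uf.smul_left]

omit [Fintype ι] [DecidableEq ι] in
theorem SubfData.right_dec (D : SubfData σ f F₀ θ ζ) (a b y : ι → F) :
    f y (a + θ • b) = f y a + σ θ * f y b := by
  rw [uf_add_right D.uf, uf_smul_right D.uf]

omit [Fintype ι] [DecidableEq ι] in
theorem SubfData.iso_eq (D : SubfData σ f F₀ θ ζ) {a b : ι → F} (ha : RatV F₀ a)
    (hb : RatV F₀ b) : f (a + θ • b) (a + θ • b) = (σ θ - θ) * f a b := by
  rw [D.left_dec, D.right_dec, D.right_dec, D.alt a ha, D.alt b hb, D.skew ha hb]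
  ring

omit [Fintype ι] [DecidableEq ι] in
theorem SubfData.iso_iff (D : SubfData σ f F₀ θ ζ) {a b : ι → F} (ha : RatV F₀ a)
    (hb : RatV F₀ b) : f (a + θ • b) (a + θ • b) = 0 ↔ f a b = 0 := by
  rw [D.iso_eq ha hb, mul_eq_zero]
  constructor
  · rintro (h | h)
    · exact absurd (sub_eq_zero.mp h) D.sigma_theta
    · exact h
  · intro h
    exact Or.inr h

omit [Fintype ι] [DecidableEq ι] in
theorem SubfData.perp_split (D : SubfData σ f F₀ θ ζ) {a c c' : ι → F} (ha : RatV F₀ a)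
    (hc : RatV F₀ c) (hc' : RatV F₀ c') (h : f (c + θ • c') a = 0) : f c a = 0 ∧ f c' a = 0 := by
  rw [D.left_dec] at h
  have h2 : ζ * f c a + θ * (ζ * f c' a) = 0 := by linear_combination ζ * h
  obtain ⟨h3, h4⟩ := D.theta.unique (D.rat c a hc ha) (D.rat c' a hc' ha) h2
  exact ⟨(mul_eq_zero.mp h3).resolve_left D.zeta, (mul_eq_zero.mp h4).resolve_left D.zeta⟩

omit [Fintype ι] [DecidableEq ι] in
theorem SubfData.nondeg_rat (D : SubfData σ f F₀ θ ζ) {a : ι → F} (h0 : a ≠ 0) :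
    ∃ c, RatV F₀ c ∧ f c a ≠ 0 := by
  obtain ⟨x, hx⟩ := (D.uf.nondegenerate a h0).1
  obtain ⟨c, c', hc, hc', rfl⟩ := D.theta.vec_dec x
  rw [D.left_dec] at hx
  by_cases h : f c a = 0
  · refine ⟨c', hc', fun h' => hx ?_⟩
    rw [h, h', mul_zero, add_zero]
  · exact ⟨c, hc, h⟩

omit [Fintype ι] [DecidableEq ι] in
theorem SubfData.ratio_mem (D : SubfData σ f F₀ θ ζ) {a b c d : ι → F} (ha : RatV F₀ a)
    (hb : RatV F₀ b) (hc : RatV F₀ c) (hd : RatV F₀ d) : f a b / f c d ∈ F₀ := by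
  have h1 : f a b / f c d = (ζ * f a b) / (ζ * f c d) := (mul_div_mul_left _ _ D.zeta).symm
  rw [h1]
  exact F₀.div_mem (D.rat _ _ ha hb) (D.rat _ _ hc hd)

omit [Fintype ι] [DecidableEq ι] in
/-- A rational vector orthogonal to the rational part of `a^⊥` is a rational multiple of `a`. -/
theorem SubfData.dep_of_perp (D : SubfData σ f F₀ θ ζ) {a b : ι → F} (ha : RatV F₀ a)
    (hb : RatV F₀ b) (h0 : a ≠ 0) (h : ∀ c, RatV F₀ c → f c a = 0 → f c b = 0) :
    ∃ k ∈ F₀, b = k • a := by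
  obtain ⟨e, he, hea⟩ := D.nondeg_rat h0
  have hkF : f e b / f e a ∈ F₀ := D.ratio_mem he hb he ha
  refine ⟨f e b / f e a, hkF, ?_⟩
  have key : ∀ c, RatV F₀ c → f c (b - (f e b / f e a) • a) = 0 := by
    intro c hc
    have hm : f c a / f e a ∈ F₀ := D.ratio_mem hc ha he ha
    have h1 := h (c - (f c a / f e a) • e) (hc.sub (he.smul hm)) (by
      rw [uf_sub_left D.uf, D.uf.smul_left, div_mul_cancel₀ _ hea, sub_self])
    rw [uf_sub_left D.uf, D.uf.smul_left] at h1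
    rw [uf_sub_right D.uf, uf_smul_right D.uf, D.sigma_fix hkF]
    have h2 : f c b = f c a / f e a * f e b := sub_eq_zero.mp h1
    rw [h2]
    ring
  have hz : b - (f e b / f e a) • a = 0 := by
    apply uf_eq_zero_of_forall D.uf
    intro x
    obtain ⟨c, c', hc, hc', rfl⟩ := D.theta.vec_dec x
    rw [D.left_dec, key c hc, key c' hc', mul_zero, add_zero]
  exact sub_eq_zero.mp hz

omit [Fintype ι] [DecidableEq ι] in
theorem SubfData.exists_both (D : SubfData σ f F₀ θ ζ) {a b b' : ι → F} (ha : RatV F₀ a)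
    (hb : RatV F₀ b) (hb' : RatV F₀ b') (h0 : a ≠ 0) (hb1 : ¬ ∃ k ∈ F₀, b = k • a)
    (hb2 : ¬ ∃ k ∈ F₀, b' = k • a) :
    ∃ c, RatV F₀ c ∧ f c a = 0 ∧ f c b ≠ 0 ∧ f c b' ≠ 0 := by
  have h1 : ∃ c, RatV F₀ c ∧ f c a = 0 ∧ f c b ≠ 0 := by
    by_contra hcon
    push Not at hcon
    exact hb1 (D.dep_of_perp ha hb h0 hcon)
  have h2 : ∃ c, RatV F₀ c ∧ f c a = 0 ∧ f c b' ≠ 0 := by
    by_contra hcon
    push Not at hcon
    exact hb2 (D.dep_of_perp ha hb' h0 hcon)
  obtain ⟨c₁, hc₁, h1a, h1b⟩ := h1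
  obtain ⟨c₂, hc₂, h2a, h2b⟩ := h2
  by_cases h3 : f c₁ b' = 0
  · by_cases h4 : f c₂ b = 0
    · refine ⟨c₁ + c₂, hc₁.add hc₂, ?_, ?_, ?_⟩
      · rw [D.uf.add_left, h1a, h2a, add_zero]
      · rw [D.uf.add_left, h4, add_zero]
        exact h1b
      · rw [D.uf.add_left, h3, zero_add]
        exact h2b
    · exact ⟨c₂, hc₂, h2a, h4, h2b⟩
  · exact ⟨c₁, hc₁, h1a, h1b, h3⟩

variable {S : Set (ι → F)}

omit [Fintype ι] [DecidableEq ι] in
theorem SubfData.move_b (D : SubfData σ f F₀ θ ζ) (C : CentreSet f F₀ S) {a b b' : ι → F}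
    (ha : RatV F₀ a) (hb : RatV F₀ b) (hb' : RatV F₀ b') (hT : a + θ • b ∈ S) (hab : f a b = 0)
    (hab' : f a b' = 0) (hbb : f b' b ≠ 0) : a + θ • b' ∈ S := by
  have e : a + θ • b + θ • (b' - b) = a + θ • b' := by
    rw [smul_sub]
    abel
  have h := C.line (b' - b) (a + θ • b) θ (C.rat _ (hb'.sub hb)) hT (D.alt _ (hb'.sub hb))
    ((D.iso_iff ha hb).2 hab) (by
      rw [D.right_dec, uf_sub_left D.uf, uf_sub_left D.uf, D.skew ha hb', D.skew ha hb, hab, hab',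
        D.alt b hb, neg_zero, sub_zero, sub_zero, zero_add]
      exact mul_ne_zero (fun h => D.theta.ne_zero (by simpa using h)) hbb) (by
      rw [e]
      exact (D.iso_iff ha hb').2 hab')
  rwa [e] at h

omit [Fintype ι] [DecidableEq ι] in
theorem SubfData.move_a (D : SubfData σ f F₀ θ ζ) (C : CentreSet f F₀ S) {a a' b : ι → F}
    (ha : RatV F₀ a) (ha' : RatV F₀ a') (hb : RatV F₀ b) (hT : a + θ • b ∈ S) (hab : f a b = 0)
    (hab' : f a' b = 0) (haa : f a' a ≠ 0) : a' + θ • b ∈ S := by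
  have e : a + θ • b + (1 : F) • (a' - a) = a' + θ • b := by
    rw [one_smul]
    abel
  have h := C.line (a' - a) (a + θ • b) 1 (C.rat _ (ha'.sub ha)) hT (D.alt _ (ha'.sub ha))
    ((D.iso_iff ha hb).2 hab) (by
      rw [D.right_dec, uf_sub_left D.uf, uf_sub_left D.uf, hab, hab', D.alt a ha, sub_zero,
        sub_zero, mul_zero, add_zero]
      exact haa) (by
      rw [e]
      exact (D.iso_iff ha' hb).2 hab')
  rwa [e] at h

omit [Fintype ι] [DecidableEq ι] in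
theorem SubfData.path_b (D : SubfData σ f F₀ θ ζ) (C : CentreSet f F₀ S) {a b b' : ι → F}
    (ha : RatV F₀ a) (hb : RatV F₀ b) (hb' : RatV F₀ b') (h0 : a ≠ 0)
    (hb1 : ¬ ∃ k ∈ F₀, b = k • a) (hb2 : ¬ ∃ k ∈ F₀, b' = k • a) (hT : a + θ • b ∈ S)
    (hab : f a b = 0) (hab' : f a b' = 0) : a + θ • b' ∈ S := by
  by_cases h : f b' b = 0
  · obtain ⟨c, hc, hca, hcb, hcb'⟩ := D.exists_both ha hb hb' h0 hb1 hb2
    have hac : f a c = 0 := by rw [D.skew hc ha, hca, neg_zero]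
    have h1 := D.move_b C ha hb hc hT hab hac hcb
    refine D.move_b C ha hc hb' h1 hac hab' ?_
    rw [D.skew hc hb']
    exact neg_ne_zero.mpr hcb'
  · exact D.move_b C ha hb hb' hT hab hab' h

omit [Fintype ι] [DecidableEq ι] in
theorem SubfData.path_a (D : SubfData σ f F₀ θ ζ) (C : CentreSet f F₀ S) {a a' b : ι → F}
    (ha : RatV F₀ a) (ha' : RatV F₀ a') (hb : RatV F₀ b) (h0 : b ≠ 0)
    (ha1 : ¬ ∃ k ∈ F₀, a = k • b) (ha2 : ¬ ∃ k ∈ F₀, a' = k • b) (hT : a + θ • b ∈ S)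
    (hab : f a b = 0) (hab' : f a' b = 0) : a' + θ • b ∈ S := by
  by_cases h : f a' a = 0
  · obtain ⟨c, hc, hcb, hca, hca'⟩ := D.exists_both hb ha ha' h0 ha1 ha2
    have h1 := D.move_a C ha hc hb hT hab hcb hca
    refine D.move_a C hc ha' hb h1 hcb hab' ?_
    rw [D.skew hc ha']
    exact neg_ne_zero.mpr hca'
  · exact D.move_a C ha ha' hb hT hab hab' h

/-- **Closure theorem.** A centre set containing one isotropic vector which is not a multiple of a
rational vector contains every isotropic vector. -/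
theorem SubfData.closure [Fintype F] (D : SubfData σ f F₀ θ ζ) (C : CentreSet f F₀ S)
    (hn : 7 ≤ Fintype.card ι) {x₀ : ι → F} (hx₀ : x₀ ∈ S) (hiso₀ : f x₀ x₀ = 0)
    (hnr : ¬ ∃ (c : F) (r : ι → F), RatV F₀ r ∧ x₀ = c • r) : ∀ x, f x x = 0 → x ∈ S := by
  obtain ⟨a₀, b₀, ha₀, hb₀, rfl⟩ := D.theta.vec_dec x₀
  have hab₀ : f a₀ b₀ = 0 := (D.iso_iff ha₀ hb₀).1 hiso₀
  have ha₀0 : a₀ ≠ 0 := by
    rintro rfl
    exact hnr ⟨θ, b₀, hb₀, by rw [zero_add]⟩
  have hb₀1 : ¬ ∃ k ∈ F₀, b₀ = k • a₀ := by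
    rintro ⟨k, hk, rfl⟩
    exact hnr ⟨1 + θ * k, a₀, ha₀, by rw [add_smul, one_smul, mul_smul]⟩
  intro x hx
  obtain ⟨a, b, ha, hb, rfl⟩ := D.theta.vec_dec x
  have hab : f a b = 0 := (D.iso_iff ha hb).1 hx
  by_cases ha0 : a = 0
  · subst ha0
    rw [zero_add]
    exact C.smul θ b D.theta.ne_zero (C.rat b hb)
  by_cases hb1 : ∃ k ∈ F₀, b = k • a
  · obtain ⟨k, hk, rfl⟩ := hb1
    have e : a + θ • k • a = (1 + θ * k) • a := by rw [add_smul, one_smul, mul_smul]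
    rw [e]
    by_cases hc : 1 + θ * k = 0
    · rw [hc, zero_smul]
      exact C.rat 0 (RatV.zero F₀)
    · exact C.smul _ a hc (C.rat a ha)
  obtain ⟨z, hz1, hz2, -, hzz⟩ := exists_noniso D.uf hn a₀ a a
  obtain ⟨c, c', hc, hc', rfl⟩ := D.theta.vec_dec z
  obtain ⟨h1, h1'⟩ := D.perp_split ha₀ hc hc' hz1
  obtain ⟨h2, h2'⟩ := D.perp_split ha hc hc' hz2
  have hcc : f c c' ≠ 0 := fun h => hzz ((D.iso_iff hc hc').2 h)
  have hc0 : c ≠ 0 := by
    rintro rfl
    exact hcc (uf_zero_left D.uf c')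
  have hca₀ : ¬ ∃ k ∈ F₀, c = k • a₀ := by
    rintro ⟨k, hk, rfl⟩
    apply hcc
    rw [D.uf.smul_left, D.skew hc' ha₀, h1', neg_zero, mul_zero]
  have hca : ¬ ∃ k ∈ F₀, c = k • a := by
    rintro ⟨k, hk, rfl⟩
    apply hcc
    rw [D.uf.smul_left, D.skew hc' ha, h2', neg_zero, mul_zero]
  have hf1 : f a₀ c = 0 := by rw [D.skew hc ha₀, h1, neg_zero]
  have hf2 : f a c = 0 := by rw [D.skew hc ha, h2, neg_zero]
  have s1 := D.path_b C ha₀ hb₀ hc ha₀0 hb₀1 hca₀ hx₀ hab₀ hf1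
  have ha₀c : ¬ ∃ k ∈ F₀, a₀ = k • c := by
    rintro ⟨k, hk, h⟩
    have hk0 : k ≠ 0 := by
      rintro rfl
      rw [zero_smul] at h
      exact ha₀0 h
    exact hca₀ ⟨k⁻¹, F₀.inv_mem hk, by rw [h, smul_smul, inv_mul_cancel₀ hk0, one_smul]⟩
  have hac : ¬ ∃ k ∈ F₀, a = k • c := by
    rintro ⟨k, hk, h⟩
    have hk0 : k ≠ 0 := by
      rintro rfl
      rw [zero_smul] at h
      exact ha0 h
    exact hca ⟨k⁻¹, F₀.inv_mem hk, by rw [h, smul_smul, inv_mul_cancel₀ hk0, one_smul]⟩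
  have s2 := D.path_a C ha₀ ha hc hc0 ha₀c hac s1 hf1 hf2
  exact D.path_b C ha hc hb ha0 hca hb1 s2 hf2 hab

end SubfClosure

end Cfsg.Agent.Lib.Helper44
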