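import Mathlib
import Cfsg.Prelude.Def_GeometricClasses
import Cfsg.Prelude.Def_LieClassical
import Cfsg.Prelude.Def_ClassicalGeometry
import Cfsg.Agent.Lib.Helper97.Transv
import Cfsg.Agent.Lib.Helper44.SubfClosure

/-!
Unitary transvection centres for the standard hermitian form and the symplectic subfield group
(helper44): field facts for `|F| = q²`, the standard form as an `IsUnitaryForm`, the centre
predicate `UC` (all unitary transvections with a given centre lie in `M`) with its closure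
properties, and the overgroup theorem for the subfield group of a rational structure on which
`ζ h` is alternating.
-/

set_option autoImplicit false

namespace Cfsg.Agent.Lib.Helper44

open Matrix Cfsg.Agent.Lib.Helper97 Cfsg.Agent.Lib.Helper50

open scoped Pointwise

section SubfUnitary

variable {F : Type*} [Field F] [Fintype F] {q : ℕ}

/-! ### Field facts -/

theorem frob_equiv_exists (hF : Fintype.card F = q ^ 2) : ∃ σ : F ≃+* F, ∀ x, σ x = x ^ q := by
  obtain ⟨p, hp⟩ := CharP.exists F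
  obtain ⟨k, hpprime, hk⟩ := FiniteField.card F p
  have : Fact p.Prime := ⟨hpprime⟩
  have hq : q ∣ p ^ (k : ℕ) := by
    rw [← hk, hF]
    exact dvd_pow_self q (by norm_num)
  obtain ⟨j, -, rfl⟩ := (Nat.dvd_prime_pow hpprime).1 hq
  have hinv : ∀ x : F, (x ^ p ^ j) ^ p ^ j = x := fun x => by
    rw [← pow_mul, ← sq, ← hF, FiniteField.pow_card]
  refine ⟨RingEquiv.ofRingHom (iterateFrobenius F p j) (iterateFrobenius F p j) ?_ ?_,
    fun x => ?_⟩
  · ext x
    rw [RingHom.comp_apply, iterateFrobenius_def, iterateFrobenius_def, hinv, RingHom.id_apply]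
  · ext x
    rw [RingHom.comp_apply, iterateFrobenius_def, iterateFrobenius_def, hinv, RingHom.id_apply]
  · show iterateFrobenius F p j x = _
    rw [iterateFrobenius_def]

omit [Fintype F] in
theorem pow_q_q [Fintype F] (hF : Fintype.card F = q ^ 2) (x : F) : (x ^ q) ^ q = x := by
  rw [← pow_mul, ← sq, ← hF, FiniteField.pow_card]

theorem card_subfield (hF : Fintype.card F = q ^ 2) (F₀ : Subfield F)
    (hcard : Fintype.card F = Nat.card F₀ ^ 2) : Nat.card F₀ = q := by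
  rw [hF] at hcard
  exact (Nat.pow_left_injective (by norm_num : (2 : ℕ) ≠ 0) hcard).symm

theorem mem_subfield_iff (hF : Fintype.card F = q ^ 2) (F₀ : Subfield F)
    (hcard : Fintype.card F = Nat.card F₀ ^ 2) (c : F) : c ∈ F₀ ↔ c ^ q = c := by
  classical
  have hq := card_subfield hF F₀ hcard
  have hfwd : ∀ x : F, x ∈ F₀ → x ^ q = x := by
    intro x hx
    have h1 := FiniteField.pow_card (⟨x, hx⟩ : F₀)
    have h2 : Fintype.card F₀ = q := by
      rw [← Nat.card_eq_fintype_card]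
      exact hq
    rw [h2] at h1
    exact congrArg Subtype.val h1
  refine ⟨hfwd c, fun hc => ?_⟩
  have hq2 : 1 < q := by
    rw [← hq, Nat.card_eq_fintype_card]
    exact Fintype.one_lt_card
  have hP : (Polynomial.X ^ q - Polynomial.X : Polynomial F) ≠ 0 :=
    FiniteField.X_pow_card_sub_X_ne_zero F hq2
  have hS : (Finset.univ.filter (fun x : F => x ^ q = x)).card ≤ q := by
    calc (Finset.univ.filter (fun x : F => x ^ q = x)).card
        ≤ (Polynomial.X ^ q - Polynomial.X : Polynomial F).roots.toFinset.card :=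
          Finset.card_le_card (fun x hx => by
            simp only [Finset.mem_filter, Finset.mem_univ, true_and] at hx
            simp [Polynomial.mem_roots hP, hx])
      _ ≤ Multiset.card (Polynomial.X ^ q - Polynomial.X : Polynomial F).roots :=
          Multiset.toFinset_card_le _
      _ ≤ (Polynomial.X ^ q - Polynomial.X : Polynomial F).natDegree := Polynomial.card_roots' _
      _ = q := FiniteField.X_pow_card_sub_X_natDegree_eq F hq2
  have hT : (Finset.univ.filter (fun x : F => x ∈ F₀)) ⊆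
      Finset.univ.filter (fun x : F => x ^ q = x) := by
    intro x hx
    simp only [Finset.mem_filter, Finset.mem_univ, true_and] at hx ⊢
    exact hfwd x hx
  have hTc : (Finset.univ.filter (fun x : F => x ∈ F₀)).card = q := by
    rw [← hq]
    exact (Nat.subtype_card _ (by simp)).symm
  have heq := Finset.eq_of_subset_of_card_le hT (by rw [hTc]; exact hS)
  have hc' : c ∈ Finset.univ.filter (fun x : F => x ^ q = x) := by simp [hc]
  rw [← heq] at hc'
  simpa using hc'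

theorem exists_theta (F₀ : Subfield F) (hcard : Fintype.card F = Nat.card F₀ ^ 2) :
    ∃ θ, IsTheta F₀ θ := by
  classical
  have h2 : 2 ≤ Nat.card F₀ := by
    rw [Nat.card_eq_fintype_card]
    exact Fintype.one_lt_card
  have hlt : Nat.card F₀ < Fintype.card F := by
    rw [hcard]
    nlinarith
  have hex : ∃ θ, θ ∉ F₀ := by
    by_contra hcon
    push Not at hcon
    have : Nat.card F₀ = Fintype.card F := by
      rw [← Nat.card_eq_fintype_card]
      exact Nat.card_congr (Equiv.subtypeUnivEquiv hcon)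
    omega
  obtain ⟨θ, hθ⟩ := hex
  refine ⟨θ, hθ, ?_⟩
  have hinj : Function.Injective (fun p : F₀ × F₀ => (p.1 : F) + θ * (p.2 : F)) := by
    rintro ⟨a, b⟩ ⟨a', b'⟩ h
    simp only at h
    by_cases hb : b = b'
    · subst hb
      have : (a : F) = a' := by linear_combination h
      rw [Subtype.ext this]
    · exfalso
      apply hθ
      have hb' : (b : F) - b' ≠ 0 := fun h0 => hb (Subtype.ext (sub_eq_zero.mp h0))
      have : θ = ((a' : F) - a) / ((b : F) - b') := by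
        rw [eq_div_iff hb']
        linear_combination h
      rw [this]
      exact F₀.div_mem (F₀.sub_mem a'.2 a.2) (F₀.sub_mem b.2 b'.2)
  have hbij : Function.Bijective (fun p : F₀ × F₀ => (p.1 : F) + θ * (p.2 : F)) := by
    rw [Fintype.bijective_iff_injective_and_card]
    refine ⟨hinj, ?_⟩
    rw [Fintype.card_prod, hcard, Nat.card_eq_fintype_card, sq]
  intro c
  obtain ⟨⟨a, b⟩, hab⟩ := hbij.2 c
  exact ⟨a, a.2, b, b.2, hab.symm⟩

/-! ### The standard hermitian form -/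

omit [Fintype F] in
theorem herm_add_left (n : ℕ) (x y v : Fin n → F) :
    Cfsg.hermForm n F q (x + y) v = Cfsg.hermForm n F q x v + Cfsg.hermForm n F q y v := by
  unfold Cfsg.hermForm
  simp [add_mul, Finset.sum_add_distrib]

omit [Fintype F] in
theorem herm_smul_left (n : ℕ) (c : F) (x v : Fin n → F) :
    Cfsg.hermForm n F q (c • x) v = c * Cfsg.hermForm n F q x v := by
  unfold Cfsg.hermForm
  simp [Finset.mul_sum, mul_assoc]

omit [Fintype F] in
theorem herm_symm (n : ℕ) (σ : F ≃+* F) (hσ : ∀ x, σ x = x ^ q) (hinv : ∀ a, σ (σ a) = a)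
    (v w : Fin n → F) : Cfsg.hermForm n F q v w = σ (Cfsg.hermForm n F q w v) := by
  unfold Cfsg.hermForm
  simp only [← hσ]
  rw [map_sum]
  refine Finset.sum_congr rfl fun i _ => ?_
  rw [map_mul, hinv, mul_comm]

theorem herm_unitary (hF : Fintype.card F = q ^ 2) (F₀ : Subfield F)
    (hcard : Fintype.card F = Nat.card F₀ ^ 2) (n : ℕ) (σ : F ≃+* F) (hσ : ∀ x, σ x = x ^ q) :
    Cfsg.Geo.IsUnitaryForm σ (Cfsg.hermForm n F q) where
  ne_refl := by
    intro h
    obtain ⟨θ, hθ⟩ := exists_theta F₀ hcard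
    apply hθ.notin
    rw [mem_subfield_iff hF F₀ hcard, ← hσ, h]
    rfl
  involutive := fun a => by rw [hσ, hσ, pow_q_q hF]
  add_left := herm_add_left n
  smul_left := herm_smul_left n
  herm := herm_symm n σ hσ (fun a => by rw [hσ, hσ, pow_q_q hF])
  nondegenerate := by
    intro v hv
    have hq0 : q ≠ 0 := by
      rintro rfl
      rw [zero_pow (by norm_num)] at hF
      exact Fintype.card_ne_zero hF
    obtain ⟨i, hi⟩ : ∃ i, v i ≠ 0 := by
      by_contra hcon
      push Not at hcon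
      exact hv (funext hcon)
    constructor
    · refine ⟨Pi.single i 1, ?_⟩
      unfold Cfsg.hermForm
      rw [Finset.sum_eq_single i]
      · rw [Pi.single_eq_same, one_mul]
        exact pow_ne_zero q hi
      · intro j _ hj
        rw [Pi.single_eq_of_ne hj, zero_mul]
      · intro h
        exact absurd (Finset.mem_univ i) h
    · refine ⟨Pi.single i 1, ?_⟩
      unfold Cfsg.hermForm
      rw [Finset.sum_eq_single i]
      · rw [Pi.single_eq_same, one_pow, mul_one]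
        exact hi
      · intro j _ hj
        rw [Pi.single_eq_of_ne hj, zero_pow hq0, mul_zero]
      · intro h
        exact absurd (Finset.mem_univ i) h

omit [Fintype F] in
/-- The pullback of a unitary form along an invertible matrix is a unitary form. -/
theorem uf_pullback {ι : Type} [Fintype ι] [DecidableEq ι] {σ : F ≃+* F}
    {f : (ι → F) → (ι → F) → F} (hf : Cfsg.Geo.IsUnitaryForm σ f) (P : GL ι F) :
    Cfsg.Geo.IsUnitaryForm σ
      (fun u v => f ((P : Matrix ι ι F) *ᵥ u) ((P : Matrix ι ι F) *ᵥ v)) where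
  ne_refl := hf.ne_refl
  involutive := hf.involutive
  add_left := fun x y v => by
    show f ((P : Matrix ι ι F) *ᵥ (x + y)) _ = _
    rw [Matrix.mulVec_add, hf.add_left]
  smul_left := fun c x v => by
    show f ((P : Matrix ι ι F) *ᵥ (c • x)) _ = _
    rw [Matrix.mulVec_smul, hf.smul_left]
  herm := fun v w => hf.herm _ _
  nondegenerate := by
    intro v hv
    have hPv : (P : Matrix ι ι F) *ᵥ v ≠ 0 := by
      intro h0
      apply hv
      have h1 : ((P⁻¹ : GL ι F) : Matrix ι ι F) *ᵥ ((P : Matrix ι ι F) *ᵥ v) = 0 := by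
        rw [h0, Matrix.mulVec_zero]
      rwa [Matrix.mulVec_mulVec, ← Units.val_mul, inv_mul_cancel, Units.val_one,
        Matrix.one_mulVec] at h1
    have hback : ∀ x : ι → F,
        (P : Matrix ι ι F) *ᵥ (((P⁻¹ : GL ι F) : Matrix ι ι F) *ᵥ x) = x := by
      intro x
      rw [Matrix.mulVec_mulVec, ← Units.val_mul, mul_inv_cancel, Units.val_one,
        Matrix.one_mulVec]
    obtain ⟨⟨x, hx⟩, ⟨y, hy⟩⟩ := hf.nondegenerate _ hPv
    refine ⟨⟨((P⁻¹ : GL ι F) : Matrix ι ι F) *ᵥ x, ?_⟩, ⟨((P⁻¹ : GL ι F) : Matrix ι ι F) *ᵥ y, ?_⟩⟩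
    · show f ((P : Matrix ι ι F) *ᵥ _) _ ≠ 0
      rw [hback]
      exact hx
    · show f _ ((P : Matrix ι ι F) *ᵥ _) ≠ 0
      rw [hback]
      exact hy

/-! ### Unitary transvections and centres -/

omit [Fintype F] in
theorem ut_eq_tv (n : ℕ) (x : Fin n → F) (b : F) :
    Cfsg.unitaryTransvection n q x b = tv x (b • fun j => x j ^ q) := by
  unfold Cfsg.unitaryTransvection tv
  rw [Matrix.vecMulVec_smul]

omit [Fintype F] in
theorem ut_dot (n : ℕ) (x y : Fin n → F) (b : F) :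
    (b • fun j => x j ^ q) ⬝ᵥ y = b * Cfsg.hermForm n F q y x := by
  unfold Cfsg.hermForm
  rw [smul_dotProduct, smul_eq_mul]
  congr 1
  unfold dotProduct
  exact Finset.sum_congr rfl fun i _ => mul_comm _ _

omit [Fintype F] in
theorem ut_mulVec (n : ℕ) (x y : Fin n → F) (b : F) :
    Cfsg.unitaryTransvection n q x b *ᵥ y = y + (b * Cfsg.hermForm n F q y x) • x := by
  rw [ut_eq_tv, tv_mulVec, ut_dot]

/-- `x` is a centre for `M`: every unitary transvection with centre `x` lies in `M`. -/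
def UC (n q : ℕ) (M : Subgroup (GL (Fin n) F)) (x : Fin n → F) : Prop :=
  ∀ b : F, b + b ^ q = 0 → ∀ t : GL (Fin n) F,
    (t : Matrix (Fin n) (Fin n) F) = Cfsg.unitaryTransvection n q x b → t ∈ M

omit [Fintype F] in
theorem mem_GU_iff (n : ℕ) (g : GL (Fin n) F) : g ∈ Cfsg.GU n F q ↔
    ∀ u v, Cfsg.hermForm n F q ((g : Matrix (Fin n) (Fin n) F) *ᵥ u)
      ((g : Matrix (Fin n) (Fin n) F) *ᵥ v) = Cfsg.hermForm n F q u v := Iff.rfl

omit [Fintype F] in
theorem ut_mem_GU {n : ℕ} {σ : F ≃+* F} (hstd : Cfsg.Geo.IsUnitaryForm σ (Cfsg.hermForm n F q))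
    (hσ : ∀ x, σ x = x ^ q) {x : Fin n → F} (hx : Cfsg.hermForm n F q x x = 0) {b : F}
    (hb : b + b ^ q = 0) (t : GL (Fin n) F)
    (ht : (t : Matrix (Fin n) (Fin n) F) = Cfsg.unitaryTransvection n q x b) :
    t ∈ Cfsg.GU n F q := by
  rw [mem_GU_iff]
  intro u v
  rw [ht, ut_mulVec, ut_mulVec, uf_expand hstd, hx, mul_zero, add_zero, map_mul,
    ← hstd.herm x v, hσ b]
  have hb' : b ^ q = -b := by linear_combination hb
  rw [hb']
  ring

omit [Fintype F] in
theorem ut_mem_SL {n : ℕ} {x : Fin n → F} (hx : Cfsg.hermForm n F q x x = 0) {b : F}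
    (t : GL (Fin n) F)
    (ht : (t : Matrix (Fin n) (Fin n) F) = Cfsg.unitaryTransvection n q x b) :
    t ∈ Cfsg.Geo.specialLinear (Fin n) F := by
  rw [mem_specialLinear_iff, ht, ut_eq_tv, tv_det]
  rw [ut_dot, hx, mul_zero]

omit [Fintype F] in
/-- The element of `GL` with matrix the unitary transvection, for an isotropic centre. -/
theorem exists_utG {n : ℕ} {x : Fin n → F} (hx : Cfsg.hermForm n F q x x = 0) (b : F) :
    ∃ t : GL (Fin n) F, (t : Matrix (Fin n) (Fin n) F) = Cfsg.unitaryTransvection n q x b :=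
  ⟨tvG x (b • fun j => x j ^ q) (by rw [ut_dot, hx, mul_zero]), by rw [tvG_val, ut_eq_tv]⟩

omit [Fintype F] in
theorem UC_conj {n : ℕ} {M : Subgroup (GL (Fin n) F)} {g : GL (Fin n) F} (hgM : g ∈ M)
    (hgU : g ∈ Cfsg.GU n F q) {x : Fin n → F} (hx : UC n q M x) :
    UC n q M ((g : Matrix (Fin n) (Fin n) F) *ᵥ x) := by
  intro b hb t ht
  have h1 : g⁻¹ * t * g ∈ M := by
    apply hx b hb
    apply ext_mulVec_single
    intro m
    rw [Units.val_mul, Units.val_mul, ← Matrix.mulVec_mulVec, ← Matrix.mulVec_mulVec, ht,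
      ut_mulVec, ut_mulVec, (mem_GU_iff n g).1 hgU, Matrix.mulVec_add, Matrix.mulVec_smul,
      Matrix.mulVec_mulVec, Matrix.mulVec_mulVec, ← Units.val_mul, inv_mul_cancel, Units.val_one,
      Matrix.one_mulVec, Matrix.one_mulVec]
  have h2 : t = g * (g⁻¹ * t * g) * g⁻¹ := by group
  rw [h2]
  exact M.mul_mem (M.mul_mem hgM h1) (M.inv_mem hgM)

omit [Fintype F] in
theorem UC_smul [Fintype F] (hF : Fintype.card F = q ^ 2) {n : ℕ} {M : Subgroup (GL (Fin n) F)}
    {x : Fin n → F} (hx : UC n q M x) (c : F) : UC n q M (c • x) := by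
  intro b hb t ht
  apply hx (b * c ^ (q + 1)) ?_ t ?_
  · have h1 : (b * c ^ (q + 1)) ^ q = b ^ q * c ^ (q + 1) := by
      rw [mul_pow, ← pow_mul, add_mul, one_mul, pow_add, pow_mul, pow_q_q hF, pow_succ]
      ring
    rw [h1, ← add_mul, hb, zero_mul]
  · rw [ht]
    unfold Cfsg.unitaryTransvection
    congr 1
    ext i j
    simp only [Matrix.smul_apply, Matrix.vecMulVec_apply, Pi.smul_apply, smul_eq_mul, mul_pow]
    ring

omit [Fintype F] in
theorem UC_line {n : ℕ} {σ : F ≃+* F} (hstd : Cfsg.Geo.IsUnitaryForm σ (Cfsg.hermForm n F q))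
    (hσ : ∀ x, σ x = x ^ q) {M : Subgroup (GL (Fin n) F)} (hMU : M ≤ Cfsg.GU n F q)
    {u v : Fin n → F} (hu : UC n q M u) (hv : UC n q M v)
    (huu : Cfsg.hermForm n F q u u = 0) (hvv : Cfsg.hermForm n F q v v = 0)
    (huv : Cfsg.hermForm n F q u v ≠ 0) (α : F)
    (hiso : Cfsg.hermForm n F q (v + α • u) (v + α • u) = 0) : UC n q M (v + α • u) := by
  have hvu : Cfsg.hermForm n F q v u ≠ 0 := uf_swap_ne hstd huv
  have hb : α / Cfsg.hermForm n F q v u + (α / Cfsg.hermForm n F q v u) ^ q = 0 := by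
    rw [uf_expand hstd, hvv, huu, mul_zero, add_zero, zero_add] at hiso
    rw [← hσ, map_div₀, ← hstd.herm u v]
    field_simp
    linear_combination hiso
  obtain ⟨t, ht⟩ := exists_utG (q := q) huu (α / Cfsg.hermForm n F q v u)
  have htM : t ∈ M := hu _ hb t ht
  have h := UC_conj htM (hMU htM) hv
  rwa [ht, ut_mulVec, div_mul_cancel₀ _ hvu] at h

/-! ### The subfield group -/

omit [Fintype F] in
/-- An element of `GL` all of whose entries lie in the subfield comes from `GL` over the subfield. -/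
theorem mem_map_range_of_entries {ι : Type} [Fintype ι] [DecidableEq ι] (F₀ : Subfield F)
    (a : GL ι F) (h : ∀ i j, (a : Matrix ι ι F) i j ∈ F₀) :
    a ∈ (Matrix.GeneralLinearGroup.map (F₀.subtype : F₀ →+* F)).range := by
  have hmap : (F₀.subtype : F₀ →+* F).mapMatrix (fun i j => (⟨(a : Matrix ι ι F) i j, h i j⟩ : F₀))
      = (a : Matrix ι ι F) := by
    ext i j
    rfl
  have hne : (Matrix.of fun i j => (⟨(a : Matrix ι ι F) i j, h i j⟩ : F₀)).det ≠ 0 := by
    intro h0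
    have h1 := RingHom.map_det (F₀.subtype : F₀ →+* F)
      (Matrix.of fun i j => (⟨(a : Matrix ι ι F) i j, h i j⟩ : F₀))
    rw [h0, map_zero] at h1
    have h2 : (a : Matrix ι ι F).det = 0 := by
      rw [← hmap]
      exact h1.symm
    exact (Matrix.isUnits_det_units a).ne_zero h2
  refine ⟨Matrix.GeneralLinearGroup.mkOfDetNeZero _ hne, ?_⟩
  apply Units.ext
  ext i j
  rfl

omit [Fintype F] in
theorem mem_subfieldSubgroup_of_entries {ι : Type} [Fintype ι] [DecidableEq ι] (F₀ : Subfield F)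
    (P t : GL ι F) (h : ∀ i j, ((P⁻¹ * t * P : GL ι F) : Matrix ι ι F) i j ∈ F₀) :
    t ∈ Cfsg.Geo.subfieldSubgroup F₀ P := by
  unfold Cfsg.Geo.subfieldSubgroup
  refine Subgroup.mem_map.mpr ⟨P⁻¹ * t * P,
    Subgroup.mem_sup_left (mem_map_range_of_entries F₀ _ h), ?_⟩
  show P * (P⁻¹ * t * P) * P⁻¹ = t
  group

/-- Rational vectors are centres of the subfield group: for rational `u`, every unitary
transvection with centre `P u` lies in the subfield group intersected with `SU`. -/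
theorem rat_centre (hF : Fintype.card F = q ^ 2) (F₀ : Subfield F)
    (hcard : Fintype.card F = Nat.card F₀ ^ 2) {n : ℕ} {σ : F ≃+* F}
    (hstd : Cfsg.Geo.IsUnitaryForm σ (Cfsg.hermForm n F q)) (hσ : ∀ x, σ x = x ^ q)
    (ζ : F) (hζ0 : ζ ≠ 0) (hζ : ζ + ζ ^ q = 0) (P : GL (Fin n) F)
    (hP : Cfsg.Geo.IsFormRationalStructure (Cfsg.hermForm n F q) F₀ ζ P)
    (halt : ∀ u : Fin n → F, (∀ i, u i ∈ F₀) →
      Cfsg.hermForm n F q ((P : Matrix (Fin n) (Fin n) F) *ᵥ u)
        ((P : Matrix (Fin n) (Fin n) F) *ᵥ u) = 0)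
    {u : Fin n → F} (hu : RatV F₀ u) :
    UC n q (Cfsg.Geo.subfieldSubgroup F₀ P ⊓
      (Cfsg.GU n F q ⊓ Cfsg.Geo.specialLinear (Fin n) F)) ((P : Matrix (Fin n) (Fin n) F) *ᵥ u) := by
  intro b hb t ht
  refine ⟨?_, ut_mem_GU hstd hσ (halt u hu) hb t ht, ut_mem_SL (halt u hu) t ht⟩
  apply mem_subfieldSubgroup_of_entries
  intro i j
  have hcol : ((P⁻¹ * t * P : GL (Fin n) F) : Matrix (Fin n) (Fin n) F) *ᵥ Pi.single j 1 =
      Pi.single j 1 + (b * Cfsg.hermForm n F q ((P : Matrix (Fin n) (Fin n) F) *ᵥ Pi.single j 1)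
        ((P : Matrix (Fin n) (Fin n) F) *ᵥ u)) • u := by
    rw [Units.val_mul, Units.val_mul, ← Matrix.mulVec_mulVec, ← Matrix.mulVec_mulVec, ht,
      ut_mulVec, Matrix.mulVec_add, Matrix.mulVec_smul, Matrix.mulVec_mulVec,
      Matrix.mulVec_mulVec, ← Units.val_mul, inv_mul_cancel, Units.val_one, Matrix.one_mulVec,
      Matrix.one_mulVec]
  have hij := congrFun hcol i
  rw [Matrix.mulVec_single_one] at hij
  rw [show ((P⁻¹ * t * P : GL (Fin n) F) : Matrix (Fin n) (Fin n) F) i j =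
    ((P⁻¹ * t * P : GL (Fin n) F) : Matrix (Fin n) (Fin n) F).col j i from rfl, hij]
  have hbz : b / ζ ∈ F₀ := by
    rw [mem_subfield_iff hF F₀ hcard, div_pow]
    have h1 : b ^ q = -b := by linear_combination hb
    have h2 : ζ ^ q = -ζ := by linear_combination hζ
    rw [h1, h2, neg_div_neg_eq]
  have hval : b * Cfsg.hermForm n F q ((P : Matrix (Fin n) (Fin n) F) *ᵥ Pi.single j 1)
      ((P : Matrix (Fin n) (Fin n) F) *ᵥ u) ∈ F₀ := by
    have h3 := hP (Pi.single j 1) u (RatV.single F₀ j) hu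
    have h4 : b * Cfsg.hermForm n F q ((P : Matrix (Fin n) (Fin n) F) *ᵥ Pi.single j 1)
        ((P : Matrix (Fin n) (Fin n) F) *ᵥ u) = (b / ζ) *
        (ζ * Cfsg.hermForm n F q ((P : Matrix (Fin n) (Fin n) F) *ᵥ Pi.single j 1)
        ((P : Matrix (Fin n) (Fin n) F) *ᵥ u)) := by
      field_simp
    rw [h4]
    exact F₀.mul_mem hbz h3
  rw [Pi.add_apply, Pi.smul_apply, smul_eq_mul]
  exact F₀.add_mem (RatV.single F₀ j i) (F₀.mul_mem hval (hu i))

omit [Fintype F] in
/-- An element outside the subfield group moves some rational vector to a vector that is not a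
multiple of a rational vector (in `P`-coordinates). -/
theorem exists_moved_rat {n : ℕ} (F₀ : Subfield F) {θ : F} (hθ : IsTheta F₀ θ) (j₀ : Fin n)
    (P g : GL (Fin n) F) (hg : g ∉ Cfsg.Geo.subfieldSubgroup F₀ P) :
    ∃ u, RatV F₀ u ∧ ¬ ∃ (c : F) (r : Fin n → F), RatV F₀ r ∧
      ((P⁻¹ * g * P : GL (Fin n) F) : Matrix (Fin n) (Fin n) F) *ᵥ u = c • r := by
  by_contra hcon
  push Not at hcon
  apply hg
  obtain ⟨c, hc0, hc⟩ := hθ.proj_rat_matrix ((P⁻¹ * g * P : GL (Fin n) F) : Matrix (Fin n) (Fin n) F)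
    (Matrix.isUnits_det_units _) j₀ hcon
  have hsc : Units.map (Matrix.scalar (Fin n) : F →+* Matrix (Fin n) (Fin n) F).toMonoidHom
      (Units.mk0 c hc0) ∈ Cfsg.Geo.scalars (Fin n) F := ⟨_, rfl⟩
  have ha : (Units.map (Matrix.scalar (Fin n) : F →+* Matrix (Fin n) (Fin n) F).toMonoidHom
      (Units.mk0 c hc0))⁻¹ * (P⁻¹ * g * P) ∈
      (Matrix.GeneralLinearGroup.map (F₀.subtype : F₀ →+* F)).range := by
    apply mem_map_range_of_entries
    intro i j
    rw [← map_inv, Units.val_mul]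
    have h1 : ((Units.map (Matrix.scalar (Fin n) : F →+* Matrix (Fin n) (Fin n) F).toMonoidHom
        (Units.mk0 c hc0)⁻¹ : GL (Fin n) F) : Matrix (Fin n) (Fin n) F) =
        Matrix.scalar (Fin n) c⁻¹ := rfl
    rw [h1, Matrix.scalar_apply, Matrix.diagonal_mul]
    exact hc i j
  unfold Cfsg.Geo.subfieldSubgroup
  refine Subgroup.mem_map.mpr ⟨Units.map (Matrix.scalar (Fin n) : F →+*
    Matrix (Fin n) (Fin n) F).toMonoidHom (Units.mk0 c hc0) *
    ((Units.map (Matrix.scalar (Fin n) : F →+* Matrix (Fin n) (Fin n) F).toMonoidHom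
      (Units.mk0 c hc0))⁻¹ * (P⁻¹ * g * P)),
    Subgroup.mul_mem _ (Subgroup.mem_sup_right hsc) (Subgroup.mem_sup_left ha), ?_⟩
  show P * (_ * (_⁻¹ * (P⁻¹ * g * P))) * P⁻¹ = g
  group

/-- **Overgroup theorem for the symplectic subfield group.** A subgroup of `SU_n(q)` properly
containing the subfield group of a rational structure on which `ζ h` is alternating has every
isotropic vector as a centre. -/
theorem subfield_all_centres (hF : Fintype.card F = q ^ 2) {n : ℕ} (hn : 7 ≤ n) (F₀ : Subfield F)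
    (hcard : Fintype.card F = Nat.card F₀ ^ 2) (ζ : F) (hζ0 : ζ ≠ 0) (hζ : ζ + ζ ^ q = 0)
    (P : GL (Fin n) F) (hP : Cfsg.Geo.IsFormRationalStructure (Cfsg.hermForm n F q) F₀ ζ P)
    (halt : ∀ u : Fin n → F, (∀ i, u i ∈ F₀) →
      Cfsg.hermForm n F q ((P : Matrix (Fin n) (Fin n) F) *ᵥ u)
        ((P : Matrix (Fin n) (Fin n) F) *ᵥ u) = 0)
    (M : Subgroup (GL (Fin n) F))
    (hHM : Cfsg.Geo.subfieldSubgroup F₀ P ⊓
      (Cfsg.GU n F q ⊓ Cfsg.Geo.specialLinear (Fin n) F) ≤ M)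
    (hMK : M ≤ Cfsg.GU n F q ⊓ Cfsg.Geo.specialLinear (Fin n) F)
    (hne : M ≠ Cfsg.Geo.subfieldSubgroup F₀ P ⊓
      (Cfsg.GU n F q ⊓ Cfsg.Geo.specialLinear (Fin n) F)) :
    ∀ x : Fin n → F, Cfsg.hermForm n F q x x = 0 → UC n q M x := by
  obtain ⟨σ, hσ⟩ := frob_equiv_exists hF
  obtain ⟨θ, hθ⟩ := exists_theta F₀ hcard
  have hstd := herm_unitary hF F₀ hcard n σ hσ
  have hpf := uf_pullback hstd P
  have hMU : M ≤ Cfsg.GU n F q := fun g hg => (hMK hg).1
  have D : SubfData σ (fun u v => Cfsg.hermForm n F q ((P : Matrix (Fin n) (Fin n) F) *ᵥ u)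
      ((P : Matrix (Fin n) (Fin n) F) *ᵥ v)) F₀ θ ζ :=
    ⟨hpf, fun c => by rw [mem_subfield_iff hF F₀ hcard, hσ], hθ, hζ0, hP, halt⟩
  have C : CentreSet (fun u v => Cfsg.hermForm n F q ((P : Matrix (Fin n) (Fin n) F) *ᵥ u)
      ((P : Matrix (Fin n) (Fin n) F) *ᵥ v)) F₀
      {u | UC n q M ((P : Matrix (Fin n) (Fin n) F) *ᵥ u)} := by
    refine ⟨fun u hu b hb t ht => hHM (rat_centre hF F₀ hcard hstd hσ ζ hζ0 hζ P hP halt hu b hb t ht),
      fun c x _ hx => ?_, fun u v α hu hv huu hvv huv hiso => ?_⟩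
    · show UC n q M ((P : Matrix (Fin n) (Fin n) F) *ᵥ (c • x))
      rw [Matrix.mulVec_smul]
      exact UC_smul hF hx c
    · show UC n q M ((P : Matrix (Fin n) (Fin n) F) *ᵥ (v + α • u))
      rw [Matrix.mulVec_add, Matrix.mulVec_smul]
      refine UC_line hstd hσ hMU hu hv huu hvv huv α ?_
      rw [← Matrix.mulVec_smul, ← Matrix.mulVec_add]
      exact hiso
  obtain ⟨g, hgM, hgH⟩ := SetLike.exists_of_lt (lt_of_le_of_ne hHM (Ne.symm hne))
  have hgK := hMK hgM
  have hgS : g ∉ Cfsg.Geo.subfieldSubgroup F₀ P := fun h => hgH ⟨h, hgK⟩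
  have j₀ : Fin n := ⟨0, by omega⟩
  obtain ⟨u, hu, hnr⟩ := exists_moved_rat F₀ hθ j₀ P g hgS
  have hPx : (P : Matrix (Fin n) (Fin n) F) *ᵥ
      (((P⁻¹ * g * P : GL (Fin n) F) : Matrix (Fin n) (Fin n) F) *ᵥ u) =
      (g : Matrix (Fin n) (Fin n) F) *ᵥ ((P : Matrix (Fin n) (Fin n) F) *ᵥ u) := by
    rw [Matrix.mulVec_mulVec, Matrix.mulVec_mulVec, ← Units.val_mul, ← Units.val_mul]
    congr 2
    group
  have hx₀ : ((P⁻¹ * g * P : GL (Fin n) F) : Matrix (Fin n) (Fin n) F) *ᵥ u ∈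
      {u | UC n q M ((P : Matrix (Fin n) (Fin n) F) *ᵥ u)} := by
    show UC n q M _
    rw [hPx]
    exact UC_conj hgM hgK.1 (C.rat u hu)
  have hiso₀ : Cfsg.hermForm n F q ((P : Matrix (Fin n) (Fin n) F) *ᵥ
      (((P⁻¹ * g * P : GL (Fin n) F) : Matrix (Fin n) (Fin n) F) *ᵥ u))
      ((P : Matrix (Fin n) (Fin n) F) *ᵥ
      (((P⁻¹ * g * P : GL (Fin n) F) : Matrix (Fin n) (Fin n) F) *ᵥ u)) = 0 := by
    rw [hPx, (mem_GU_iff n g).1 hgK.1]
    exact halt u hu
  have hall := D.closure C (by rw [Fintype.card_fin]; exact hn) hx₀ hiso₀ hnr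
  intro x hx
  have hback : (P : Matrix (Fin n) (Fin n) F) *ᵥ
      (((P⁻¹ : GL (Fin n) F) : Matrix (Fin n) (Fin n) F) *ᵥ x) = x := by
    rw [Matrix.mulVec_mulVec, ← Units.val_mul, mul_inv_cancel, Units.val_one, Matrix.one_mulVec]
  have h := hall (((P⁻¹ : GL (Fin n) F) : Matrix (Fin n) (Fin n) F) *ᵥ x) (by
    show Cfsg.hermForm n F q ((P : Matrix (Fin n) (Fin n) F) *ᵥ _)
      ((P : Matrix (Fin n) (Fin n) F) *ᵥ _) = 0
    rw [hback]
    exact hx)
  have h' : UC n q M ((P : Matrix (Fin n) (Fin n) F) *ᵥ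
      (((P⁻¹ : GL (Fin n) F) : Matrix (Fin n) (Fin n) F) *ᵥ x)) := h
  rwa [hback] at h'

omit [Fintype F] in
theorem scalars_normal {ι : Type} [Fintype ι] [DecidableEq ι] :
    (Cfsg.Geo.scalars ι F).Normal := by
  refine ⟨fun s hs g => ?_⟩
  rw [Cfsg.Geo.mem_scalars_iff] at hs ⊢
  obtain ⟨c, hc⟩ := hs
  refine ⟨c, ?_⟩
  rw [Units.val_mul, Units.val_mul, hc, Matrix.mul_smul, Matrix.smul_mul, mul_one, ← Units.val_mul,
    mul_inv_cancel, Units.val_one]

omit [Fintype F] in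
/-- Elements of the subfield group map rational vectors to multiples of rational vectors (in
`P`-coordinates). -/
theorem subfield_proj {n : ℕ} (F₀ : Subfield F) (P g : GL (Fin n) F)
    (hg : g ∈ Cfsg.Geo.subfieldSubgroup F₀ P) (u : Fin n → F) (hu : RatV F₀ u) :
    ∃ (c : F) (r : Fin n → F), RatV F₀ r ∧
      ((P⁻¹ * g * P : GL (Fin n) F) : Matrix (Fin n) (Fin n) F) *ᵥ u = c • r := by
  unfold Cfsg.Geo.subfieldSubgroup at hg
  obtain ⟨a, ha, rfl⟩ := Subgroup.mem_map.mp hg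
  have hn : (Cfsg.Geo.scalars (Fin n) F).Normal := scalars_normal
  have ha' : a ∈ ((Matrix.GeneralLinearGroup.map (F₀.subtype : F₀ →+* F) :
      GL (Fin n) F₀ →* GL (Fin n) F).range : Set (GL (Fin n) F)) *
      (Cfsg.Geo.scalars (Fin n) F : Set (GL (Fin n) F)) := by
    rw [← Subgroup.mul_normal]
    exact ha
  obtain ⟨h, hh, s, hs, rfl⟩ := Set.mem_mul.mp ha'
  obtain ⟨h₀, rfl⟩ := hh
  obtain ⟨c, hc⟩ := (Cfsg.Geo.mem_scalars_iff s).1 hs
  have e : P⁻¹ * (MulAut.conj P).toMonoidHom (Matrix.GeneralLinearGroup.map (F₀.subtype : F₀ →+* F) h₀ * s) * P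
      = Matrix.GeneralLinearGroup.map (F₀.subtype : F₀ →+* F) h₀ * s := by
    show P⁻¹ * (P * _ * P⁻¹) * P = _
    group
  rw [e, Units.val_mul, hc, Matrix.mul_smul, mul_one, Matrix.smul_mulVec]
  refine ⟨(c : F), _, fun i => ?_, rfl⟩
  unfold Matrix.mulVec dotProduct
  refine F₀.sum_mem fun j _ => F₀.mul_mem ?_ (hu j)
  show (Matrix.GeneralLinearGroup.map (F₀.subtype : F₀ →+* F) h₀) i j ∈ F₀
  rw [Matrix.GeneralLinearGroup.map_apply]
  exact (h₀.val i j).2

/-- The subfield group is a proper subgroup of `SU_n(q)`. -/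
theorem subfield_lt (hF : Fintype.card F = q ^ 2) {n : ℕ} (hn : 7 ≤ n) (F₀ : Subfield F)
    (hcard : Fintype.card F = Nat.card F₀ ^ 2) (ζ : F) (hζ0 : ζ ≠ 0) (hζ : ζ + ζ ^ q = 0)
    (P : GL (Fin n) F) (hP : Cfsg.Geo.IsFormRationalStructure (Cfsg.hermForm n F q) F₀ ζ P)
    (halt : ∀ u : Fin n → F, (∀ i, u i ∈ F₀) →
      Cfsg.hermForm n F q ((P : Matrix (Fin n) (Fin n) F) *ᵥ u)
        ((P : Matrix (Fin n) (Fin n) F) *ᵥ u) = 0) :
    Cfsg.Geo.subfieldSubgroup F₀ P ⊓ (Cfsg.GU n F q ⊓ Cfsg.Geo.specialLinear (Fin n) F) <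
      Cfsg.GU n F q ⊓ Cfsg.Geo.specialLinear (Fin n) F := by
  refine lt_of_le_of_ne inf_le_right ?_
  intro heq
  obtain ⟨σ, hσ⟩ := frob_equiv_exists hF
  obtain ⟨θ, hθ⟩ := exists_theta F₀ hcard
  have hstd := herm_unitary hF F₀ hcard n σ hσ
  have hpf := uf_pullback hstd P
  have D : SubfData σ (fun u v => Cfsg.hermForm n F q ((P : Matrix (Fin n) (Fin n) F) *ᵥ u)
      ((P : Matrix (Fin n) (Fin n) F) *ᵥ v)) F₀ θ ζ :=
    ⟨hpf, fun c => by rw [mem_subfield_iff hF F₀ hcard, hσ], hθ, hζ0, hP, halt⟩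
  have j₀ : Fin n := ⟨0, by omega⟩
  have ha : RatV F₀ (Pi.single j₀ (1 : F) : Fin n → F) := RatV.single F₀ j₀
  have ha0 : (Pi.single j₀ (1 : F) : Fin n → F) ≠ 0 := by
    intro h
    have := congrFun h j₀
    rw [Pi.single_eq_same, Pi.zero_apply] at this
    exact one_ne_zero this
  generalize (Pi.single j₀ (1 : F) : Fin n → F) = a at ha ha0
  obtain ⟨z, hz1, -, -, hzz⟩ := exists_noniso hpf (by rw [Fintype.card_fin]; exact hn) a a a
  obtain ⟨d, d', hd, hd', rfl⟩ := hθ.vec_dec z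
  obtain ⟨h1, h1'⟩ := D.perp_split ha hd hd' hz1
  have hdd := fun h => hzz ((D.iso_iff hd hd').2 h)
  have hb1 : ¬ ∃ k ∈ F₀, d = k • a := by
    rintro ⟨k, hk, rfl⟩
    apply hdd
    rw [D.uf.smul_left, D.skew hd' ha, h1', neg_zero, mul_zero]
  have hab := D.skew hd ha
  rw [h1, neg_zero] at hab
  have hd0 : d ≠ 0 := by
    rintro rfl
    exact hdd (uf_zero_left hpf d')
  have ha1 : ¬ ∃ k ∈ F₀, a = k • d := by
    rintro ⟨k, hk, h⟩
    have hk0 : k ≠ 0 := by
      rintro rfl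
      rw [zero_smul] at h
      exact ha0 h
    exact hb1 ⟨k⁻¹, F₀.inv_mem hk, by rw [h, smul_smul, inv_mul_cancel₀ hk0, one_smul]⟩
  obtain ⟨r, hr, hra, hrd⟩ : ∃ r, RatV F₀ r ∧
      Cfsg.hermForm n F q ((P : Matrix (Fin n) (Fin n) F) *ᵥ r)
        ((P : Matrix (Fin n) (Fin n) F) *ᵥ a) = 0 ∧
      Cfsg.hermForm n F q ((P : Matrix (Fin n) (Fin n) F) *ᵥ r)
        ((P : Matrix (Fin n) (Fin n) F) *ᵥ d) ≠ 0 := by
    by_contra hcon
    push Not at hcon
    exact hb1 (D.dep_of_perp ha hd ha0 hcon)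
  obtain ⟨w, hw, hwd, hwa⟩ : ∃ w, RatV F₀ w ∧
      Cfsg.hermForm n F q ((P : Matrix (Fin n) (Fin n) F) *ᵥ w)
        ((P : Matrix (Fin n) (Fin n) F) *ᵥ d) = 0 ∧
      Cfsg.hermForm n F q ((P : Matrix (Fin n) (Fin n) F) *ᵥ w)
        ((P : Matrix (Fin n) (Fin n) F) *ᵥ a) ≠ 0 := by
    by_contra hcon
    push Not at hcon
    exact ha1 (D.dep_of_perp hd ha hd0 hcon)
  have hx₁ := (D.iso_iff ha hd).2 hab
  obtain ⟨t, ht⟩ := exists_utG (q := q) hx₁ ζ
  have htK : t ∈ Cfsg.GU n F q ⊓ Cfsg.Geo.specialLinear (Fin n) F :=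
    ⟨ut_mem_GU hstd hσ hx₁ hζ t ht, ut_mem_SL hx₁ t ht⟩
  have htH : t ∈ Cfsg.Geo.subfieldSubgroup F₀ P := by
    rw [← heq] at htK
    exact htK.1
  obtain ⟨lam, r', hr', hmove⟩ := subfield_proj F₀ P t htH r hr
  rw [Units.val_mul, Units.val_mul, ← Matrix.mulVec_mulVec, ← Matrix.mulVec_mulVec, ht,
    ut_mulVec, Matrix.mulVec_add, Matrix.mulVec_smul, Matrix.mulVec_mulVec,
    Matrix.mulVec_mulVec, ← Units.val_mul, inv_mul_cancel, Units.val_one, Matrix.one_mulVec,
    Matrix.one_mulVec] at hmove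
  have hβ := D.right_dec a d r
  beta_reduce at hβ hab
  rw [hra, zero_add] at hβ
  rw [hβ] at hmove
  have hβ0 : ζ * (σ θ * Cfsg.hermForm n F q ((P : Matrix (Fin n) (Fin n) F) *ᵥ r)
      ((P : Matrix (Fin n) (Fin n) F) *ᵥ d)) ≠ 0 :=
    mul_ne_zero hζ0 (mul_ne_zero (fun h => hθ.ne_zero (by simpa using h)) hrd)
  generalize ζ * (σ θ * Cfsg.hermForm n F q ((P : Matrix (Fin n) (Fin n) F) *ᵥ r)
      ((P : Matrix (Fin n) (Fin n) F) *ᵥ d)) = β at hmove hβ0
  -- pair with d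
  have e1 := congrArg (fun y => Cfsg.hermForm n F q ((P : Matrix (Fin n) (Fin n) F) *ᵥ y)
      ((P : Matrix (Fin n) (Fin n) F) *ᵥ d)) hmove
  beta_reduce at e1
  have e1' := hpf.add_left r (β • (a + θ • d)) d
  have e1'' := hpf.smul_left β (a + θ • d) d
  have e1''' := D.left_dec a d d
  have e1'''' := hpf.smul_left lam r' d
  beta_reduce at e1' e1'' e1''' e1''''
  rw [e1', e1'', e1''', e1'''', hab, halt d hd, mul_zero, add_zero, mul_zero, add_zero] at e1
  have hr'd : Cfsg.hermForm n F q ((P : Matrix (Fin n) (Fin n) F) *ᵥ r')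
      ((P : Matrix (Fin n) (Fin n) F) *ᵥ d) ≠ 0 := by
    intro h
    rw [h, mul_zero] at e1
    exact hrd e1
  have hlam : lam ∈ F₀ := by
    have h2 : lam = Cfsg.hermForm n F q ((P : Matrix (Fin n) (Fin n) F) *ᵥ r)
        ((P : Matrix (Fin n) (Fin n) F) *ᵥ d) / Cfsg.hermForm n F q
        ((P : Matrix (Fin n) (Fin n) F) *ᵥ r') ((P : Matrix (Fin n) (Fin n) F) *ᵥ d) := by
      rw [eq_div_iff hr'd]
      exact e1.symm
    rw [h2]
    exact D.ratio_mem hr hd hr' hd
  have hρ : RatV F₀ (lam • r' - r) := (hr'.smul hlam).sub hr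
  have hmove' : β • (a + θ • d) = lam • r' - r := by
    rw [← hmove]
    abel
  -- pair with r
  have e2 := congrArg (fun y => Cfsg.hermForm n F q ((P : Matrix (Fin n) (Fin n) F) *ᵥ y)
      ((P : Matrix (Fin n) (Fin n) F) *ᵥ r)) hmove'
  beta_reduce at e2
  have e2' := hpf.smul_left β (a + θ • d) r
  have e2'' := D.left_dec a d r
  have e2''' := D.skew hr ha
  have e2'''' := D.skew hr hd
  beta_reduce at e2' e2'' e2''' e2''''
  rw [e2', e2'', e2''', e2'''', hra, neg_zero, zero_add] at e2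
  -- pair with w
  have e3 := congrArg (fun y => Cfsg.hermForm n F q ((P : Matrix (Fin n) (Fin n) F) *ᵥ y)
      ((P : Matrix (Fin n) (Fin n) F) *ᵥ w)) hmove'
  beta_reduce at e3
  have e3' := hpf.smul_left β (a + θ • d) w
  have e3'' := D.left_dec a d w
  have e3''' := D.skew hw ha
  have e3'''' := D.skew hw hd
  beta_reduce at e3' e3'' e3''' e3''''
  rw [e3', e3'', e3''', e3'''', hwd, neg_zero, mul_zero, add_zero] at e3
  have hβθ : β * θ ∈ F₀ := by
    have h2 : β * θ = Cfsg.hermForm n F q ((P : Matrix (Fin n) (Fin n) F) *ᵥ (lam • r' - r))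
        ((P : Matrix (Fin n) (Fin n) F) *ᵥ r) / (-Cfsg.hermForm n F q
        ((P : Matrix (Fin n) (Fin n) F) *ᵥ r) ((P : Matrix (Fin n) (Fin n) F) *ᵥ d)) := by
      rw [eq_div_iff (neg_ne_zero.mpr hrd), ← e2]
      ring
    rw [h2, div_neg]
    exact F₀.neg_mem (D.ratio_mem hρ hr hr hd)
  have hβm : β ∈ F₀ := by
    have h2 : β = Cfsg.hermForm n F q ((P : Matrix (Fin n) (Fin n) F) *ᵥ (lam • r' - r))
        ((P : Matrix (Fin n) (Fin n) F) *ᵥ w) / (-Cfsg.hermForm n F q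
        ((P : Matrix (Fin n) (Fin n) F) *ᵥ w) ((P : Matrix (Fin n) (Fin n) F) *ᵥ a)) := by
      rw [eq_div_iff (neg_ne_zero.mpr hwa), ← e3]
    rw [h2, div_neg]
    exact F₀.neg_mem (D.ratio_mem hρ hw hw ha)
  apply hθ.notin
  have h3 : θ = β * θ / β := by
    rw [mul_comm, mul_div_assoc, div_self hβ0, mul_one]
  rw [h3]
  exact F₀.div_mem hβθ hβm

/-- A subgroup of `GL` containing all unitary transvections contains `SU`, given that `SU` is
generated by unitary transvections. -/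
theorem su_le_of_UC (hF : Fintype.card F = q ^ 2) (F₀ : Subfield F)
    (hcard : Fintype.card F = Nat.card F₀ ^ 2) (n : ℕ)
    (hgen : Subgroup.closure {A : ↥(Cfsg.SU n F q) | ∃ (v : Fin n → F) (c : F),
      Cfsg.hermForm n F q v v = 0 ∧ ((A : Matrix.SpecialLinearGroup (Fin n) F) :
        Matrix (Fin n) (Fin n) F) = Cfsg.unitaryTransvection n q v c} = ⊤)
    (M : Subgroup (GL (Fin n) F))
    (hM : ∀ x : Fin n → F, Cfsg.hermForm n F q x x = 0 → UC n q M x) :
    Cfsg.GU n F q ⊓ Cfsg.Geo.specialLinear (Fin n) F ≤ M := by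
  obtain ⟨σ, hσ⟩ := frob_equiv_exists hF
  have hstd := herm_unitary hF F₀ hcard n σ hσ
  intro g hg
  have hdet : (g : Matrix (Fin n) (Fin n) F).det = 1 := (mem_specialLinear_iff g).1 hg.2
  have hA₀ : (⟨(g : Matrix (Fin n) (Fin n) F), hdet⟩ : Matrix.SpecialLinearGroup (Fin n) F) ∈
      Cfsg.SU n F q := fun u v => (mem_GU_iff n g).1 hg.1 u v
  have hle : Subgroup.closure {A : ↥(Cfsg.SU n F q) | ∃ (v : Fin n → F) (c : F),
      Cfsg.hermForm n F q v v = 0 ∧ ((A : Matrix.SpecialLinearGroup (Fin n) F) :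
        Matrix (Fin n) (Fin n) F) = Cfsg.unitaryTransvection n q v c} ≤
      M.comap ((Matrix.SpecialLinearGroup.toGL).comp (Cfsg.SU n F q).subtype) := by
    rw [Subgroup.closure_le]
    rintro A ⟨v, c, hv, hAv⟩
    show Matrix.SpecialLinearGroup.toGL (A : Matrix.SpecialLinearGroup (Fin n) F) ∈ M
    by_cases hv0 : v = 0
    · have h1 : Matrix.SpecialLinearGroup.toGL (A : Matrix.SpecialLinearGroup (Fin n) F) = 1 := by
        apply Units.ext
        show ((A : Matrix.SpecialLinearGroup (Fin n) F) : Matrix (Fin n) (Fin n) F) = 1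
        rw [hAv, hv0]
        unfold Cfsg.unitaryTransvection
        ext i j
        simp
      rw [h1]
      exact M.one_mem
    · have hc : c + c ^ q = 0 := by
        obtain ⟨⟨x, hx⟩, ⟨y, hy⟩⟩ := hstd.nondegenerate v hv0
        have hpres : Cfsg.hermForm n F q
            (((A : Matrix.SpecialLinearGroup (Fin n) F) : Matrix (Fin n) (Fin n) F) *ᵥ x)
            (((A : Matrix.SpecialLinearGroup (Fin n) F) : Matrix (Fin n) (Fin n) F) *ᵥ y) =
            Cfsg.hermForm n F q x y := A.2 x y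
        rw [hAv, ut_mulVec, ut_mulVec, uf_expand hstd, hv, mul_zero, add_zero, map_mul,
          ← hstd.herm v y, hσ c] at hpres
        have h2 : (c + c ^ q) * (Cfsg.hermForm n F q x v * Cfsg.hermForm n F q v y) = 0 := by
          linear_combination hpres
        exact (mul_eq_zero.mp h2).resolve_right (mul_ne_zero hx hy)
      exact hM v hv c hc _ hAv
  have hmem : (⟨⟨(g : Matrix (Fin n) (Fin n) F), hdet⟩, hA₀⟩ : ↥(Cfsg.SU n F q)) ∈
      Subgroup.closure {A : ↥(Cfsg.SU n F q) | ∃ (v : Fin n → F) (c : F),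
      Cfsg.hermForm n F q v v = 0 ∧ ((A : Matrix.SpecialLinearGroup (Fin n) F) :
        Matrix (Fin n) (Fin n) F) = Cfsg.unitaryTransvection n q v c} := by
    rw [hgen]
    trivial
  have h3 := hle hmem
  have h4 : ((Matrix.SpecialLinearGroup.toGL).comp (Cfsg.SU n F q).subtype)
      (⟨⟨(g : Matrix (Fin n) (Fin n) F), hdet⟩, hA₀⟩ : ↥(Cfsg.SU n F q)) = g := Units.ext rfl
  rwa [Subgroup.mem_comap, h4] at h3

/-- **Maximality of the symplectic subfield group in `SU_n(q)`**, given generation of `SU_n(q)` by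
unitary transvections. -/
theorem subfield_isMaximalIn (hF : Fintype.card F = q ^ 2) {n : ℕ} (hn : 7 ≤ n) (F₀ : Subfield F)
    (hcard : Fintype.card F = Nat.card F₀ ^ 2) (ζ : F) (hζ0 : ζ ≠ 0) (hζ : ζ + ζ ^ q = 0)
    (P : GL (Fin n) F) (hP : Cfsg.Geo.IsFormRationalStructure (Cfsg.hermForm n F q) F₀ ζ P)
    (halt : ∀ u : Fin n → F, (∀ i, u i ∈ F₀) →
      Cfsg.hermForm n F q ((P : Matrix (Fin n) (Fin n) F) *ᵥ u)
        ((P : Matrix (Fin n) (Fin n) F) *ᵥ u) = 0)
    (hgen : Subgroup.closure {A : ↥(Cfsg.SU n F q) | ∃ (v : Fin n → F) (c : F),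
      Cfsg.hermForm n F q v v = 0 ∧ ((A : Matrix.SpecialLinearGroup (Fin n) F) :
        Matrix (Fin n) (Fin n) F) = Cfsg.unitaryTransvection n q v c} = ⊤) :
    Cfsg.Geo.IsMaximalIn (Cfsg.GU n F q ⊓ Cfsg.Geo.specialLinear (Fin n) F)
      (Cfsg.Geo.subfieldSubgroup F₀ P ⊓ (Cfsg.GU n F q ⊓ Cfsg.Geo.specialLinear (Fin n) F)) := by
  refine ⟨subfield_lt hF hn F₀ hcard ζ hζ0 hζ P hP halt, fun M hHM hMK => ?_⟩
  by_cases hne : M = Cfsg.Geo.subfieldSubgroup F₀ P ⊓
      (Cfsg.GU n F q ⊓ Cfsg.Geo.specialLinear (Fin n) F)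
  · exact Or.inl hne
  · exact Or.inr (le_antisymm hMK (su_le_of_UC hF F₀ hcard n hgen M
      (subfield_all_centres hF hn F₀ hcard ζ hζ0 hζ P hP halt M hHM hMK hne)))

end SubfUnitary

end Cfsg.Agent.Lib.Helper44
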