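import Mathlib

/-!
# Definitions for S5877 (eigenspaces of elements normalising an extraspecial group)

Shared definitions of the helper44 `ES-*` pieces.
-/

set_option autoImplicit false

namespace Cfsg.Agent.Lib.Helper44.ES

/-- `hh g x j = x⁻¹ * (g ^ j * x * (g ^ j)⁻¹)`. -/
def hh {G : Type*} [Group G] (g x : G) (j : ℕ) : G := x⁻¹ * (g ^ j * x * (g ^ j)⁻¹)

/-- `H` is a subgroup containing the central subgroup `Z`, with all commutators of `H` in `Z` and of `r`-th
power one, and every element of the ambient group commuting with all of `H` lies in `Z`. -/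
structure Base {G : Type*} [Group G] (H Z : Subgroup G) (r : ℕ) : Prop where
  le : Z ≤ H
  central : ∀ s ∈ Z, ∀ a : G, s * a = a * s
  comm_mem : ∀ a ∈ H, ∀ b ∈ H, a * b * a⁻¹ * b⁻¹ ∈ Z
  comm_pow : ∀ a ∈ H, ∀ b ∈ H, (a * b * a⁻¹ * b⁻¹) ^ r = 1
  cent : ∀ a : G, (∀ x ∈ H, a * x = x * a) → a ∈ Z

/-- `Base` together with an element `g` normalising `H`, not centralising `H`, and such that conjugation by `g`
multiplies no element of `H` by a nontrivial element of `Z`. -/
structure Setup {G : Type*} [Group G] (H Z : Subgroup G) (g : G) (r : ℕ) : Prop where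
  base : Base H Z r
  norm : ∀ a ∈ H, g * a * g⁻¹ ∈ H
  norm_inv : ∀ a ∈ H, g⁻¹ * a * g ∈ H
  notI : ∀ x ∈ H, ∀ s ∈ Z, g * x * g⁻¹ = x * s → s = 1
  nontriv : ∃ x ∈ H, g * x ≠ x * g

/-- Dimension of the common eigenspace of `g` (eigenvalue `lam`) and `a` (eigenvalue `mu`). -/
noncomputable def dd {n : ℕ} {F : Type*} [Field F] (g a : Matrix (Fin n) (Fin n) F) (lam mu : F) : ℕ :=
  Module.finrank F
    ↥(Module.End.eigenspace (Matrix.toLin' g) lam ⊓ Module.End.eigenspace (Matrix.toLin' a) mu)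

end Cfsg.Agent.Lib.Helper44.ES
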