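import Mathlib
import Cfsg.Prelude.Def_GeometricClasses
import Cfsg.Prelude.Def_LieClassical
import Cfsg.Agent.Lib.Helper71.Asch5
import Cfsg.Agent.Lib.Helper82.ASB8UNITS
import Cfsg.Agent.Lib.Helper97.U9NF3U
import Cfsg.Agent.Lib.Helper44.BADDefs
import Cfsg.Agent.Lib.Helper11.BADENORM
import Cfsg.Agent.Lib.Helper16.BADSWNORM
import Cfsg.Agent.Lib.Helper17.BADSWP
import Cfsg.Agent.Lib.Helper19.BADGUIN
import Cfsg.Agent.Lib.Helper28.BADAIRR
import Cfsg.Agent.Lib.Helper29.BADNORM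
import Cfsg.Agent.Lib.Helper39.BADECOM
import Cfsg.Agent.Lib.Helper40.BADGUOUT
import Cfsg.Agent.Lib.Helper52.BADEMIN
import Cfsg.Agent.Lib.Helper59.BADSTRANS
import Cfsg.Agent.Lib.Helper61.BADSMUL
import Cfsg.Agent.Lib.Helper68.BADSCOM
import Cfsg.Agent.Lib.Helper74.BADSSPAN
import Cfsg.Agent.Lib.Helper75.BADEGRP
import Cfsg.Agent.Lib.Helper80.BADTSCAL
import Cfsg.Agent.Lib.Helper87.BADSUNI
import Cfsg.Agent.Lib.Helper89.BADSNORM
import Cfsg.Agent.Lib.Helper91.BADSAUX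

/-! Project BAD (helper44; sub-project of helper49's SUG = S5663).
Assembly of the pieces `BAD<PIECE>` (proved by other seats in `Lib/<Seat>/BAD*.lean`). -/

set_option autoImplicit false

namespace Cfsg.Agent.Lib.Helper44.BAD

open Matrix Cfsg.Geo Cfsg.Agent.Lib.Helper71.Asch
open scoped Kronecker

variable {n : ℕ} {F : Type*} [Field F] [Fintype F] {q : ℕ}

/-! ## Layer A: the group `3^{1+2}` inside `GU_3(2)`, explicit matrices over the field with 4 elements -/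








/-! ## Layer B: transport to dimension 9 -/







/-! ## Layer C: the group `E = 3^{1+4}` -/






/-! ## Assembly -/

/-- BAD: a group of isometries of the hermitian form in dimension 9 over the field with 4
elements inside a tensor product `3 ⊗ 3` lies in a group `H'` of isometries with a
symplectic-type minimal normal subgroup `E = 3^{1+4}`. -/
theorem bad_main (hF : Fintype.card F = q ^ 2) (hq : q = 2) (H : Subgroup (GL (Fin n) F))
    (hH : H ≤ Cfsg.GU n F q) (e : Fin n ≃ Fin 3 × Fin 3) (P : GL (Fin n) F)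
    (G₁ G₂ : Matrix (Fin 3) (Fin 3) F) (hd1 : G₁.det ≠ 0) (hd2 : G₂.det ≠ 0)
    (hh1 : ∀ a b, G₁ a b = (G₁ b a) ^ q) (hh2 : ∀ a b, G₂ a b = (G₂ b a) ^ q)
    (hid : ∀ x y : Fin 3 × Fin 3 → F,
      Cfsg.hermForm n F q (P.1 *ᵥ (x ∘ e)) (P.1 *ᵥ (y ∘ e)) =
        formOfGram (fun c : F => c ^ q) (G₁ ⊗ₖ G₂) x y)
    (hHT : H ≤ tensorProductSubgroup 3 3 e P) :
    ∃ H' E : Subgroup (GL (Fin n) F), H ≤ H' ∧ H' ≤ Cfsg.GU n F q ∧ SymT H' E := by
  classical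
  subst hq
  have hF4 : Fintype.card F = 4 := by rw [hF]; norm_num
  obtain ⟨P', c, hc, hstd, hTP⟩ := NORM hF e P G₁ G₂ hd1 hd2 hh1 hh2 hid
  have hS := SMUL hF4
  have hcom := SCOM hF4
  have huni := SUNI hF4
  have hspan := SSPAN hF4
  have hnorm := SNORM hF4
  have htr := STRANS hF4
  have haux := SAUX hF4
  obtain ⟨E, hEiff, hEex⟩ := EGRP e P' hS
  obtain ⟨s, hsGU, hsw⟩ := SWP hF e P' c hc hstd
  have hEGU : E ≤ Cfsg.GU n F 2 := by
    intro g hg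
    obtain ⟨a, ha, b, hb, hgab⟩ := (hEiff g).1 hg
    exact GUIN hF e P' c hc hstd g a b (huni a ha) (huni b hb) hgab
  have hEH' : E ≤ Subgroup.normalizer (E : Set (GL (Fin n) F)) ⊓ Cfsg.GU n F 2 :=
    le_inf Subgroup.le_normalizer hEGU
  have hH1 : ∀ g : GL (Fin n) F, ∀ a ∈ bU F 2, g.1 = tmat e P' a 1 →
      g ∈ Subgroup.normalizer (E : Set (GL (Fin n) F)) ⊓ Cfsg.GU n F 2 := by
    intro g a ha hg
    have h1 : (1 : Matrix (Fin 3) (Fin 3) F) ∈ bU F 2 := huni 1 hS.1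
    exact ⟨ENORM e P' E hEiff hnorm g a 1 ha h1 hg, GUIN hF e P' c hc hstd g a 1 ha h1 hg⟩
  have hsH' : s ∈ Subgroup.normalizer (E : Set (GL (Fin n) F)) ⊓ Cfsg.GU n F 2 :=
    ⟨SWNORM e P' E hEiff s hsw, hsGU⟩
  refine ⟨Subgroup.normalizer (E : Set (GL (Fin n) F)) ⊓ Cfsg.GU n F 2, E, ?_, inf_le_right,
    ⟨⟨hEH', ?_, ?_, ?_⟩, ?_, ?_⟩⟩
  · intro h hh
    have hT : h ∈ tensorProductSubgroup 3 3 e P' := by rw [hTP]; exact hHT hh
    obtain ⟨a, b, ha, hb, hab⟩ := GUOUT hF rfl e P' c hc hstd h (hH hh) hT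
    exact ⟨ENORM e P' E hEiff hnorm h a.1 b.1 ha hb hab, hH hh⟩
  · intro h hh x hx
    exact (Subgroup.mem_normalizer_iff.mp hh.1 x).mp hx
  · intro hle
    obtain ⟨M, hM, hMns⟩ := haux.1
    obtain ⟨g, hgE, hg⟩ := hEex M hM 1 hS.1
    obtain ⟨c', hc'⟩ := (mem_scalars_iff g).1 (hle hgE)
    rw [hg] at hc'
    exact hMns ⟨c', (TSCAL e P' M c').1 hc'⟩
  · intro L' hL' hN
    exact EMIN e P' E _ hEiff hS haux htr hH1 s hsH' hsw L' hL' hN
  · refine AIRR e P' (bS F) hspan (matrixSet E) ?_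
    intro a ha b hb
    obtain ⟨g, hgE, hg⟩ := hEex a ha b hb
    exact ⟨g, hgE, hg⟩
  · exact ECOM e P' E (fun g hg => (hEiff g).1 hg) hcom

end Cfsg.Agent.Lib.Helper44.BAD
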