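import Mathlib
import Cfsg.Agent.Lib.Helper44.ESDefs
import Cfsg.Prelude.Def_GeometricClasses

/-!
# S5877: two auxiliary facts about the extraspecial group (backup copy of the piece ES-AUX)
-/

set_option autoImplicit false

namespace Cfsg.Agent.Lib.Helper44.ES

open scoped commutatorElement

theorem esaux_exp {F : Type*} [Field F] {n r : ℕ} (R : Subgroup (Matrix.GeneralLinearGroup (Fin n) F))
    (hr : r.Prime) (hR : IsPGroup r R) (hZ : Nat.card (Subgroup.center R) = r)
    (hexp : Monoid.exponent R = r ∨ Monoid.exponent R = 4) (hr2 : r ≠ 2) :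
    ∀ a ∈ R, a ^ r = 1 := by
  have key : Monoid.exponent R = r := by
    rcases hexp with h | h
    · exact h
    · exfalso
      -- every element of R is trivial
      have h1 : ∀ x : R, x = 1 := by
        intro x
        obtain ⟨k, hk⟩ := hR x
        have h4 : x ^ 4 = 1 := by rw [← h]; exact Monoid.pow_exponent_eq_one x
        have hd1 : orderOf x ∣ r ^ k := orderOf_dvd_of_pow_eq_one hk
        have hd2 : orderOf x ∣ 4 := orderOf_dvd_of_pow_eq_one h4
        have hcop : Nat.Coprime (r ^ k) 4 := by
          apply Nat.Coprime.pow_left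
          have : Nat.Coprime r 2 := (Nat.coprime_primes hr Nat.prime_two).2 hr2
          have h22 : (4 : ℕ) = 2 ^ 2 := by norm_num
          rw [h22]
          exact Nat.Coprime.pow_right 2 this
        have : orderOf x = 1 := Nat.eq_one_of_dvd_coprimes hcop hd1 hd2
        exact orderOf_eq_one_iff.1 this
      have hsub : Subsingleton R := ⟨fun a b => by rw [h1 a, h1 b]⟩
      have hc : Nat.card (Subgroup.center R) = 1 := by
        have : Subsingleton (Subgroup.center R) := ⟨fun a b => Subtype.ext (Subsingleton.elim _ _)⟩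
        exact Nat.card_of_subsingleton (1 : Subgroup.center R)
      rw [hZ] at hc
      exact hr.one_lt.ne' hc
  intro a ha
  have := Monoid.pow_exponent_eq_one (⟨a, ha⟩ : R)
  rw [key] at this
  exact congrArg Subtype.val this

theorem esaux_zeta {F : Type*} [Field F] {n r : ℕ} (R : Subgroup (Matrix.GeneralLinearGroup (Fin n) F))
    (hr : r.Prime) (hZ : Nat.card (Subgroup.center R) = r) (hext : commutator R = Subgroup.center R)
    (hirr : Cfsg.Geo.ActsAbsolutelyIrreducibly (Cfsg.Geo.matrixSet R)) :
    (∃ ζ : F, ζ ^ r = 1 ∧ ζ ≠ 1) ∧ (∃ a ∈ R, a ∉ Cfsg.Geo.scalars (Fin n) F) := by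
  classical
  -- R is not commutative
  have hnc : ∃ a b : R, a * b ≠ b * a := by
    by_contra hcon
    push Not at hcon
    have hbot : commutator R = ⊥ := by
      rw [commutator_def, Subgroup.commutator_eq_bot_iff_le_centralizer]
      intro x _
      rw [Subgroup.mem_centralizer_iff]
      intro y _
      exact hcon y x
    have hc : Nat.card (Subgroup.center R) = 1 := by
      rw [← hext, hbot]
      exact Subgroup.card_bot
    rw [hZ] at hc
    exact hr.one_lt.ne' hc
  obtain ⟨a, b, hab⟩ := hnc
  -- the commutator of a and b is central in R, hence a scalar matrix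
  have hzc : ⁅a, b⁆ ∈ Subgroup.center R := by
    rw [← hext, commutator_def]
    exact Subgroup.commutator_mem_commutator (Subgroup.mem_top a) (Subgroup.mem_top b)
  have hz1 : ⁅a, b⁆ ≠ 1 := by
    intro h
    exact hab (commutatorElement_eq_one_iff_mul_comm.1 h)
  have hzr : ⁅a, b⁆ ^ r = 1 := by
    have := pow_card_eq_one' (G := Subgroup.center R) (x := ⟨⁅a, b⁆, hzc⟩)
    rw [hZ] at this
    exact congrArg Subtype.val this
  obtain ⟨σ, hσ⟩ := hirr.2 (((⁅a, b⁆ : R) : Matrix.GeneralLinearGroup (Fin n) F) : Matrix (Fin n) (Fin n) F) (by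
    rintro s ⟨x, hx, rfl⟩
    have h1 := (Subgroup.mem_center_iff.1 hzc) ⟨x, hx⟩
    have h2 := congrArg (fun u : R => ((u : Matrix.GeneralLinearGroup (Fin n) F) : Matrix (Fin n) (Fin n) F)) h1
    simp only [Subgroup.coe_mul, Units.val_mul] at h2
    exact h2.symm)
  have hn : 0 < n := by
    rcases Nat.eq_zero_or_pos n with h0 | h0
    · subst h0
      exact absurd (Subsingleton.elim _ _) hab
    · exact h0
  refine ⟨⟨σ, ?_, ?_⟩, ⟨(a : Matrix.GeneralLinearGroup (Fin n) F), a.2, ?_⟩⟩
  · have h1 := congrArg (fun u : R => ((u : Matrix.GeneralLinearGroup (Fin n) F) : Matrix (Fin n) (Fin n) F)) hzr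
    simp only [Subgroup.coe_pow, Units.val_pow_eq_pow_val, hσ, Subgroup.coe_one, Units.val_one] at h1
    have h2 := congrFun (congrFun h1 ⟨0, hn⟩) ⟨0, hn⟩
    simpa [smul_pow] using h2
  · intro h
    apply hz1
    apply Subtype.ext
    apply Units.ext
    rw [hσ, h, one_smul]
    rfl
  · intro haZ
    apply hab
    obtain ⟨c, hc⟩ := (Cfsg.Geo.mem_scalars_iff (a : Matrix.GeneralLinearGroup (Fin n) F)).1 haZ
    apply Subtype.ext
    apply Units.ext
    simp only [Subgroup.coe_mul, Units.val_mul, hc]
    simp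

end Cfsg.Agent.Lib.Helper44.ES
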