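import Cfsg.Agent.Lib.Helper23.ESK1
import Cfsg.Agent.Lib.Helper41.ESK2
import Cfsg.Agent.Lib.Helper41.ESK3
import Cfsg.Agent.Lib.Lead.ESK5A
import Cfsg.Agent.Lib.Lead.ESK5B
import Cfsg.Agent.Lib.Helper37.ESPERM

/-!
# S5877: the eigenvalue count (assembly of the pieces ES-K1, K2, K3, K5A, K5B, PERM)
-/

set_option autoImplicit false

namespace Cfsg.Agent.Lib.Helper44.ES

theorem escount_prim {F : Type*} [Field F] (ζ : F) (r : ℕ) (hr : r.Prime) (hζ : ζ ^ r = 1) (hζ1 : ζ ≠ 1) :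
    ∀ j, 0 < j → j < r → ζ ^ j ≠ 1 := by
  intro j hj0 hjr h1
  have : Fact r.Prime := ⟨hr⟩
  have hord : orderOf ζ = r := orderOf_eq_prime hζ hζ1
  have := orderOf_dvd_of_pow_eq_one h1
  rw [hord] at this
  exact absurd (Nat.le_of_dvd hj0 this) (by omega)

theorem escount_primk {F : Type*} [Field F] (ζ : F) (r : ℕ) (hr : r.Prime) (hζ : ζ ^ r = 1) (hζ1 : ζ ≠ 1)
    (k : ℕ) (hk : ¬ r ∣ k) : ∀ j, 0 < j → j < r → (ζ ^ k) ^ j ≠ 1 := by
  intro j hj0 hjr h1
  have : Fact r.Prime := ⟨hr⟩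
  have hord : orderOf ζ = r := orderOf_eq_prime hζ hζ1
  rw [← pow_mul] at h1
  have := orderOf_dvd_of_pow_eq_one h1
  rw [hord] at this
  rcases (Nat.Prime.dvd_mul hr).1 this with h | h
  · exact hk h
  · exact absurd (Nat.le_of_dvd hj0 h) (by omega)

theorem escount_zero {n : ℕ} {F : Type*} [Field F] (g : Matrix.GeneralLinearGroup (Fin n) F) :
    Module.finrank F (Module.End.eigenspace (Matrix.toLin' (g : Matrix (Fin n) (Fin n) F)) 0) = 0 := by
  have : Module.End.eigenspace (Matrix.toLin' (g : Matrix (Fin n) (Fin n) F)) 0 = ⊥ := by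
    rw [Module.End.eigenspace_zero]
    apply LinearMap.ker_eq_bot_of_injective
    intro u v huv
    have h1 := congrArg (Matrix.toLin' ((g⁻¹ : Matrix.GeneralLinearGroup (Fin n) F) : Matrix (Fin n) (Fin n) F)) huv
    simpa [← Matrix.toLin'_mul_apply] using h1
  rw [this]
  simp

theorem es_count {n : ℕ} {F : Type*} [Field F] (g x a y : Matrix.GeneralLinearGroup (Fin n) F) (ζ : F)
    (r t e k : ℕ) (hr : r.Prime) (h5 : 5 ≤ r) (hζ : ζ ^ r = 1) (hζ1 : ζ ≠ 1) (ha : a ^ r = 1)
    (hga : g * a = a * g)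
    (hgx : (g : Matrix (Fin n) (Fin n) F) * (x : Matrix (Fin n) (Fin n) F)
      = ζ ^ t • ((x : Matrix (Fin n) (Fin n) F) * (a : Matrix (Fin n) (Fin n) F)
          * (g : Matrix (Fin n) (Fin n) F)))
    (hax : (a : Matrix (Fin n) (Fin n) F) * (x : Matrix (Fin n) (Fin n) F)
      = ζ ^ e • ((x : Matrix (Fin n) (Fin n) F) * (a : Matrix (Fin n) (Fin n) F)))
    (hk : ¬ r ∣ k)
    (hya : (y : Matrix (Fin n) (Fin n) F) * (a : Matrix (Fin n) (Fin n) F)
      = ζ ^ k • ((a : Matrix (Fin n) (Fin n) F) * (y : Matrix (Fin n) (Fin n) F))) (c : F) :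
    2 * Module.finrank F (Module.End.eigenspace (Matrix.toLin' (g : Matrix (Fin n) (Fin n) F)) c) ≤ n := by
  classical
  have hζ' := escount_prim ζ r hr hζ hζ1
  by_cases hc : c = 0
  · subst hc
    rw [escount_zero g]
    omega
  · set D : ℕ → ℕ → ℕ := fun k i =>
      dd (g : Matrix (Fin n) (Fin n) F) (a : Matrix (Fin n) (Fin n) F) (c * ζ ^ k) (ζ ^ i) with hD
    have hper1 : ∀ k i, D (k + r) i = D k i := by
      intro k i
      simp only [hD, pow_add, hζ, mul_one]
    have hper2 : ∀ k i, D k (i + r) = D k i := by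
      intro k i
      simp only [hD, pow_add, hζ, mul_one]
    have hstep : ∀ k i, D k i ≤ D (k + t + i) (i + e) := by
      intro k i
      have h := es_k2 (g : Matrix (Fin n) (Fin n) F) (x : Matrix (Fin n) (Fin n) F)
        (a : Matrix (Fin n) (Fin n) F) (Units.isUnit x) ζ t e i (c * ζ ^ k) hgx hax
      have e1 : c * ζ ^ k * ζ ^ (t + i) = c * ζ ^ (k + t + i) := by
        rw [mul_assoc, ← pow_add, add_assoc]
      rw [e1] at h
      exact h
    have hN : ∀ i, Module.finrank F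
        (Module.End.eigenspace (Matrix.toLin' (a : Matrix (Fin n) (Fin n) F)) (ζ ^ i)) ≤ n / r := by
      intro i
      have h := es_perm y a (ζ ^ k) r (escount_primk ζ r hr hζ hζ1 k hk) hya (ζ ^ i)
      exact (Nat.le_div_iff_mul_le hr.pos).2 (by rw [mul_comm]; exact h)
    have hbound : ∀ i, ∑ k ∈ Finset.range r, D k i ≤ n / r := fun i =>
      (es_k3 (g : Matrix (Fin n) (Fin n) F) (a : Matrix (Fin n) (Fin n) F) ζ r hζ hζ' c hc (ζ ^ i)).trans
        (hN i)
    have hmain : 2 * ∑ i ∈ Finset.range r, D 0 i ≤ r * (n / r) := by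
      by_cases he : r ∣ e
      · exact es_k5a r hr h5 t e (n / r) D hper1 hper2 hstep hbound he
      · exact es_k5b r hr h5 t e (n / r) D hper1 hper2 hstep hbound he
    have har : (a : Matrix (Fin n) (Fin n) F) ^ r = 1 := by
      have := congrArg (fun u : Matrix.GeneralLinearGroup (Fin n) F => (u : Matrix (Fin n) (Fin n) F)) ha
      simpa using this
    have hgam : (g : Matrix (Fin n) (Fin n) F) * (a : Matrix (Fin n) (Fin n) F)
        = (a : Matrix (Fin n) (Fin n) F) * (g : Matrix (Fin n) (Fin n) F) := by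
      have := congrArg (fun u : Matrix.GeneralLinearGroup (Fin n) F => (u : Matrix (Fin n) (Fin n) F)) hga
      simpa using this
    have hk1 := es_k1 (g : Matrix (Fin n) (Fin n) F) (a : Matrix (Fin n) (Fin n) F) ζ r hr.pos hζ hζ' har
      hgam c
    have hsum : ∑ i ∈ Finset.range r, D 0 i
        = Module.finrank F (Module.End.eigenspace (Matrix.toLin' (g : Matrix (Fin n) (Fin n) F)) c) := by
      rw [hk1]
      simp [hD]
    calc 2 * Module.finrank F (Module.End.eigenspace (Matrix.toLin' (g : Matrix (Fin n) (Fin n) F)) c)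
        = 2 * ∑ i ∈ Finset.range r, D 0 i := by rw [hsum]
      _ ≤ r * (n / r) := hmain
      _ ≤ n := Nat.mul_div_le n r

end Cfsg.Agent.Lib.Helper44.ES
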