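import Mathlib

/-!
# Explicit involutions of a quadratic space in characteristic two (helper44)

For a quadratic form `Q` (characteristic two) and a family `u` of pairwise orthogonal vectors
with a dual family `w` (`polar Q (w j) (u i) = δ_ij`), the map
`repMap Q u π : x ↦ x + Σ_i polar Q x (u i) • u (π i)` (`π` an involution of the index type) is
an isometric involution with `rank (T - 1) = card`, provided `Q (Σ c_i u_(π i)) = Σ c_i c_(π i)`.

* `exists_inv_na`: `Q (u i) = 1`, `π = id`: the product of the commuting reflections in the `u i`;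
  non-alternating type.
* `exists_inv_al`: `Q (u i) = 0`, index type `κ ⊕ κ`, `π = Sum.swap`: alternating type.
* `IsHypSys`, `hyp_na`, `hyp_na_Z`, `hyp_al`: the same from a system of hyperbolic pairs.
-/

set_option autoImplicit false

namespace Cfsg.Agent.Lib.Helper44

open Module QuadraticMap

section Reps

variable {F V : Type*} [Field F] [AddCommGroup V] [Module F V] (Q : QuadraticForm F V)

/-- `x ↦ x + Σ_i polar Q x (u i) • u (π i)` -/
noncomputable def repMap {κ : Type*} [Fintype κ] (u : κ → V) (π : κ → κ) : V →ₗ[F] V :=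
  LinearMap.id + ∑ i, ((polarBilin Q).flip (u i)).smulRight (u (π i))

theorem repMap_apply {κ : Type*} [Fintype κ] (u : κ → V) (π : κ → κ) (x : V) :
    repMap Q u π x = x + ∑ i, polar Q x (u i) • u (π i) := by
  simp [repMap, LinearMap.sum_apply, LinearMap.smulRight_apply]

theorem polar_sum_smul_right {κ : Type*} [Fintype κ] (x : V) (c : κ → F) (v : κ → V) :
    polar Q x (∑ i, c i • v i) = ∑ i, c i * polar Q x (v i) := by
  have h := map_sum (polarBilin Q x) (fun i => c i • v i) Finset.univ
  simp only [polarBilin_apply_apply, map_smul, smul_eq_mul] at h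
  exact h

theorem polar_sum_smul_left {κ : Type*} [Fintype κ] (x : V) (c : κ → F) (v : κ → V) :
    polar Q (∑ i, c i • v i) x = ∑ i, c i * polar Q (v i) x := by
  rw [polar_comm, polar_sum_smul_right]
  exact Finset.sum_congr rfl (fun i _ => by rw [polar_comm])

theorem Q_sum_orth {κ : Type*} [Fintype κ] [DecidableEq κ] (u : κ → V)
    (horth : ∀ i j, i ≠ j → polar Q (u i) (u j) = 0) (a : κ → F) :
    Q (∑ i, a i • u i) = ∑ i, a i * a i * Q (u i) := by
  have key : ∀ s : Finset κ, Q (∑ i ∈ s, a i • u i) = ∑ i ∈ s, a i * a i * Q (u i) := by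
    intro s
    induction s using Finset.induction_on with
    | empty => simp
    | insert j s hj ih =>
      rw [Finset.sum_insert hj, Finset.sum_insert hj, QuadraticMap.map_add (⇑Q), ih,
        QuadraticMap.map_smul, smul_eq_mul]
      have h0 : polar Q (a j • u j) (∑ i ∈ s, a i • u i) = 0 := by
        have h := map_sum (polarBilin Q (a j • u j)) (fun i => a i • u i) s
        simp only [polarBilin_apply_apply] at h
        rw [h]
        apply Finset.sum_eq_zero
        intro i hi
        rw [polar_smul_left, polar_smul_right, horth j i (fun e => hj (e ▸ hi))]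
        simp
      rw [h0, add_zero]
  exact key Finset.univ

theorem repMap_props [FiniteDimensional F V] (h2 : (2 : F) = 0) {κ : Type*} [Fintype κ]
    [DecidableEq κ] (u w : κ → V) (π : κ → κ) (hπ : ∀ i, π (π i) = i)
    (horth : ∀ i j, polar Q (u i) (u j) = 0)
    (hdual : ∀ i j, polar Q (w j) (u i) = if i = j then 1 else 0)
    (hQ : ∀ c : κ → F, Q (∑ i, c i • u (π i)) = ∑ i, c i * c (π i)) :
    (∀ x, Q (repMap Q u π x) = Q x) ∧ (∀ x, repMap Q u π (repMap Q u π x) = x) ∧
    finrank F (LinearMap.range (repMap Q u π - LinearMap.id)) = Fintype.card κ ∧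
    (∀ x, Q (x + repMap Q u π x) = ∑ i, polar Q x (u i) * polar Q x (u (π i))) := by
  have hvv : ∀ y : V, y + y = 0 := by
    intro y
    rw [← two_smul F y, h2, zero_smul]
  have hNN : ∀ x j, polar Q (∑ i, polar Q x (u i) • u (π i)) (u j) = 0 := by
    intro x j
    rw [polar_sum_smul_left]
    apply Finset.sum_eq_zero
    intro i _
    rw [horth, mul_zero]
  have hT2 : ∀ x, repMap Q u π (repMap Q u π x) = x := by
    intro x
    rw [repMap_apply, repMap_apply]
    have e : ∀ i, polar Q (x + ∑ i, polar Q x (u i) • u (π i)) (u i) = polar Q x (u i) := by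
      intro i
      rw [polar_add_left, hNN, add_zero]
    simp only [e]
    rw [add_assoc, hvv, add_zero]
  have hsub : ∀ x, (repMap Q u π - LinearMap.id : V →ₗ[F] V) x
      = ∑ i, polar Q x (u i) • u (π i) := by
    intro x
    rw [LinearMap.sub_apply, repMap_apply, LinearMap.id_apply, add_sub_cancel_left]
  refine ⟨?_, hT2, ?_, ?_⟩
  · intro x
    rw [repMap_apply, QuadraticMap.map_add (⇑Q), hQ, polar_sum_smul_right]
    have : ∑ i, polar Q x (u i) * polar Q x (u (π i)) + ∑ i, polar Q x (u i) * polar Q x (u (π i))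
        = 0 := by
      rw [← two_mul, h2, zero_mul]
    rw [add_assoc, this, add_zero]
  · have hNw : ∀ k, (repMap Q u π - LinearMap.id : V →ₗ[F] V) (w k) = u (π k) := by
      intro k
      rw [hsub]
      simp only [hdual]
      rw [Finset.sum_eq_single k]
      · rw [if_pos rfl, one_smul]
      · intro i _ hik
        rw [if_neg hik, zero_smul]
      · intro h
        exact absurd (Finset.mem_univ k) h
    have hli : LinearIndependent F u := by
      rw [linearIndependent_iff']
      intro s g hg j hj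
      have h1 : polar Q (w j) (∑ i ∈ s, g i • u i) = polar Q (w j) 0 := by rw [hg]
      have h3 := map_sum (polarBilin Q (w j)) (fun i => g i • u i) s
      simp only [polarBilin_apply_apply, map_smul, smul_eq_mul] at h3
      rw [h3] at h1
      have h4 : polar Q (w j) (0 : V) = 0 := by
        have := map_zero (polarBilin Q (w j))
        rwa [polarBilin_apply_apply] at this
      rw [h4, Finset.sum_eq_single j] at h1
      · rwa [hdual, if_pos rfl, mul_one] at h1
      · intro i _ hij
        rw [hdual, if_neg hij, mul_zero]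
      · intro hni
        exact absurd hj hni
    have hspan : LinearMap.range (repMap Q u π - LinearMap.id) = Submodule.span F (Set.range u) := by
      apply le_antisymm
      · rintro _ ⟨x, rfl⟩
        rw [hsub]
        apply Submodule.sum_mem
        intro i _
        exact Submodule.smul_mem _ _ (Submodule.subset_span ⟨π i, rfl⟩)
      · rw [Submodule.span_le]
        rintro _ ⟨i, rfl⟩
        exact ⟨w (π i), by rw [hNw, hπ]⟩
    rw [hspan, finrank_span_eq_card hli]
  · intro x
    rw [repMap_apply, ← add_assoc, hvv, zero_add, hQ]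

/-- non-alternating type: product of commuting reflections -/
theorem exists_inv_na [FiniteDimensional F V] (h2 : (2 : F) = 0) {κ : Type*} [Fintype κ]
    [DecidableEq κ] (u w : κ → V) (hu : ∀ i, Q (u i) = 1)
    (horth : ∀ i j, i ≠ j → polar Q (u i) (u j) = 0)
    (hdual : ∀ i j, polar Q (w j) (u i) = if i = j then 1 else 0) :
    ∃ T : V →ₗ[F] V, (∀ x, Q (T x) = Q x) ∧ (∀ x, T (T x) = x) ∧
      finrank F (LinearMap.range (T - LinearMap.id)) = Fintype.card κ ∧
      (Nonempty κ → ∃ v, Q (v + T v) ≠ 0) := by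
  have horth' : ∀ i j, polar Q (u i) (u j) = 0 := by
    intro i j
    by_cases hij : i = j
    · subst hij
      rw [QuadraticMap.polar_self, two_smul]
      linear_combination (Q (u i)) * h2
    · exact horth i j hij
  have hQ : ∀ c : κ → F, Q (∑ i, c i • u (id i)) = ∑ i, c i * c (id i) := by
    intro c
    simp only [id]
    rw [Q_sum_orth Q u horth c]
    exact Finset.sum_congr rfl (fun i _ => by rw [hu, mul_one])
  obtain ⟨h1, h3, h4, h5⟩ := repMap_props Q h2 u w id (fun _ => rfl) horth' hdual hQ
  refine ⟨repMap Q u id, h1, h3, h4, ?_⟩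
  rintro ⟨k⟩
  refine ⟨w k, ?_⟩
  rw [h5]
  simp only [id, hdual]
  rw [Finset.sum_eq_single k]
  · simp
  · intro i _ hik
    rw [if_neg hik, mul_zero]
  · intro h
    exact absurd (Finset.mem_univ k) h

/-- alternating type -/
theorem exists_inv_al [FiniteDimensional F V] (h2 : (2 : F) = 0) {κ : Type*} [Fintype κ]
    [DecidableEq κ] (u w : κ ⊕ κ → V) (hu : ∀ i, Q (u i) = 0)
    (horth : ∀ i j, polar Q (u i) (u j) = 0)
    (hdual : ∀ i j, polar Q (w j) (u i) = if i = j then 1 else 0) :
    ∃ T : V →ₗ[F] V, (∀ x, Q (T x) = Q x) ∧ (∀ x, T (T x) = x) ∧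
      finrank F (LinearMap.range (T - LinearMap.id)) = 2 * Fintype.card κ ∧
      (∀ v, Q (v + T v) = 0) := by
  have hsw : ∀ c : κ ⊕ κ → F, ∑ i, c i * c (Sum.swap i) = 0 := by
    intro c
    rw [Fintype.sum_sum_type]
    simp only [Sum.swap_inl, Sum.swap_inr]
    have : ∑ x, c (Sum.inr x) * c (Sum.inl x) = ∑ x, c (Sum.inl x) * c (Sum.inr x) :=
      Finset.sum_congr rfl (fun i _ => mul_comm _ _)
    rw [this, ← two_mul, h2, zero_mul]
  have hQ : ∀ c : κ ⊕ κ → F, Q (∑ i, c i • u (Sum.swap i)) = ∑ i, c i * c (Sum.swap i) := by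
    intro c
    rw [hsw, Q_sum_orth Q (fun i => u (Sum.swap i)) (fun i j _ => horth _ _) c]
    apply Finset.sum_eq_zero
    intro i _
    rw [hu, mul_zero]
  obtain ⟨h1, h3, h4, h5⟩ := repMap_props Q h2 u w Sum.swap Sum.swap_swap horth hdual hQ
  refine ⟨repMap Q u Sum.swap, h1, h3, ?_, ?_⟩
  · rw [h4, Fintype.card_sum, two_mul]
  · intro v
    rw [h5]
    exact hsw (fun i => polar Q v (u i))

end Reps

section Hyp

variable {F V : Type*} [Field F] [AddCommGroup V] [Module F V] (Q : QuadraticForm F V)

/-- `k` hyperbolic pairs `(E i, E' i)`, mutually orthogonal -/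
def IsHypSys {k : ℕ} (E E' : Fin k → V) : Prop :=
  (∀ i, Q (E i) = 0) ∧ (∀ i, Q (E' i) = 0) ∧ (∀ i j, polar Q (E i) (E j) = 0) ∧
    (∀ i j, polar Q (E' i) (E' j) = 0) ∧ (∀ i j, polar Q (E i) (E' j) = if i = j then 1 else 0)

theorem hyp_na [FiniteDimensional F V] (h2 : (2 : F) = 0) {k : ℕ} {E E' : Fin k → V}
    (hs : IsHypSys Q E E') (l : ℕ) (hl : l ≤ k) :
    ∃ T : V →ₗ[F] V, (∀ x, Q (T x) = Q x) ∧ (∀ x, T (T x) = x) ∧
      finrank F (LinearMap.range (T - LinearMap.id)) = l ∧ (0 < l → ∃ v, Q (v + T v) ≠ 0) := by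
  obtain ⟨hE, hE', hEE, hE'E', hEE'⟩ := hs
  have hE'E : ∀ i j, polar Q (E' i) (E j) = if i = j then 1 else 0 := by
    intro i j
    rw [polar_comm, hEE']
    by_cases hij : i = j
    · rw [if_pos hij, if_pos hij.symm]
    · rw [if_neg hij, if_neg (fun h => hij h.symm)]
  have hinj : Function.Injective (Fin.castLE hl) := Fin.castLE_injective hl
  obtain ⟨T, h1, h3, h4, h5⟩ := exists_inv_na Q h2
    (fun i : Fin l => E (Fin.castLE hl i) + E' (Fin.castLE hl i)) (fun i => E (Fin.castLE hl i))
    (by
      intro i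
      rw [QuadraticMap.map_add (⇑Q), hE, hE', hEE', if_pos rfl]
      simp)
    (by
      intro i j hij
      have hne : Fin.castLE hl i ≠ Fin.castLE hl j := fun h => hij (hinj h)
      rw [polar_add_left, polar_add_right, polar_add_right, hEE, hE'E', hEE', hE'E, if_neg hne]
      simp)
    (by
      intro i j
      rw [polar_add_right, hEE, hEE', zero_add]
      by_cases hij : i = j
      · rw [if_pos hij, if_pos (by rw [hij])]
      · rw [if_neg hij, if_neg (fun h => hij (hinj h).symm)])
  refine ⟨T, h1, h3, ?_, ?_⟩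
  · rw [h4, Fintype.card_fin]
  · intro hl0
    exact h5 ⟨⟨0, hl0⟩⟩

theorem hyp_na_Z [FiniteDimensional F V] (h2 : (2 : F) = 0) {k : ℕ} {E E' : Fin k → V}
    (hs : IsHypSys Q E E') (Z Z' : V) (hZ : Q Z = 1) (hZE : ∀ i, polar Q Z (E i) = 0)
    (hZE' : ∀ i, polar Q Z (E' i) = 0) (hZ'Z : polar Q Z' Z = 1)
    (hZ'E : ∀ i, polar Q Z' (E i) = 0) (hZ'E' : ∀ i, polar Q Z' (E' i) = 0) :
    ∃ T : V →ₗ[F] V, (∀ x, Q (T x) = Q x) ∧ (∀ x, T (T x) = x) ∧
      finrank F (LinearMap.range (T - LinearMap.id)) = k + 1 ∧ (∃ v, Q (v + T v) ≠ 0) := by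
  obtain ⟨hE, hE', hEE, hE'E', hEE'⟩ := hs
  have hE'E : ∀ i j, polar Q (E' i) (E j) = if i = j then 1 else 0 := by
    intro i j
    rw [polar_comm, hEE']
    by_cases hij : i = j
    · rw [if_pos hij, if_pos hij.symm]
    · rw [if_neg hij, if_neg (fun h => hij h.symm)]
  obtain ⟨T, h1, h3, h4, h5⟩ := exists_inv_na Q h2
    (fun o : Option (Fin k) => o.elim Z (fun i => E i + E' i))
    (fun o : Option (Fin k) => o.elim Z' (fun i => E i))
    (by
      intro o
      rcases o with _ | i
      · exact hZ
      · show Q (E i + E' i) = 1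
        rw [QuadraticMap.map_add (⇑Q), hE, hE', hEE', if_pos rfl]
        simp)
    (by
      intro o o' hoo
      rcases o with _ | i <;> rcases o' with _ | j
      · exact absurd rfl hoo
      · show polar Q Z (E j + E' j) = 0
        rw [polar_add_right, hZE, hZE', add_zero]
      · show polar Q (E i + E' i) Z = 0
        rw [polar_comm, polar_add_right, hZE, hZE', add_zero]
      · show polar Q (E i + E' i) (E j + E' j) = 0
        have hne : i ≠ j := fun h => hoo (by rw [h])
        rw [polar_add_left, polar_add_right, polar_add_right, hEE, hE'E', hEE', hE'E, if_neg hne]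
        simp)
    (by
      intro o o'
      rcases o with _ | i <;> rcases o' with _ | j
      · show polar Q Z' Z = _
        rw [hZ'Z, if_pos rfl]
      · show polar Q (E j) Z = _
        rw [polar_comm, hZE, if_neg (by simp)]
      · show polar Q Z' (E i + E' i) = _
        rw [polar_add_right, hZ'E, hZ'E', add_zero, if_neg (by simp)]
      · show polar Q (E j) (E i + E' i) = _
        rw [polar_add_right, hEE, hEE', zero_add]
        by_cases hij : i = j
        · rw [if_pos hij.symm, if_pos (by rw [hij])]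
        · rw [if_neg (fun h => hij h.symm), if_neg (fun h => hij (Option.some.inj h))])
  refine ⟨T, h1, h3, ?_, h5 ⟨none⟩⟩
  rw [h4, Fintype.card_option, Fintype.card_fin]

theorem hyp_al [FiniteDimensional F V] (h2 : (2 : F) = 0) {k : ℕ} {E E' : Fin k → V}
    (hs : IsHypSys Q E E') (j : ℕ) (hj : 2 * j ≤ k) :
    ∃ T : V →ₗ[F] V, (∀ x, Q (T x) = Q x) ∧ (∀ x, T (T x) = x) ∧
      finrank F (LinearMap.range (T - LinearMap.id)) = 2 * j ∧ (∀ v, Q (v + T v) = 0) := by
  obtain ⟨hE, hE', hEE, hE'E', hEE'⟩ := hs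
  have hE'E : ∀ i j, polar Q (E' i) (E j) = if i = j then 1 else 0 := by
    intro i j
    rw [polar_comm, hEE']
    by_cases hij : i = j
    · rw [if_pos hij, if_pos hij.symm]
    · rw [if_neg hij, if_neg (fun h => hij h.symm)]
  let ρ : Fin j ⊕ Fin j → Fin k :=
    Sum.elim (fun i => ⟨2 * i.val, by have := i.isLt; omega⟩)
      (fun i => ⟨2 * i.val + 1, by have := i.isLt; omega⟩)
  have hρ : Function.Injective ρ := by
    intro a b hab
    rcases a with a | a <;> rcases b with b | b <;>
      simp only [ρ, Sum.elim_inl, Sum.elim_inr, Fin.mk.injEq] at hab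
    · exact congrArg Sum.inl (Fin.ext (by omega))
    · omega
    · omega
    · exact congrArg Sum.inr (Fin.ext (by omega))
  obtain ⟨T, h1, h3, h4, h5⟩ := exists_inv_al Q h2 (fun i => E (ρ i)) (fun i => E' (ρ i))
    (fun i => hE _) (fun i i' => hEE _ _)
    (by
      intro i i'
      rw [hE'E]
      by_cases hij : i = i'
      · rw [if_pos hij, if_pos (by rw [hij])]
      · rw [if_neg hij, if_neg (fun h => hij (hρ h).symm)])
  refine ⟨T, h1, h3, ?_, h5⟩
  rw [h4, Fintype.card_fin]

end Hyp

end Cfsg.Agent.Lib.Helper44
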