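import Mathlib
import Cfsg.Prelude.Def_GeometricClasses
import Cfsg.Prelude.Def_LieClassical
import Cfsg.Agent.Lib.Helper71.OMPMain
import Cfsg.Agent.Lib.Helper86.SPPCAP
import Cfsg.Agent.Lib.Helper83.SPPHOMP
import Cfsg.Agent.Lib.Helper10.SPPUNIQ
import Cfsg.Agent.Lib.Helper20.SPPEVENM
import Cfsg.Agent.Lib.Helper93.SPPTS3
import Cfsg.Agent.Lib.Helper1.SUPU3
import Cfsg.Agent.Lib.Helper21.ASCOREC
import Cfsg.Agent.Lib.Helper86.ASB8Defs
import Cfsg.Agent.Lib.Helper44.O9Defs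
import Cfsg.Agent.Lib.Helper1.O9NF3
import Cfsg.Agent.Lib.Helper14.O9FR9
import Cfsg.Agent.Lib.Helper16.O9ST9
import Cfsg.Agent.Lib.Helper21.O9PAIRbS
import Cfsg.Agent.Lib.Helper23.O9T2G
import Cfsg.Agent.Lib.Helper3.O9PAIRaS
import Cfsg.Agent.Lib.Helper33.O9TSQ
import Cfsg.Agent.Lib.Helper34.O9EICH
import Cfsg.Agent.Lib.Helper37.O9STB
import Cfsg.Agent.Lib.Helper38.O9B8X
import Cfsg.Agent.Lib.Helper40.O9NEG
import Cfsg.Agent.Lib.Helper41.O9D33
import Cfsg.Agent.Lib.Helper42.O9NO2G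
import Cfsg.Agent.Lib.Helper60.O9TFO
import Cfsg.Agent.Lib.Helper61.O9ADJS
import Cfsg.Agent.Lib.Helper62.O9FLDS
import Cfsg.Agent.Lib.Helper66.O9TPW
import Cfsg.Agent.Lib.Helper67.O9NO3L
import Cfsg.Agent.Lib.Helper76.O9NO7L
import Cfsg.Agent.Lib.Helper8.O9MON3
import Cfsg.Agent.Lib.Helper82.O9TIR
import Cfsg.Agent.Lib.Helper87.O9FR3
import Cfsg.Agent.Lib.Helper91.O9T7
import Cfsg.Agent.Lib.Helper94.O9TWS

/-! Project O9 (helper44): the maximal subgroups of `Ω_9(q)`, `q` odd (statement S5835):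
assembly of the pieces into `genO9`, `finalO9`, on top of helper71's OMP / SPP engines. -/

set_option autoImplicit false

namespace Cfsg.Agent.Lib.Helper44.O9

open Matrix Cfsg.Geo Cfsg.Agent.Lib.Helper71.Asch
open scoped Kronecker
open Cfsg.Agent.Lib.Helper71.OMPMain (T0a T0b T0c T1 T2 T5 TR eq_inf_of_max' fixes_polar tQ tW)
open Cfsg.Agent.Lib.Helper82.ASCOREB (coreB)
open Cfsg.Agent.Lib.Helper21.ASCOREC (coreC)
open Cfsg.Agent.Lib.Helper46.ASB3s (B3s B3a)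
open Cfsg.Agent.Lib.Helper46.ASB4 (not_le_scalars)
open Cfsg.Agent.Lib.Helper61.ASB6 (B6)
open Cfsg.Agent.Lib.Helper67.ASNL (NL_core exists_subfield_aut)
open Cfsg.Agent.Lib.Helper46.ASB7core (B7core)
open Cfsg.Agent.Lib.Helper73.SLPC2 (C2)
open Cfsg.Agent.Lib.Helper16.SLPC3 (C3)
open Cfsg.Agent.Lib.Helper1.SUPU3 (U3_even)
open Cfsg.Agent.Lib.Helper28.OMPO1a (O1a)
open Cfsg.Agent.Lib.Helper61.OMPO1b (O1b)
open Cfsg.Agent.Lib.Helper57.OMPO3b (O3b)
open Cfsg.Agent.Lib.Helper23.OMPO3r (O3r)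
open Cfsg.Agent.Lib.Helper8.OMPO5 (O5)
open Cfsg.Agent.Lib.Helper77.OMPO7 (O7)
open Cfsg.Agent.Lib.Helper54.OMPO8a (O8a)
open Cfsg.Agent.Lib.Helper14.OMPO8b (O8b)
open Cfsg.Agent.Lib.Helper19.OMPOA (OA)
open Cfsg.Agent.Lib.Helper79.OMPNO1 (NO1)
open Cfsg.Agent.Lib.Helper79.OMPNO2 (NO2)
open Cfsg.Agent.Lib.Helper83.OMPNO5 (NO5)
open Cfsg.Agent.Lib.Helper56.OMPOD (OD1 OD2)
open Cfsg.Agent.Lib.Helper86.SPPCAP (CAP)
open Cfsg.Agent.Lib.Helper83.SPPHOMP (HOMP)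
open Cfsg.Agent.Lib.Helper10.SPPUNIQ (UNIQ)
open Cfsg.Agent.Lib.Helper20.SPPEVENM (EVENM)
open Cfsg.Agent.Lib.Helper93.SPPTS3 (TS3)

variable {n : ℕ} {F : Type*} [Field F] [Fintype F]

/-- the polar form of a non-degenerate quadratic form is a symmetric form -/
theorem o9_polar_symm (Q : (Fin n → F) → F) (hQ : IsNondegenerateQuadraticForm Q) :
    IsSymmetricForm (QuadraticMap.polar Q) :=
  ⟨hQ.polar_bilinear, fun u v => QuadraticMap.polar_comm Q u v, hQ.nondegenerate⟩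

/-- `O3r` for discriminant `2 c²` (apply `O3r` to `-Q`) -/
theorem o9_O3r (Q : (Fin n → F) → F) (hQ : IsNondegenerateQuadraticForm Q) (h2 : (2 : F) ≠ 0)
    (hodd : Odd n)
    (hdisc : ∃ c : F, c ≠ 0 ∧ (gramMatrix (QuadraticMap.polar Q)).det = 2 * c ^ 2)
    (D : Fin n → Submodule F (Fin n → F)) (hD : IsOrthogonalMDecomposition Q 1 D) :
    ∃ P : GL (Fin n) F, (∀ F₀ : Subfield F, IsQuadFormRationalStructure Q F₀ P) ∧
      ∀ (F₀ : Subfield F) (g : GL (Fin n) F), g ∈ decompositionStabilizer D →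
        (∀ v, Q (g.1 *ᵥ v) = Q v) → g ∈ subfieldSubgroup F₀ P := by
  obtain ⟨c, hc, hdet⟩ := hdisc
  have hdisc' : ∃ c : F, c ≠ 0 ∧
      (gramMatrix (QuadraticMap.polar (fun v => - Q v))).det = -2 * c ^ 2 :=
    ⟨c, hc, by rw [NEGb Q hodd, hdet]; ring⟩
  obtain ⟨P, hP1, hP2⟩ := O3r (fun v => - Q v) (NEGa Q hQ) h2 hodd hdisc' D (NEGc Q D hD)
  refine ⟨P, fun F₀ => NEGd Q F₀ P (hP1 F₀), fun F₀ g hg hfix => hP2 F₀ g hg (fun v => ?_)⟩
  show - Q (g.1 *ᵥ v) = - Q v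
  rw [hfix]

/-- `O8b` for discriminant `2 c²` (apply `O8b` to `-Q`) -/
theorem o9_O8b (Q : (Fin n → F) → F) (hQ : IsNondegenerateQuadraticForm Q) (h2 : (2 : F) ≠ 0)
    (hodd : Odd n)
    (hdisc : ∃ c : F, c ≠ 0 ∧ (gramMatrix (QuadraticMap.polar Q)).det = 2 * c ^ 2)
    (F₁ : Subfield F) (r : ℕ) (hr : r.Prime) (hcard : Fintype.card F = Nat.card F₁ ^ r)
    (P : GL (Fin n) F) (ζ : F) (hζ : ζ ≠ 0)
    (hrat : IsFormRationalStructure (QuadraticMap.polar Q) F₁ ζ P) :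
    ∃ P' : GL (Fin n) F, IsQuadFormRationalStructure Q F₁ P' ∧
      subfieldSubgroup F₁ P' = subfieldSubgroup F₁ P := by
  obtain ⟨c, hc, hdet⟩ := hdisc
  have hdisc' : ∃ c : F, c ≠ 0 ∧
      (gramMatrix (QuadraticMap.polar (fun v => - Q v))).det = -2 * c ^ 2 :=
    ⟨c, hc, by rw [NEGb Q hodd, hdet]; ring⟩
  obtain ⟨P', h1, h2'⟩ := O8b (fun v => - Q v) (NEGa Q hQ) h2 hodd hdisc' F₁ r hr hcard P (-ζ)
    (neg_ne_zero.mpr hζ) (NEGe Q F₁ ζ P hrat)
  exact ⟨P', NEGd Q F₁ P' h1, h2'⟩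

/-- a minimal non-scalar normal subgroup of an irreducible group -/
theorem o9_exists_minNS (hn : 2 ≤ n) (H : Subgroup (GL (Fin n) F))
    (hH : ActsIrreducibly (matrixSet H)) : ∃ L, IsMinNS H L := by
  have hHns := not_le_scalars hn H hH
  set 𝒮 : Set (Subgroup (GL (Fin n) F)) :=
    {L | L ≤ H ∧ Nrm H L ∧ ¬ L ≤ scalars (Fin n) F} with h𝒮
  have hne : 𝒮.Nonempty := by
    refine ⟨H, le_rfl, ?_, hHns⟩
    intro h hh x hx
    exact H.mul_mem (H.mul_mem hh hx) (H.inv_mem hh)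
  have hwf : WellFounded ((· < ·) : Subgroup (GL (Fin n) F) → Subgroup (GL (Fin n) F) → Prop) :=
    wellFounded_lt
  obtain ⟨L, hL, hmin⟩ := hwf.has_min 𝒮 hne
  refine ⟨L, hL.1, hL.2.1, hL.2.2, ?_⟩
  intro L' hL' hN'
  by_cases hs : L' ≤ scalars (Fin n) F
  · exact Or.inl hs
  · right
    have hmem : L' ∈ 𝒮 := ⟨hL'.trans hL.1, hN', hs⟩
    rcases lt_or_eq_of_le hL' with h | h
    · exact absurd h (hmin L' hmem)
    · exact h

/-- The normal form of a group of isometries of a quadratic form in dimension 9. -/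
def GenO9 (Q : (Fin n → F) → F) (H : Subgroup (GL (Fin n) F)) : Prop :=
  (∃ W : Submodule F (Fin n → F), W ≠ ⊥ ∧ W ≠ ⊤ ∧ IsTotallySingularQuad Q W ∧
    H ≤ subspaceStabilizer W) ∨
  (∃ W : Submodule F (Fin n → F), W ≠ ⊥ ∧ W ≠ ⊤ ∧ Even (Module.finrank F W) ∧
    IsNondegenerateOn (QuadraticMap.polar Q) W ∧
    ¬ (Fintype.card F = 3 ∧ Module.finrank F W = 2 ∧ IsPlusTypeOn Q W) ∧
    H ≤ subspaceStabilizer W) ∨
  (∃ (D : Fin n → Submodule F (Fin n → F)) (P : GL (Fin n) F),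
    IsOrthogonalMDecomposition Q 1 D ∧ H ≤ decompositionStabilizer D ∧
    ∀ F₀ : Subfield F, IsQuadFormRationalStructure Q F₀ P ∧ H ≤ subfieldSubgroup F₀ P) ∨
  (5 ≤ Fintype.card F ∧ ∃ D : Fin 3 → Submodule F (Fin n → F),
    IsOrthogonalMDecomposition Q 3 D ∧ H ≤ decompositionStabilizer D) ∨
  (∃ K : Subalgebra F (Matrix (Fin n) (Fin n) F), IsFieldSubalgebra 3 K ∧
    IsSelfAdjointFor (QuadraticMap.polar Q) K ∧ H ≤ subalgebraNormalizer K) ∨
  (∃ (F₀ : Subfield F) (r : ℕ) (P : GL (Fin n) F), r.Prime ∧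
    Fintype.card F = Nat.card F₀ ^ r ∧ IsQuadFormRationalStructure Q F₀ P ∧
    H ≤ subfieldSubgroup F₀ P) ∨
  (5 ≤ Fintype.card F ∧ ∃ (e : Fin n ≃ (Fin 2 → Fin 3)) (P : GL (Fin n) F)
    (f₁ : (Fin 3 → F) → (Fin 3 → F) → F), IsSymmetricForm f₁ ∧
    IsTensorPowerFormStructure id (QuadraticMap.polar Q) f₁ e P ∧
    H ≤ tensorWreathSubgroup 3 2 e P) ∨
  InOrthogonalResidualClass H

/-- GENO9: the structure of a group of isometries of a non-degenerate quadratic form in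
dimension 9 over a finite field of odd characteristic. -/
theorem genO9 (hn : n = 9) (Q : (Fin n → F) → F) (hQ : IsNondegenerateQuadraticForm Q)
    (h2 : (2 : F) ≠ 0) (hqodd : Odd (Fintype.card F))
    (hdisc : ∃ c : F, c ≠ 0 ∧ (gramMatrix (QuadraticMap.polar Q)).det = 2 * c ^ 2)
    (H : Subgroup (GL (Fin n) F)) (hfix : FixesQuadForm (matrixSet H) Q) : GenO9 Q H := by
  classical
  subst hn
  have hodd : Odd 9 := by decide
  have hb : IsSymmetricForm (QuadraticMap.polar Q) := o9_polar_symm Q hQ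
  have hbfix : FixesForm (matrixSet H) (QuadraticMap.polar Q) := fixes_polar hfix
  have hq1 : 1 < Fintype.card F := Fintype.one_lt_card
  -- the frame alternative
  have frame : ∀ D : Fin 9 → Submodule F (Fin 9 → F), IsOrthogonalMDecomposition Q 1 D →
      H ≤ decompositionStabilizer D → GenO9 Q H := by
    intro D hOD hHD
    obtain ⟨P, hP1, hP2⟩ := o9_O3r Q hQ h2 hodd hdisc D hOD
    refine Or.inr (Or.inr (Or.inl ⟨D, P, hOD, hHD, fun F₀ => ⟨hP1 F₀, ?_⟩⟩))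
    intro g hg
    exact hP2 F₀ g (hHD hg) (fun v => hfix _ ⟨g, hg, rfl⟩ v)
  have hq3 : ¬ 5 ≤ Fintype.card F → Fintype.card F = 3 := by
    intro h
    rcases hqodd with ⟨a, ha⟩
    omega
  -- the tensor square alternative
  have tens : ∀ (e : Fin 9 ≃ (Fin 2 → Fin 3)) (P : GL (Fin 9) F)
      (f₁ : (Fin 3 → F) → (Fin 3 → F) → F), IsSymmetricForm f₁ →
      IsTensorPowerFormStructure id (QuadraticMap.polar Q) f₁ e P →
      H ≤ tensorWreathSubgroup 3 2 e P → GenO9 Q H := by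
    intro e P f₁ hf₁ ht hHT
    by_cases hq : 5 ≤ Fintype.card F
    · exact Or.inr (Or.inr (Or.inr (Or.inr (Or.inr (Or.inr (Or.inl
        ⟨hq, e, P, f₁, hf₁, ht, hHT⟩))))))
    · have hq3' := hq3 hq
      obtain ⟨w, ε, hε, hnorm, horth', hfr⟩ := MON3 hq3' f₁ hf₁
      have hD' := FR9 h2 Q hQ e P f₁ hf₁ ht w ε hε hnorm horth'
      exact frame _ hD' (fun g hg => STB _ hD'.decomp.decomp g
        (ST9 hq3' h2 Q hQ e P f₁ hf₁ ht w ε hε hnorm horth' hfr (fun s hs => TWS s hs) g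
          (hHT hg) (fun v => hfix _ ⟨g, hg, rfl⟩ v)))
  -- from a tensor product of Gram matrices to the tensor square alternative
  have tens2 : ∀ (e : Fin 9 ≃ Fin 3 × Fin 3) (P : GL (Fin 9) F)
      (G₁ G₂ : Matrix (Fin 3) (Fin 3) F), G₁.det ≠ 0 → G₂.det ≠ 0 →
      ((G₁ᵀ = G₁ ∧ G₂ᵀ = G₂) ∨ (G₁ᵀ = -G₁ ∧ (∀ i, G₁ i i = 0) ∧ G₂ᵀ = -G₂)) →
      (∀ x y : Fin 3 × Fin 3 → F, QuadraticMap.polar Q (P.1 *ᵥ (x ∘ e)) (P.1 *ᵥ (y ∘ e)) =
        formOfGram id (G₁ ⊗ₖ G₂) x y) →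
      H ≤ tensorWreathSubgroup 3 2 (e.trans (finTwoArrowEquiv (Fin 3)).symm) P →
      GenO9 Q H := by
    intro e P G₁ G₂ hd1 hd2 hcase hid hHT
    rcases hcase with ⟨hs1, hs2⟩ | ⟨ha1, hz1, -⟩
    · obtain ⟨A, c, hc, hA⟩ := NF3 h2 G₁ G₂ hs1 hs2 hd1 hd2
      obtain ⟨P', f₁, hf₁, ht, heq⟩ := TSQ (QuadraticMap.polar Q) e P G₁ G₂ hs1 hd1 hid A c hc hA
      exact tens _ P' f₁ hf₁ ht (heq ▸ hHT)
    · exact absurd (EVENM G₁ ha1 hz1 hd1) (by decide)
  by_cases h1 : ActsIrreducibly (matrixSet H)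
  swap
  · rcases O1a Q hQ h2 hodd H hfix h1 with ⟨W, h0, htop, hts, hle⟩ | ⟨W, h0, htop, hev, hnd, hle⟩
    · exact Or.inl ⟨W, h0, htop, hts, hle⟩
    · by_cases hex : Fintype.card F = 3 ∧ Module.finrank F W = 2 ∧ IsPlusTypeOn Q W
      · obtain ⟨W₂, h0', htop', hev', hne2, hnd', hle'⟩ :=
          O1b Q hQ h2 hodd (by norm_num) hex.1 H hfix W hnd hex.2.1 hex.2.2 hle
        exact Or.inr (Or.inl ⟨W₂, h0', htop', hev', hnd', fun h => hne2 h.2.1, hle'⟩)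
      · exact Or.inr (Or.inl ⟨W, h0, htop, hev, hnd, hex, hle⟩)
  obtain ⟨L, hL⟩ := o9_exists_minNS (by norm_num) H h1
  have hLfixQ : FixesQuadForm (matrixSet L) Q := by
    rintro _ ⟨g, hg, rfl⟩ v
    exact hfix _ ⟨g, hL.le hg, rfl⟩ v
  have hLfix : FixesForm (matrixSet L) (QuadraticMap.polar Q) := fixes_polar hLfixQ
  rcases CAP (by norm_num) H L h1 hL.le hL.nrm with
    ⟨t, m, D, hD, hHD, hiso, hinv, hfull⟩ | ⟨d, k, e, P, R, hR, hR1, hR2⟩
  · -- inhomogeneous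
    have htm : t * m = 9 := C2 D hD
    have ht2 := hD.two_le
    obtain ⟨τ, hτ, horth, hno⟩ := PAIRaS (QuadraticMap.polar Q) hb L hLfix D hD hiso hinv hfull
    have htodd : ¬ Even t := by
      intro hev
      have h29 : 2 ∣ 9 := by
        rw [← htm]
        exact Dvd.dvd.mul_right hev.two_dvd m
      omega
    rcases PAIRbS (QuadraticMap.polar Q) hb H hbfix h1 D hD hHD τ hτ horth hno with
      hND | ⟨hfp, -⟩
    swap
    · exfalso
      have hev : Even t := by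
        have := U3_even τ hτ hfp
        simpa using this
      exact htodd hev
    have hisom := O3b Q H hfix h1 D hD hHD
    have hOD : IsOrthogonalMDecomposition Q m D := ⟨hND, hisom⟩
    have hcases : (t = 9 ∧ m = 1) ∨ (t = 3 ∧ m = 3) := by
      have ht9 : t ∣ 9 := ⟨m, htm.symm⟩
      have hle : t ≤ 9 := Nat.le_of_dvd (by norm_num) ht9
      interval_cases t <;> omega
    rcases hcases with ⟨rfl, rfl⟩ | ⟨rfl, rfl⟩
    · exact frame D hOD hHD
    · by_cases hq : 5 ≤ Fintype.card F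
      · exact Or.inr (Or.inr (Or.inr (Or.inl ⟨hq, D, hOD, hHD⟩)))
      · have hq3' := hq3 hq
        obtain ⟨w, ε, hε, hw, hnorm, horth', hfr⟩ := FR3 hq3' Q hQ (D 0) (hD.finrank_eq 0)
          (hND.nondegenerate 0) (fun f₁ hf₁ => MON3 hq3' f₁ hf₁)
        obtain ⟨D', hD', hstab⟩ := D33 hq3' Q hQ D hOD w ε hε hw hnorm horth' hfr
        exact frame D' hD' (fun g hg => STB D' hD'.decomp.decomp g
          (hstab g (hHD hg) (fun v => hfix _ ⟨g, hg, rfl⟩ v)))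
  · -- homogeneous
    have hcard : 9 = d * k := by
      have := Fintype.card_congr e
      simpa using this
    have hd1 : d ≠ 1 := by
      rintro rfl
      exact hL.ns (B3s e P R L hR1)
    by_cases hRa : ActsAbsolutelyIrreducibly (matrixSet R)
    swap
    · obtain ⟨r, K, hr, hK, hHK, hKc⟩ :=
        coreB (by norm_num) H L hL.le hL.nrm e P R hR hR1 hR2 hRa
      have hhom := HOMP e P R L hR hR1 hR2
      have hadj := ADJS (by norm_num) (QuadraticMap.polar Q) hb L hLfix hhom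
        (fun Z hc hi r K K' hK hK' h1 h2 => UNIQ (by norm_num) Z hc hi r K K' hK hK' h1 h2)
        r K hK hKc
      have hrn : r ∣ 9 := C3 (by norm_num) r K hK
      have hr3 : r = 3 := by
        have h3 : r ∣ 3 ^ 2 := by
          norm_num
          exact hrn
        exact (Nat.prime_dvd_prime_iff_eq hr Nat.prime_three).1 (hr.dvd_of_dvd_pow h3)
      subst hr3
      have hsa := FLDS (QuadraticMap.polar Q) hb 3 (by decide) K hK hadj
      exact Or.inr (Or.inr (Or.inr (Or.inr (Or.inl ⟨K, hK, hsa, hHK⟩))))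
    · have hHT : H ≤ tensorProductSubgroup d k e P := fun h hh =>
        (coreC e P R L hRa hR1 hR2).2 h (fun x hx => hL.nrm h hh x hx)
      have hdk : (d = 3 ∧ k = 3) ∨ (d = 9 ∧ k = 1) := by
        have hd9 : d ∣ 9 := ⟨k, hcard⟩
        have hle : d ≤ 9 := Nat.le_of_dvd (by norm_num) hd9
        interval_cases d <;> omega
      rcases hdk with ⟨rfl, rfl⟩ | ⟨rfl, rfl⟩
      · obtain ⟨G₁, G₂, hd1', hd2', hcase, hid⟩ :=
          TFO h2 (QuadraticMap.polar Q) hb e P R L hRa hR1 hR2 hLfix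
        exact tens2 e P G₁ G₂ hd1' hd2' hcase hid (hHT.trans (TPW e P))
      · have hLa := B3a e P R L hRa hR2
        rcases hL.min ⁅L, L⁆ (commutator_le_self L) hL.nrm.commutator with hc | hc
        · exact (O5 Q hQ (by norm_num) hodd L hLa hLfixQ hc).elim
        · rcases B6 H L hL hc with ⟨hs, hna⟩ | ⟨k', Ps, hk', hns, hcomm, hsup, hperm, htrans⟩
          · by_cases hsubf : ∃ F₀ : Subfield F, F₀ ≠ ⊤ ∧ RealisableOver F₀ (matrixSet L)
            · obtain ⟨F₀, hF₀, hreal⟩ := hsubf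
              obtain ⟨F₁, r, τ', hr, hcardF, hle, hfixτ⟩ := exists_subfield_aut F₀ hF₀
              obtain ⟨B, hB⟩ := hreal
              have hB₁ : ∀ s ∈ matrixSet L, ∀ i j,
                  (B.1 * s * (B⁻¹ : GL (Fin 9) F).1) i j ∈ F₁ :=
                fun s hs i j => hle (hB s hs i j)
              have hHle : H ≤ subfieldSubgroup F₁ B⁻¹ := by
                intro h hh
                have key := NL_core L hLa F₁ τ' hfixτ B hB₁ h (fun x hx => hL.nrm h hh x hx)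
                unfold subfieldSubgroup
                refine ⟨B * h * B⁻¹, key, ?_⟩
                show B⁻¹ * (B * h * B⁻¹) * B⁻¹⁻¹ = h
                group
              obtain ⟨ζ, hζ, hrat⟩ := O8a (by norm_num) L hLa (QuadraticMap.polar Q)
                hQ.polar_bilinear hQ.nondegenerate hLfix F₁ τ' hfixτ B hB₁
              obtain ⟨P', hP', hsg⟩ := o9_O8b Q hQ h2 hodd hdisc F₁ r hr hcardF B⁻¹ ζ hζ hrat
              exact Or.inr (Or.inr (Or.inr (Or.inr (Or.inr (Or.inl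
                ⟨F₁, r, P', hr, hcardF, hP', by rw [hsg]; exact hHle⟩)))))
            · refine Or.inr (Or.inr (Or.inr (Or.inr (Or.inr (Or.inr (Or.inr
                ⟨L, B7core H L hL.le hL.nrm hLa hc hs hna ?_, ?_⟩))))))
              · intro F₀ hF₀ hreal
                exact hsubf ⟨F₀, hF₀, hreal⟩
              · rintro ⟨σ, f, hf, hffix⟩
                exact hsubf (O7 (by norm_num) L hLa (QuadraticMap.polar Q) hQ.polar_bilinear
                  hQ.nondegenerate hLfix σ f hf hffix)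
          · obtain ⟨m', e', P', hm', hHW, hspan⟩ :=
              B8X (by norm_num) H L hLa k' Ps hk' hns hcomm hsup hperm htrans
            have hmk : m' ^ k' = 9 := by
              have := Fintype.card_congr e'
              simpa using this.symm
            have hm3 : m' ≤ 3 := by
              by_contra hcon
              have h4 : 4 ≤ m' := by omega
              have : 4 ^ 2 ≤ m' ^ k' :=
                le_trans (Nat.pow_le_pow_left h4 2) (Nat.pow_le_pow_right (by omega) hk')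
              omega
            have hk3 : k' ≤ 3 := by
              by_contra hcon
              have h4 : 4 ≤ k' := by omega
              have : 2 ^ 4 ≤ m' ^ k' :=
                le_trans (Nat.pow_le_pow_right (by norm_num) h4) (Nat.pow_le_pow_left hm' k')
              omega
            have hmk' : m' = 3 ∧ k' = 2 := by
              interval_cases m' <;> interval_cases k' <;>
                first | exact ⟨rfl, rfl⟩ | (exfalso; norm_num at hmk)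
            obtain ⟨rfl, rfl⟩ := hmk'
            obtain ⟨e₂, R₀, he, hR₀a, hR₀1, hR₀2⟩ := TIR e' P' (Ps 0) (hspan 0)
            subst he
            have hfix0 : FixesForm (matrixSet (Ps 0)) (QuadraticMap.polar Q) := by
              rintro _ ⟨g, hg, rfl⟩ u v
              have hgL : g ∈ L := by
                rw [hsup]
                exact le_iSup Ps 0 hg
              exact hLfix _ ⟨g, hgL, rfl⟩ u v
            obtain ⟨G₁, G₂, hd1', hd2', hcase, hid⟩ :=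
              TFO h2 (QuadraticMap.polar Q) hb e₂ P' R₀ (Ps 0) hR₀a hR₀1 hR₀2 hfix0
            exact tens2 e₂ P' G₁ G₂ hd1' hd2' hcase hid hHW

/-- FINAL: the maximal subgroups of `Ω_9(q)`, `q` odd. -/
theorem finalO9 (hodd : Odd (Fintype.card F)) (H : Subgroup (GL (Unit ⊕ (Fin 4 ⊕ Fin 4)) F))
    (hH : IsMaximalIn (omegaGL (Cfsg.quadFormOdd 4 F)) H) :
    (∃ W : Submodule F (Unit ⊕ (Fin 4 ⊕ Fin 4) → F), W ≠ ⊥ ∧
      IsTotallySingularQuad (Cfsg.quadFormOdd 4 F) W ∧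
      H = subspaceStabilizer W ⊓ omegaGL (Cfsg.quadFormOdd 4 F)) ∨
    (∃ W : Submodule F (Unit ⊕ (Fin 4 ⊕ Fin 4) → F), W ≠ ⊥ ∧ Even (Module.finrank F W) ∧
      IsNondegenerateOn (QuadraticMap.polar (Cfsg.quadFormOdd 4 F)) W ∧
      ¬ (Fintype.card F = 3 ∧ Module.finrank F W = 2 ∧ IsPlusTypeOn (Cfsg.quadFormOdd 4 F) W) ∧
      H = subspaceStabilizer W ⊓ omegaGL (Cfsg.quadFormOdd 4 F)) ∨
    ((Fintype.card F).Prime ∧ ∃ D : Fin 9 → Submodule F (Unit ⊕ (Fin 4 ⊕ Fin 4) → F),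
      IsOrthogonalMDecomposition (Cfsg.quadFormOdd 4 F) 1 D ∧
      H = decompositionStabilizer D ⊓ omegaGL (Cfsg.quadFormOdd 4 F)) ∨
    (5 ≤ Fintype.card F ∧ ∃ D : Fin 3 → Submodule F (Unit ⊕ (Fin 4 ⊕ Fin 4) → F),
      IsOrthogonalMDecomposition (Cfsg.quadFormOdd 4 F) 3 D ∧
      H = decompositionStabilizer D ⊓ omegaGL (Cfsg.quadFormOdd 4 F)) ∨
    (∃ K : Subalgebra F (Matrix (Unit ⊕ (Fin 4 ⊕ Fin 4)) (Unit ⊕ (Fin 4 ⊕ Fin 4)) F),
      IsFieldSubalgebra 3 K ∧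
      IsSelfAdjointFor (QuadraticMap.polar (Cfsg.quadFormOdd 4 F)) K ∧
      H = subalgebraNormalizer K ⊓ omegaGL (Cfsg.quadFormOdd 4 F)) ∨
    (∃ (F₀ : Subfield F) (r : ℕ) (P : GL (Unit ⊕ (Fin 4 ⊕ Fin 4)) F), r.Prime ∧
      Fintype.card F = Nat.card F₀ ^ r ∧
      IsQuadFormRationalStructure (Cfsg.quadFormOdd 4 F) F₀ P ∧
      H = subfieldSubgroup F₀ P ⊓ omegaGL (Cfsg.quadFormOdd 4 F)) ∨
    (5 ≤ Fintype.card F ∧ ∃ (e : (Unit ⊕ (Fin 4 ⊕ Fin 4)) ≃ (Fin 2 → Fin 3))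
      (P : GL (Unit ⊕ (Fin 4 ⊕ Fin 4)) F) (f₁ : (Fin 3 → F) → (Fin 3 → F) → F),
      IsSymmetricForm f₁ ∧
      IsTensorPowerFormStructure id (QuadraticMap.polar (Cfsg.quadFormOdd 4 F)) f₁ e P ∧
      H = tensorWreathSubgroup 3 2 e P ⊓ omegaGL (Cfsg.quadFormOdd 4 F)) ∨
    InOrthogonalResidualClass H := by
  classical
  set Q₀ := Cfsg.quadFormOdd 4 F with hQ₀
  have hcardκ : Fintype.card (Unit ⊕ (Fin 4 ⊕ Fin 4)) = 9 := by
    simp
  have hk5 : 5 ≤ Fintype.card (Unit ⊕ (Fin 4 ⊕ Fin 4)) := by rw [hcardκ]; norm_num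
  let e : Unit ⊕ (Fin 4 ⊕ Fin 4) ≃ Fin 9 := Fintype.equivFinOfCardEq hcardκ
  have hQnd : IsNondegenerateQuadraticForm Q₀ := OD1 hodd 4
  have hpr : (ringChar F).Prime := CharP.char_is_prime F (ringChar F)
  have hp2 : ringChar F ≠ 2 := by
    intro h2'
    have hdc : ringChar F ∣ Fintype.card F := by
      have := (ringChar.spec F (Fintype.card F)).mp (by simp)
      exact this
    rw [h2'] at hdc
    exact (Nat.not_even_iff_odd.mpr hodd) (even_iff_two_dvd.mpr hdc)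
  have h2 : (2 : F) ≠ 0 := by
    intro h
    have hch : ringChar F ∣ 2 := (ringChar.spec F 2).mp (by exact_mod_cast h)
    exact hp2 ((Nat.prime_dvd_prime_iff_eq hpr Nat.prime_two).mp hch)
  have hpodd : Odd (ringChar F) := hpr.odd_of_ne_two hp2
  have hdisc : ∃ c : F, c ≠ 0 ∧
      (gramMatrix (QuadraticMap.polar (tQ e Q₀))).det = 2 * c ^ 2 := by
    refine ⟨1, one_ne_zero, ?_⟩
    rw [T0c, OD2]
    norm_num
  have hfix' := T0b e Q₀ H hH.1.le
  have hne : ∀ (F₀ : Subfield F) (r : ℕ), r.Prime → Fintype.card F = Nat.card F₀ ^ r →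
      F₀ ≠ ⊤ := by
    intro F₁ r hr hcard htop
    rw [htop] at hcard
    have h1 : Nat.card (⊤ : Subfield F) = Fintype.card F := by
      rw [← Nat.card_eq_fintype_card]
      exact Nat.card_congr Subfield.topEquiv.toEquiv
    rw [h1] at hcard
    have h2 : 1 < Fintype.card F := Fintype.one_lt_card
    have h3 : Fintype.card F ^ 1 < Fintype.card F ^ r :=
      Nat.pow_lt_pow_right h2 hr.one_lt
    rw [pow_one] at h3
    omega
  obtain ⟨g₀, hg₀Ω, hg₀1, hg₀rk, hg₀p⟩ := EICH Q₀ hQnd hodd hk5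
  rcases genO9 rfl (tQ e Q₀) (T0a e Q₀ hQnd) h2 hodd hdisc _ hfix' with
    ⟨W', h0, htop, hts, hle⟩ | ⟨W', h0, htop, hev, hnd, hex, hle⟩ | ⟨D', P', hOD, hle, hrat⟩ |
    ⟨hq5, D', hOD, hle⟩ | ⟨K', hK', hsa, hle⟩ | ⟨F₀, r, P', hr, hcard, hrat, hle⟩ |
    ⟨hq5, e', P', f₁, hf₁, ht, hle⟩ | hres
  · obtain ⟨t1, t2, t3, t4, t5, t6, t7⟩ := T1 e Q₀ H W'
    exact Or.inl ⟨tW e W', t2 h0, t5 hts,
      eq_inf_of_max' hH (t1 hle) (NO1 Q₀ hQnd hodd hk5 _ (t2 h0) (t3 htop))⟩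
  · obtain ⟨t1, t2, t3, t4, t5, t6, t7⟩ := T1 e Q₀ H W'
    refine Or.inr (Or.inl ⟨tW e W', t2 h0, by rw [t4]; exact hev, t6 hnd, ?_,
      eq_inf_of_max' hH (t1 hle) (NO1 Q₀ hQnd hodd hk5 _ (t2 h0) (t3 htop))⟩)
    rintro ⟨hc3, hd2, hpl⟩
    exact hex ⟨hc3, by rw [← t4]; exact hd2, t7 hpl⟩
  · by_cases hprime : (Fintype.card F).Prime
    · obtain ⟨s1, s2⟩ := T2 e Q₀ H D'
      have hD := s2 hOD
      exact Or.inr (Or.inr (Or.inl ⟨hprime, _, hD,
        eq_inf_of_max' hH (s1 hle) (NO2 Q₀ hQnd hodd hk5 _ hD.decomp)⟩))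
    · obtain ⟨F₀, r, hr, hcard⟩ := OA hprime
      obtain ⟨u1, u2⟩ := T5 e Q₀ H F₀ P'
      exact Or.inr (Or.inr (Or.inr (Or.inr (Or.inr (Or.inl ⟨F₀, r, _, hr, hcard, u2 (hrat F₀).1,
        eq_inf_of_max' hH (u1 (hrat F₀).2) (NO5 Q₀ hQnd hodd hk5 F₀ (hne F₀ r hr hcard) _)⟩)))))
  · obtain ⟨s1, s2⟩ := T2G e Q₀ H (m := 3) D'
    have hD := s2 hOD
    exact Or.inr (Or.inr (Or.inr (Or.inl ⟨hq5, _, hD,
      eq_inf_of_max' hH (s1 hle) (NO2G Q₀ hQnd hodd hk5 (by rw [hcardκ]; norm_num) _ hD.decomp)⟩)))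
  · obtain ⟨k1, k2, k3, -, -⟩ := TS3 e (QuadraticMap.polar Q₀) H 3 K'
    have hsa' : IsSelfAdjointFor
        (Cfsg.Agent.Lib.Helper93.SPPTS3.tf e (QuadraticMap.polar Q₀)) K' :=
      fun k hk u v => hsa k hk u v
    refine Or.inr (Or.inr (Or.inr (Or.inr (Or.inl ⟨_, k2 hK', k3.1 hsa',
      eq_inf_of_max' hH (k1 hle) ?_⟩))))
    intro hΩ
    exact NO3L hk5 3 le_rfl _ (k2 hK') g₀ hg₀1 hg₀rk (hΩ hg₀Ω)
  · obtain ⟨u1, u2⟩ := T5 e Q₀ H F₀ P'
    exact Or.inr (Or.inr (Or.inr (Or.inr (Or.inr (Or.inl ⟨F₀, r, _, hr, hcard, u2 hrat,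
      eq_inf_of_max' hH (u1 hle) (NO5 Q₀ hQnd hodd hk5 F₀ (hne F₀ r hr hcard) _)⟩)))))
  · obtain ⟨w1, w2⟩ := T7 e (QuadraticMap.polar Q₀) H e' P' f₁
    have ht' : IsTensorPowerFormStructure id
        (fun u v : Fin 9 → F => QuadraticMap.polar Q₀ (u ∘ e) (v ∘ e)) f₁ e' P' := ht
    refine Or.inr (Or.inr (Or.inr (Or.inr (Or.inr (Or.inr (Or.inl ⟨hq5, _, _, f₁, hf₁, w2 ht',
      eq_inf_of_max' hH (w1 hle) ?_⟩))))))
    intro hΩ
    exact NO7L _ _ g₀ hg₀1 hg₀rk (ringChar F) hpodd hg₀p (hΩ hg₀Ω) (fun s hs => TWS s hs)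
  · exact Or.inr (Or.inr (Or.inr (Or.inr (Or.inr (Or.inr (Or.inr (TR e H hres)))))))

end Cfsg.Agent.Lib.Helper44.O9
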