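import Mathlib
import Cfsg.Agent.Lib.Helper52.GeoOmega
import Cfsg.Agent.Lib.Helper52.FullPair
import Cfsg.Agent.Lib.Helper7.OmegaCenter

/-!
Pairs of complementary totally singular subspaces `U`, `W` of a non-degenerate quadratic space
(plus type): a subgroup of the isometry group containing the stabiliser in `Ω` of both members,
a swap of the two members, and an element that neither preserves nor swaps them, contains `Ω`.
-/

set_option autoImplicit false
set_option linter.unusedSectionVars false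
set_option linter.unusedVariables false

namespace Cfsg.Agent.Lib.Helper44

open Module QuadraticMap
open Cfsg.Agent.Lib.Helper51 Cfsg.Agent.Lib.Helper52

section OrthPair

variable {ι : Type} [Fintype ι] [DecidableEq ι] {F : Type*} [Field F]
variable (Q : QuadraticForm F (ι → F))

local notation "mt(" g ")" => ((g : Matrix.GeneralLinearGroup ι F) : Matrix ι ι F)

/-- A pair of complementary totally singular subspaces. -/
structure TsPair (U W : Submodule F (ι → F)) : Prop where
  hU : ∀ x ∈ U, Q x = 0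
  hW : ∀ x ∈ W, Q x = 0
  disj : U ⊓ W = ⊥
  sup : U ⊔ W = ⊤

variable {Q}

theorem TsPair.symm {U W : Submodule F (ι → F)} (P : TsPair Q U W) : TsPair Q W U :=
  ⟨P.hW, P.hU, by rw [inf_comm]; exact P.disj, by rw [sup_comm]; exact P.sup⟩

theorem TsPair.polU {U W : Submodule F (ι → F)} (P : TsPair Q U W) {x y : ι → F} (hx : x ∈ U)
    (hy : y ∈ U) : polar ⇑Q x y = 0 := polar_eq_zero_of_ts Q U P.hU hx hy

theorem TsPair.polW {U W : Submodule F (ι → F)} (P : TsPair Q U W) {x y : ι → F} (hx : x ∈ W)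
    (hy : y ∈ W) : polar ⇑Q x y = 0 := polar_eq_zero_of_ts Q W P.hW hx hy

theorem TsPair.dec {U W : Submodule F (ι → F)} (P : TsPair Q U W) (y : ι → F) :
    ∃ a ∈ U, ∃ b ∈ W, a + b = y :=
  Submodule.mem_sup.mp (by rw [P.sup]; exact Submodule.mem_top)

theorem TsPair.eq_zero {U W : Submodule F (ι → F)} (P : TsPair Q U W) {x : ι → F} (hx : x ∈ U)
    (hx' : x ∈ W) : x = 0 := by
  have h : x ∈ U ⊓ W := ⟨hx, hx'⟩
  rwa [P.disj, Submodule.mem_bot] at h

/-- Dual vectors: a vector of `U` outside a subspace `T` pairs to one with a vector of `W`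
orthogonal to `T ∩ U`. -/
theorem TsPair.exists_dual (hQ : (polarBilin Q).Nondegenerate) {U W : Submodule F (ι → F)}
    (P : TsPair Q U W) (T : Submodule F (ι → F)) {v : ι → F} (hv : v ∈ U) (hvT : v ∉ T) :
    ∃ y ∈ W, polar ⇑Q y v = 1 ∧ ∀ x ∈ T, x ∈ U → polar ⇑Q y x = 0 := by
  obtain ⟨y, hy1, hy0⟩ := exists_polar_sep Q hQ T v hvT
  obtain ⟨a, ha, b, hb, hab⟩ := P.dec y
  have e : ∀ x ∈ U, polar ⇑Q b x = polar ⇑Q y x := by
    intro x hx
    rw [← hab, polar_add_left, P.polU ha hx, zero_add]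
  exact ⟨b, hb, by rw [e v hv, hy1], fun x hxT hxU => by rw [e x hxU, hy0 x hxT]⟩

variable (Q)

/-- A subspace of large dimension has a vector orthogonal to a given finite set and outside a
given small subspace. -/
theorem exists_mem_orth_not_mem (hQ : (polarBilin Q).Nondegenerate) (U T : Submodule F (ι → F))
    (S : Finset (ι → F)) (h : finrank F T + S.card < finrank F U) :
    ∃ b ∈ U, (∀ s ∈ S, polar ⇑Q s b = 0) ∧ b ∉ T := by
  have h1 := finrank_orth_span_ge Q hQ S
  have h2 := Submodule.finrank_sup_add_finrank_inf_eq U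
    (LinearMap.BilinForm.orthogonal (polarBilin Q) (Submodule.span F (S : Set (ι → F))))
  have h3 := Submodule.finrank_le (U ⊔
    (LinearMap.BilinForm.orthogonal (polarBilin Q) (Submodule.span F (S : Set (ι → F)))))
  rw [Module.finrank_fintype_fun_eq_card] at h3
  have h4 : ¬ (U ⊓ (LinearMap.BilinForm.orthogonal (polarBilin Q)
      (Submodule.span F (S : Set (ι → F)))) ≤ T) := fun hle => by
    have := Submodule.finrank_mono hle
    omega
  obtain ⟨b, hb, hbT⟩ := SetLike.not_le_iff_exists.mp h4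
  exact ⟨b, hb.1, fun s hs => (mem_orth_span Q _ b).mp hb.2 s hs, hbT⟩

theorem eich_apply (u w x : ι → F) (hu : Q u = 0) (huw : polar ⇑Q u w = 0) :
    mt(eich Q u w hu huw).mulVec x
      = x + polar ⇑Q w x • u - polar ⇑Q u x • w - (Q w * polar ⇑Q u x) • u := by
  rw [coe_eich, eichMat_mulVec]

theorem eich_conj_mem {M : Subgroup ↥(Cfsg.isometryGroup F ⇑Q)}
    {h : ↥(Cfsg.isometryGroup F ⇑Q)} (hh : h ∈ M) {u w u₁ w₁ : ι → F} (hu : Q u = 0)
    (huw : polar ⇑Q u w = 0) (hu₁ : Q u₁ = 0) (hu₁w₁ : polar ⇑Q u₁ w₁ = 0)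
    (e1 : mt(h).mulVec u = u₁) (e2 : mt(h).mulVec w = w₁) (hm : eich Q u w hu huw ∈ M) :
    eich Q u₁ w₁ hu₁ hu₁w₁ ∈ M := by
  subst e1 e2
  have := M.mul_mem (M.mul_mem hh hm) (M.inv_mem hh)
  rwa [conj_eich] at this

theorem eich_mem_of_eq {M : Subgroup ↥(Cfsg.isometryGroup F ⇑Q)} {u w w' : ι → F}
    (hu : Q u = 0) (huw : polar ⇑Q u w = 0) (huw' : polar ⇑Q u w' = 0) (e : w = w')
    (h : eich Q u w hu huw ∈ M) : eich Q u w' hu huw' ∈ M := by
  subst e
  exact h

theorem eich_add_mem {M : Subgroup ↥(Cfsg.isometryGroup F ⇑Q)} {u w w' : ι → F}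
    (hu : Q u = 0) (huw : polar ⇑Q u w = 0) (huw' : polar ⇑Q u w' = 0)
    (huww' : polar ⇑Q u (w + w') = 0)
    (h1 : eich Q u w hu huw ∈ M) (h2 : eich Q u w' hu huw' ∈ M) :
    eich Q u (w + w') hu huww' ∈ M := by
  have := M.mul_mem h1 h2
  rwa [eich_mul] at this

theorem eich_sub_mem {M : Subgroup ↥(Cfsg.isometryGroup F ⇑Q)} {u w w' : ι → F}
    (hu : Q u = 0) (huw : polar ⇑Q u w = 0) (huw' : polar ⇑Q u w' = 0)
    (huww' : polar ⇑Q u (w - w') = 0)
    (h1 : eich Q u w hu huw ∈ M) (h2 : eich Q u w' hu huw' ∈ M) :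
    eich Q u (w - w') hu huww' ∈ M := by
  have := M.mul_mem h1 (M.inv_mem h2)
  rw [eich_inv, eich_mul] at this
  exact eich_mem_of_eq Q hu _ _ (by abel) this

/-- Linear dependence of a pair with non-zero first member. -/
theorem exists_smul_of_not_li {p p' : ι → F} (hp : p ≠ 0)
    (h : ¬ LinearIndependent F ![p, p']) : ∃ c : F, p' = c • p := by
  rw [LinearIndependent.pair_iff] at h
  push Not at h
  obtain ⟨s, t, hst, hne⟩ := h
  by_cases ht : t = 0
  · subst ht
    rw [zero_smul, add_zero] at hst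
    rcases smul_eq_zero.mp hst with hs | hp0
    · exact absurd rfl (hne hs)
    · exact absurd hp0 hp
  · refine ⟨-(t⁻¹ * s), ?_⟩
    have h1 : t • p' = -(s • p) := eq_neg_of_add_eq_zero_right hst
    calc p' = t⁻¹ • (t • p') := by rw [smul_smul, inv_mul_cancel₀ ht, one_smul]
      _ = -(t⁻¹ * s) • p := by rw [h1, smul_neg, smul_smul, neg_smul]


section Core

variable [Fintype F]

/-- Eichler transformations `E(a, a')` with `a ∈ U`, `a' ∈ W` orthogonal preserve `U` and `W`. -/
theorem TsPair.eich_mem (hQ : (polarBilin Q).Nondegenerate) (hn : 5 ≤ Fintype.card ι)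
    {U W : Submodule F (ι → F)} (P : TsPair Q U W)
    (M : Subgroup ↥(Cfsg.isometryGroup F ⇑Q))
    (hH : ∀ h : ↥(Cfsg.isometryGroup F ⇑Q), h ∈ commutator ↥(Cfsg.isometryGroup F ⇑Q) →
      (∀ x ∈ U, mt(h).mulVec x ∈ U) → (∀ x ∈ W, mt(h).mulVec x ∈ W) → h ∈ M)
    {a a' : ι → F} (ha : a ∈ U) (ha' : a' ∈ W) (haa' : polar ⇑Q a a' = 0) :
    eich Q a a' (P.hU a ha) haa' ∈ M := by
  apply hH _ (eich_mem_commutator Q hQ hn a a' _ _)
  · intro x hx
    rw [eich_apply, P.polU ha hx, P.hW a' ha', zero_smul, sub_zero, zero_mul, zero_smul, sub_zero]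
    exact U.add_mem hx (U.smul_mem _ ha)
  · intro x hx
    rw [eich_apply, P.polW ha' hx, P.hW a' ha', zero_smul, add_zero, zero_mul, zero_smul, sub_zero]
    exact W.sub_mem hx (W.smul_mem _ ha')

/-- If `M` contains the stabiliser in `Ω` of `U` and `W` and one Eichler transformation
`E(b, p)` with `b, p ∈ U` independent, then `b` is a full point of `M`. -/
theorem TsPair.isFullPt_of_eich (hQ : (polarBilin Q).Nondegenerate) (hn : 5 ≤ Fintype.card ι)
    {U W : Submodule F (ι → F)} (P : TsPair Q U W) (hk : 3 ≤ finrank F U)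
    (M : Subgroup ↥(Cfsg.isometryGroup F ⇑Q))
    (hH : ∀ h : ↥(Cfsg.isometryGroup F ⇑Q), h ∈ commutator ↥(Cfsg.isometryGroup F ⇑Q) →
      (∀ x ∈ U, mt(h).mulVec x ∈ U) → (∀ x ∈ W, mt(h).mulVec x ∈ W) → h ∈ M)
    {b p : ι → F} (hb : b ∈ U) (hp : p ∈ U)
    (hbp : p ∉ Submodule.span F ({b} : Set (ι → F)))
    (hE : eich Q b p (P.hU b hb) (P.polU hb hp) ∈ M) : IsFullPt Q M b := by
  classical
  refine ⟨P.hU b hb, ?_⟩
  have c1 : ∀ e (he : e ∈ U), e ∉ Submodule.span F ({b, p} : Set (ι → F)) →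
      eich Q b e (P.hU b hb) (P.polU hb he) ∈ M := by
    intro e he hne
    have hpT : p ∉ Submodule.span F ({b, e} : Set (ι → F)) := by
      intro hmem
      obtain ⟨β, ε, hβε⟩ := Submodule.mem_span_pair.mp hmem
      by_cases hε : ε = 0
      · apply hbp
        rw [Submodule.mem_span_singleton]
        exact ⟨β, by rw [← hβε, hε, zero_smul, add_zero]⟩
      · apply hne
        rw [Submodule.mem_span_pair]
        refine ⟨-(ε⁻¹ * β), ε⁻¹, ?_⟩
        rw [← hβε, smul_add, smul_smul, smul_smul, inv_mul_cancel₀ hε, one_smul, neg_smul]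
        abel
    obtain ⟨a', ha'W, ha'p, ha'0⟩ := P.exists_dual hQ _ hp hpT
    have ha'b : polar ⇑Q a' b = 0 := ha'0 b (Submodule.subset_span (by simp)) hb
    have ha'e : polar ⇑Q a' e = 0 := ha'0 e (Submodule.subset_span (by simp)) he
    have hea' : polar ⇑Q e a' = 0 := by rw [polar_comm]; exact ha'e
    have hh := P.eich_mem Q hQ hn M hH he ha'W hea'
    have e1 : mt(eich Q e a' (P.hU e he) hea').mulVec b = b := by
      rw [eich_apply, ha'b, P.polU he hb, zero_smul, add_zero, zero_smul, sub_zero, mul_zero,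
        zero_smul, sub_zero]
    have e2 : mt(eich Q e a' (P.hU e he) hea').mulVec p = p + e := by
      rw [eich_apply, ha'p, P.polU he hp, one_smul, zero_smul, sub_zero, mul_zero,
        zero_smul, sub_zero]
    have h3 := eich_conj_mem Q hh (P.hU b hb) (P.polU hb hp) (P.hU b hb)
      (P.polU hb (U.add_mem hp he)) e1 e2 hE
    have h4 := eich_sub_mem Q (P.hU b hb) (P.polU hb (U.add_mem hp he)) (P.polU hb hp)
      (P.polU hb (U.sub_mem (U.add_mem hp he) hp)) h3 hE
    exact eich_mem_of_eq Q _ _ _ (by abel) h4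
  have c2 : ∀ e (he : e ∈ U), eich Q b e (P.hU b hb) (P.polU hb he) ∈ M := by
    intro e he
    by_cases hmem : e ∈ Submodule.span F ({b, p} : Set (ι → F))
    · obtain ⟨e₀, he₀U, -, he₀⟩ := exists_mem_orth_not_mem Q hQ U
        (Submodule.span F ({b, p} : Set (ι → F))) ∅ (by
          have := finrank_span_pair_le (F := F) b p
          rw [Finset.card_empty]
          omega)
      have h1 := c1 e₀ he₀U he₀
      have h2 := c1 (e - e₀) (U.sub_mem he he₀U) (fun hcon => he₀ (by
        have := Submodule.sub_mem _ hmem hcon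
        rwa [sub_sub_cancel] at this))
      have h3 := eich_add_mem Q (P.hU b hb) _ _
        (P.polU hb (U.add_mem he₀U (U.sub_mem he he₀U))) h1 h2
      exact eich_mem_of_eq Q _ _ _ (by abel) h3
    · exact c1 e he hmem
  intro w hbw
  obtain ⟨wU, hwU, wW, hwW, hsum⟩ := P.dec w
  have hbwW : polar ⇑Q b wW = 0 := by
    have : wW = w - wU := by rw [← hsum]; abel
    rw [this, polar_sub_right, hbw, P.polU hb hwU, sub_zero]
  have h1 := c2 wU hwU
  have h2 := P.eich_mem Q hQ hn M hH hb hwW hbwW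
  have h3 := eich_add_mem Q (P.hU b hb) _ _
    (by rw [polar_add_right, P.polU hb hwU, hbwW, add_zero]) h1 h2
  exact eich_mem_of_eq Q _ _ _ hsum h3


/-- Case A: an element `g ∈ M` mapping an orthogonal pair `a ∈ U`, `a' ∈ W` to vectors whose
`U`-components are independent forces `Ω ≤ M`. -/
theorem TsPair.core (hQ : (polarBilin Q).Nondegenerate) (hn : 5 ≤ Fintype.card ι)
    {U W : Submodule F (ι → F)} (P : TsPair Q U W) (hk : 5 ≤ finrank F U)
    (M : Subgroup ↥(Cfsg.isometryGroup F ⇑Q))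
    (hH : ∀ h : ↥(Cfsg.isometryGroup F ⇑Q), h ∈ commutator ↥(Cfsg.isometryGroup F ⇑Q) →
      (∀ x ∈ U, mt(h).mulVec x ∈ U) → (∀ x ∈ W, mt(h).mulVec x ∈ W) → h ∈ M)
    (j : ↥(Cfsg.isometryGroup F ⇑Q)) (hjM : j ∈ M) (hjU : ∀ x ∈ U, mt(j).mulVec x ∈ W)
    (g : ↥(Cfsg.isometryGroup F ⇑Q)) (hg : g ∈ M) {a a' p q p' q' : ι → F}
    (ha : a ∈ U) (ha' : a' ∈ W) (haa' : polar ⇑Q a a' = 0) (hp : p ∈ U) (hq : q ∈ W)
    (hp' : p' ∈ U) (hq' : q' ∈ W) (hga : mt(g).mulVec a = p + q)
    (hga' : mt(g).mulVec a' = p' + q') (hli : LinearIndependent F ![p, p']) :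
    commutator ↥(Cfsg.isometryGroup F ⇑Q) ≤ M := by
  classical
  rw [LinearIndependent.pair_iff] at hli
  have hc : Q (p + q) = 0 := by rw [← hga, isometry_apply, P.hU a ha]
  have hc' : Q (p' + q') = 0 := by rw [← hga', isometry_apply, P.hW a' ha']
  have hcc' : polar ⇑Q (p + q) (p' + q') = 0 := by rw [← hga, ← hga', isometry_polar, haa']
  have hx : eich Q (p + q) (p' + q') hc hcc' ∈ M :=
    eich_conj_mem Q hg (P.hU a ha) haa' hc hcc' hga hga' (P.eich_mem Q hQ hn M hH ha ha' haa')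
  -- the vector `b`
  obtain ⟨b, hbU, hbS, hbT⟩ := exists_mem_orth_not_mem Q hQ U
    (Submodule.span F ({p, p'} : Set (ι → F))) ({q, q'} : Finset (ι → F)) (by
      have h1 := finrank_span_pair_le (F := F) p p'
      have h2 : ({q, q'} : Finset (ι → F)).card ≤ 2 := Finset.card_le_two
      omega)
  have hqb : polar ⇑Q q b = 0 := hbS q (by simp)
  have hq'b : polar ⇑Q q' b = 0 := hbS q' (by simp)
  have hb0 : b ≠ 0 := by
    rintro rfl
    exact hbT (Submodule.zero_mem _)
  have hpb : p ∉ Submodule.span F ({b} : Set (ι → F)) := by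
    intro hmem
    obtain ⟨β, hβ⟩ := Submodule.mem_span_singleton.mp hmem
    by_cases hβ0 : β = 0
    · have h1 : (1 : F) • p + (0 : F) • p' = 0 := by
        rw [← hβ, hβ0, zero_smul, zero_smul, smul_zero, add_zero]
      exact one_ne_zero (hli 1 0 h1).1
    · apply hbT
      rw [Submodule.mem_span_pair]
      refine ⟨β⁻¹, 0, ?_⟩
      rw [← hβ, smul_smul, inv_mul_cancel₀ hβ0, one_smul, zero_smul, add_zero]
  have hp'T : p' ∉ Submodule.span F ({b, p} : Set (ι → F)) := by
    intro hmem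
    obtain ⟨β, γ, hβγ⟩ := Submodule.mem_span_pair.mp hmem
    by_cases hβ0 : β = 0
    · have h1 : γ • p + (-1 : F) • p' = 0 := by
        rw [← hβγ, hβ0, zero_smul, zero_add, neg_smul, one_smul, add_neg_cancel]
      exact one_ne_zero (neg_eq_zero.mp (hli γ (-1) h1).2)
    · apply hbT
      rw [Submodule.mem_span_pair]
      refine ⟨-(β⁻¹ * γ), β⁻¹, ?_⟩
      rw [← hβγ, smul_add, smul_smul, smul_smul, inv_mul_cancel₀ hβ0, one_smul, neg_smul]
      abel
  obtain ⟨b', hb'W, hb'p', hb'0⟩ := P.exists_dual hQ _ hp' hp'T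
  have hb'b : polar ⇑Q b' b = 0 := hb'0 b (Submodule.subset_span (by simp)) hbU
  have hb'p : polar ⇑Q b' p = 0 := hb'0 p (Submodule.subset_span (by simp)) hp
  have hbb' : polar ⇑Q b b' = 0 := by rw [polar_comm]; exact hb'b
  have hE1 := P.eich_mem Q hQ hn M hH hbU hb'W hbb'
  have e1 : mt(eich Q (p + q) (p' + q') hc hcc').mulVec b = b := by
    rw [eich_apply, polar_add_left, polar_add_left, P.polU hp' hbU, hq'b, P.polU hp hbU, hqb,
      add_zero, zero_smul, add_zero, zero_smul, sub_zero, mul_zero, zero_smul, sub_zero]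
  have e2 : mt(eich Q (p + q) (p' + q') hc hcc').mulVec b' = b' + (p + q) := by
    rw [eich_apply, polar_add_left, polar_add_left, polar_comm ⇑Q p' b', hb'p',
      P.polW hq' hb'W, polar_comm ⇑Q p b', hb'p, P.polW hq hb'W,
      add_zero, one_smul, add_zero, zero_smul, sub_zero, mul_zero, zero_smul, sub_zero]
  have hbq : polar ⇑Q b q = 0 := by rw [polar_comm]; exact hqb
  have hbc : polar ⇑Q b (p + q) = 0 := by rw [polar_add_right, P.polU hbU hp, hbq, add_zero]
  have hE2 := eich_conj_mem Q hx (P.hU b hbU) hbb' (P.hU b hbU)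
    (by rw [polar_add_right, hbb', hbc, add_zero]) e1 e2 hE1
  have hE3 := eich_sub_mem Q (P.hU b hbU) _ hbb'
    (by rw [polar_sub_right, polar_add_right, hbb', hbc, add_zero, sub_zero]) hE2 hE1
  have hE4 : eich Q b (p + q) (P.hU b hbU) hbc ∈ M :=
    eich_mem_of_eq Q _ _ _ (by abel) hE3
  have hE5 := P.eich_mem Q hQ hn M hH hbU hq hbq
  have hE6 := eich_sub_mem Q (P.hU b hbU) hbc hbq
    (by rw [polar_sub_right, hbc, hbq, sub_zero]) hE4 hE5
  have hE7 : eich Q b p (P.hU b hbU) (P.polU hbU hp) ∈ M :=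
    eich_mem_of_eq Q _ _ _ (by abel) hE6
  have hfull : IsFullPt Q M b :=
    P.isFullPt_of_eich Q hQ hn (by omega) M hH hbU hp hpb hE7
  -- the second full point
  have hyW : mt(j).mulVec b ∈ W := hjU b hbU
  have hy0 : mt(j).mulVec b ≠ 0 := mulVec_ne_zero Q j b hb0
  have hyfull : IsFullPt Q M (mt(j).mulVec b) := isFullPt_map Q hfull j hjM
  obtain ⟨z, hz⟩ := exists_polar_ne_zero Q hQ _ hy0
  obtain ⟨e, heU, zW, hzW, hsum⟩ := P.dec z
  have hey : polar ⇑Q e (mt(j).mulVec b) ≠ 0 := by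
    rw [← hsum, polar_add_right, P.polW hyW hzW, add_zero] at hz
    rwa [polar_comm]
  by_cases hby : polar ⇑Q b (mt(j).mulVec b) = 0
  · have hbe : b ∉ Submodule.span F ({e} : Set (ι → F)) := by
      intro hmem
      obtain ⟨β, hβ⟩ := Submodule.mem_span_singleton.mp hmem
      have h1 : polar ⇑Q (β • e) (mt(j).mulVec b) = 0 := by rw [hβ]; exact hby
      rw [polar_smul_left, smul_eq_mul] at h1
      rcases mul_eq_zero.mp h1 with h0 | h0
      · apply hb0
        rw [← hβ, h0, zero_smul]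
      · exact hey h0
    obtain ⟨a'', ha''W, ha''b, ha''0⟩ := P.exists_dual hQ _ hbU hbe
    have ha''e : polar ⇑Q a'' e = 0 := ha''0 e (Submodule.mem_span_singleton_self e) heU
    have hea'' : polar ⇑Q e a'' = 0 := by rw [polar_comm]; exact ha''e
    have hh := P.eich_mem Q hQ hn M hH heU ha''W hea''
    have e3 : mt(eich Q e a'' (P.hU e heU) hea'').mulVec b = b + e := by
      rw [eich_apply, ha''b, P.polU heU hbU, one_smul, zero_smul, sub_zero, mul_zero,
        zero_smul, sub_zero]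
    have hfull' := isFullPt_map Q hfull _ hh
    rw [e3] at hfull'
    refine commutator_le_of_fullPair Q hQ hn hfull' hyfull ?_
    rw [polar_add_left, hby, zero_add]
    exact hey
  · exact commutator_le_of_fullPair Q hQ hn hfull hyfull hby


/-- A vector whose image has both components non-zero: the orthogonal part of a large subspace
cannot be mapped into the span of the two components. -/
theorem TsPair.comp_eq_zero (hQ : (polarBilin Q).Nondegenerate)
    (g : ↥(Cfsg.isometryGroup F ⇑Q)) (X : Submodule F (ι → F)) (hX : 4 ≤ finrank F X)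
    (a : ι → F) {p q : ι → F}
    (h : ∀ a' ∈ X, polar ⇑Q a a' = 0 → ∃ p' q', mt(g).mulVec a' = p' + q' ∧
      ¬ LinearIndependent F ![p, p'] ∧ ¬ LinearIndependent F ![q, q']) : p = 0 ∨ q = 0 := by
  classical
  by_contra hcon
  push Not at hcon
  obtain ⟨hp, hq⟩ := hcon
  obtain ⟨a', ha'X, ha'S, ha'T⟩ := exists_mem_orth_not_mem Q hQ X
    (Submodule.span F ({mt((g⁻¹ : ↥(Cfsg.isometryGroup F ⇑Q))).mulVec p,
      mt((g⁻¹ : ↥(Cfsg.isometryGroup F ⇑Q))).mulVec q} : Set (ι → F)))
    ({a} : Finset (ι → F)) (by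
      have h1 := finrank_span_pair_le (F := F) (mt((g⁻¹ : ↥(Cfsg.isometryGroup F ⇑Q))).mulVec p)
        (mt((g⁻¹ : ↥(Cfsg.isometryGroup F ⇑Q))).mulVec q)
      rw [Finset.card_singleton]
      omega)
  obtain ⟨p', q', hga', h1, h2⟩ := h a' ha'X (ha'S a (by simp))
  obtain ⟨s, hs⟩ := exists_smul_of_not_li hp h1
  obtain ⟨t, ht⟩ := exists_smul_of_not_li hq h2
  apply ha'T
  rw [Submodule.mem_span_pair]
  refine ⟨s, t, ?_⟩
  rw [← Matrix.mulVec_smul, ← Matrix.mulVec_smul, ← Matrix.mulVec_add, ← hs, ← ht, ← hga',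
    coe_inv_mulVec']

/-- If every vector of `X` is mapped into `U` or into `W`, then `X` is mapped into `U` or `X`
is mapped into `W`. -/
theorem forall_or_of_forall_or (g : ↥(Cfsg.isometryGroup F ⇑Q)) (X U W : Submodule F (ι → F))
    (h : ∀ x ∈ X, mt(g).mulVec x ∈ U ∨ mt(g).mulVec x ∈ W) :
    (∀ x ∈ X, mt(g).mulVec x ∈ U) ∨ (∀ x ∈ X, mt(g).mulVec x ∈ W) := by
  by_contra hcon
  push Not at hcon
  obtain ⟨⟨x₁, hx₁, h₁⟩, ⟨x₂, hx₂, h₂⟩⟩ := hcon
  have h₁' : mt(g).mulVec x₁ ∈ W := (h x₁ hx₁).resolve_left h₁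
  have h₂' : mt(g).mulVec x₂ ∈ U := (h x₂ hx₂).resolve_right h₂
  rcases h (x₁ + x₂) (X.add_mem hx₁ hx₂) with h3 | h3
  · rw [Matrix.mulVec_add] at h3
    apply h₁
    have := U.sub_mem h3 h₂'
    rwa [add_sub_cancel_right] at this
  · rw [Matrix.mulVec_add] at h3
    apply h₂
    have := W.sub_mem h3 h₁'
    rwa [add_sub_cancel_left] at this

/-- If neither case A nor case B occurs for any orthogonal pair, then `g` preserves or swaps
`U` and `W`. -/
theorem TsPair.stab_of_not_cases (hQ : (polarBilin Q).Nondegenerate)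
    {U W : Submodule F (ι → F)} (P : TsPair Q U W) (hkU : 4 ≤ finrank F U)
    (hkW : 4 ≤ finrank F W) (g : ↥(Cfsg.isometryGroup F ⇑Q))
    (hA : ∀ a ∈ U, ∀ a' ∈ W, polar ⇑Q a a' = 0 → ∀ p ∈ U, ∀ q ∈ W, ∀ p' ∈ U, ∀ q' ∈ W,
      mt(g).mulVec a = p + q → mt(g).mulVec a' = p' + q' →
        ¬ LinearIndependent F ![p, p'] ∧ ¬ LinearIndependent F ![q, q']) :
    ((∀ x ∈ U, mt(g).mulVec x ∈ U) ∧ (∀ x ∈ W, mt(g).mulVec x ∈ W)) ∨
      ((∀ x ∈ U, mt(g).mulVec x ∈ W) ∧ (∀ x ∈ W, mt(g).mulVec x ∈ U)) := by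
  have hne : ∀ X : Submodule F (ι → F), 4 ≤ finrank F X → ∃ x ∈ X, x ≠ 0 := by
    intro X hX
    by_contra hcon
    push Not at hcon
    have : X = ⊥ := by
      rw [eq_bot_iff]
      intro x hx
      rw [Submodule.mem_bot]
      exact hcon x hx
    rw [this, finrank_bot] at hX
    omega
  have hU : ∀ a ∈ U, mt(g).mulVec a ∈ U ∨ mt(g).mulVec a ∈ W := by
    intro a ha
    obtain ⟨p, hp, q, hq, hpq⟩ := P.dec (mt(g).mulVec a)
    have h1 : p = 0 ∨ q = 0 := by
      apply TsPair.comp_eq_zero Q hQ g W hkW a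
      intro a' ha' haa'
      obtain ⟨p', hp', q', hq', hpq'⟩ := P.dec (mt(g).mulVec a')
      exact ⟨p', q', hpq'.symm, hA a ha a' ha' haa' p hp q hq p' hp' q' hq' hpq.symm hpq'.symm⟩
    rcases h1 with h1 | h1
    · right
      rw [← hpq, h1, zero_add]
      exact hq
    · left
      rw [← hpq, h1, add_zero]
      exact hp
  have hW : ∀ a' ∈ W, mt(g).mulVec a' ∈ U ∨ mt(g).mulVec a' ∈ W := by
    intro a' ha'
    obtain ⟨p', hp', q', hq', hpq'⟩ := P.dec (mt(g).mulVec a')
    have h1 : p' = 0 ∨ q' = 0 := by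
      apply TsPair.comp_eq_zero Q hQ g U hkU a'
      intro a ha ha'a
      obtain ⟨p, hp, q, hq, hpq⟩ := P.dec (mt(g).mulVec a)
      have haa' : polar ⇑Q a a' = 0 := by rw [polar_comm]; exact ha'a
      have h2 := hA a ha a' ha' haa' p hp q hq p' hp' q' hq' hpq.symm hpq'.symm
      exact ⟨p, q, hpq.symm, fun hli => h2.1 (LinearIndependent.pair_symm_iff.mp hli),
        fun hli => h2.2 (LinearIndependent.pair_symm_iff.mp hli)⟩
    rcases h1 with h1 | h1
    · right
      rw [← hpq', h1, zero_add]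
      exact hq'
    · left
      rw [← hpq', h1, add_zero]
      exact hp'
  have hall : ∀ (T T' : Submodule F (ι → F)), (∀ x, x ∈ T → x ∈ T' → x = 0) →
      (∃ x ∈ T', x ≠ 0) →
      (∀ x ∈ U, mt(g).mulVec x ∈ T) → (∀ x ∈ W, mt(g).mulVec x ∈ T) → False := by
    intro T T' hTT' ⟨w, hw, hw0⟩ h1 h2
    obtain ⟨u', hu', w', hw', hsum⟩ := P.dec (mt((g⁻¹ : ↥(Cfsg.isometryGroup F ⇑Q))).mulVec w)
    have h3 : w ∈ T := by
      have h4 := T.add_mem (h1 u' hu') (h2 w' hw')
      rwa [← Matrix.mulVec_add, hsum, coe_inv_mulVec] at h4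
    exact hw0 (hTT' w h3 hw)
  rcases forall_or_of_forall_or Q g U U W hU with h1 | h1
  · rcases forall_or_of_forall_or Q g W U W hW with h2 | h2
    · exact absurd (hall U W (fun x hx hx' => P.eq_zero hx hx') (hne W hkW) h1 h2) id
    · exact Or.inl ⟨h1, h2⟩
  · rcases forall_or_of_forall_or Q g W U W hW with h2 | h2
    · exact Or.inr ⟨h1, h2⟩
    · exact absurd (hall W U (fun x hx hx' => P.eq_zero hx' hx) (hne U hkU) h1 h2) id

/-- Maximality, core form: a subgroup `M` containing the stabiliser in `Ω` of `U` and `W`, a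
swap of `U` and `W`, and an element that neither preserves nor swaps them, contains `Ω`. -/
theorem TsPair.maximal_core (hQ : (polarBilin Q).Nondegenerate) (hn : 5 ≤ Fintype.card ι)
    {U W : Submodule F (ι → F)} (P : TsPair Q U W) (hkU : 5 ≤ finrank F U)
    (hkW : 5 ≤ finrank F W) (M : Subgroup ↥(Cfsg.isometryGroup F ⇑Q))
    (hH : ∀ h : ↥(Cfsg.isometryGroup F ⇑Q), h ∈ commutator ↥(Cfsg.isometryGroup F ⇑Q) →
      (∀ x ∈ U, mt(h).mulVec x ∈ U) → (∀ x ∈ W, mt(h).mulVec x ∈ W) → h ∈ M)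
    (j : ↥(Cfsg.isometryGroup F ⇑Q)) (hjM : j ∈ M) (hjU : ∀ x ∈ U, mt(j).mulVec x ∈ W)
    (hjW : ∀ x ∈ W, mt(j).mulVec x ∈ U)
    (g : ↥(Cfsg.isometryGroup F ⇑Q)) (hg : g ∈ M)
    (hg1 : ¬ ((∀ x ∈ U, mt(g).mulVec x ∈ U) ∧ (∀ x ∈ W, mt(g).mulVec x ∈ W)))
    (hg2 : ¬ ((∀ x ∈ U, mt(g).mulVec x ∈ W) ∧ (∀ x ∈ W, mt(g).mulVec x ∈ U))) :
    commutator ↥(Cfsg.isometryGroup F ⇑Q) ≤ M := by
  by_contra hcon
  have h := P.stab_of_not_cases Q hQ (by omega) (by omega) g (by
    intro a ha a' ha' haa' p hp q hq p' hp' q' hq' hga hga'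
    constructor
    · intro hli
      exact hcon (P.core Q hQ hn hkU M hH j hjM hjU g hg ha ha' haa' hp hq hp' hq' hga hga' hli)
    · intro hli
      have haa'' : polar ⇑Q a' a = 0 := by rw [polar_comm]; exact haa'
      exact hcon (P.symm.core Q hQ hn hkW M (fun h hc hW hU => hH h hc hU hW) j hjM hjW g hg
        ha' ha haa'' hq' hp' hq hp (by rw [hga', add_comm]) (by rw [hga, add_comm])
        (LinearIndependent.pair_symm_iff.mp hli)))
  rcases h with h | h
  · exact hg1 h
  · exact hg2 h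


/-- An even product of reflections in vectors of the same norm lies in `Ω`. -/
theorem reflList_mem_commutator_of_const (hQ : (polarBilin Q).Nondegenerate)
    (h : Fintype.card F ≠ 2 ∨ Fintype.card ι ≠ 4) (c : F) :
    ∀ (m : ℕ) (vs : List (ι → F)) (hvs : ∀ v ∈ vs, Q v ≠ 0), (∀ v ∈ vs, Q v = c) →
      vs.length = 2 * m → reflList Q vs hvs ∈ commutator ↥(Cfsg.isometryGroup F ⇑Q) := by
  intro m
  induction m with
  | zero =>
    intro vs hvs _ hlen
    have : vs = [] := List.eq_nil_of_length_eq_zero (by omega)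
    subst this
    rw [reflList_nil]
    exact Subgroup.one_mem _
  | succ m ih =>
    intro vs hvs hc hlen
    match vs, hvs, hc, hlen with
    | [], _, _, hlen => simp at hlen
    | [_], _, _, hlen => simp at hlen; omega
    | u :: v :: ws, hvs, hc, hlen =>
      rw [reflList_cons, reflList_cons, ← mul_assoc]
      refine Subgroup.mul_mem _
        (Cfsg.Agent.Lib.Helper7.refl_mul_refl_mem_commutator Q hQ h u v _ _ ?_) (ih ws _ ?_ ?_)
      · rw [hc u (by simp), hc v (by simp)]
      · intro x hx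
        exact hc x (by simp [hx])
      · simp only [List.length_cons] at hlen
        omega

/-- The product of the reflections in `u i - w i` for dual families `u`, `w` of singular
vectors swaps `u i` and `w i`. -/
theorem swap_list {κ : Type} [DecidableEq κ] (u w : κ → ι → F)
    (hu : ∀ i, Q (u i) = 0) (hw : ∀ i, Q (w i) = 0)
    (huu : ∀ i l, polar ⇑Q (u i) (u l) = 0) (hww : ∀ i l, polar ⇑Q (w i) (w l) = 0)
    (hwu : ∀ i l, polar ⇑Q (w i) (u l) = if i = l then 1 else 0) :
    ∀ l : List κ, l.Nodup → ∀ i,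
      ((l.map (fun a => Cfsg.reflectionMatrix ⇑Q (u a - w a))).prod.mulVec (u i)
          = if i ∈ l then w i else u i) ∧
      ((l.map (fun a => Cfsg.reflectionMatrix ⇑Q (u a - w a))).prod.mulVec (w i)
          = if i ∈ l then u i else w i) := by
  have hQv : ∀ a, Q (u a - w a) = -1 := by
    intro a
    have h1 := Q_sub_smul' Q (u a) (w a) 1
    rw [one_smul] at h1
    rw [h1, hu, hw, hwu, if_pos rfl]
    ring
  have r1 : ∀ a i, (Cfsg.reflectionMatrix ⇑Q (u a - w a)).mulVec (u i)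
      = if i = a then w i else u i := by
    intro a i
    rw [reflectionMatrix_mulVec, hQv, polar_sub_left, huu, hwu]
    by_cases hia : i = a
    · subst hia
      rw [if_pos rfl, if_pos rfl]
      have : ((-1 : F)⁻¹ * (0 - 1)) = 1 := by
        rw [inv_neg, inv_one]; ring
      rw [this, one_smul]
      abel
    · rw [if_neg (fun h => hia h.symm), if_neg hia, sub_zero, mul_zero, zero_smul, sub_zero]
  have r2 : ∀ a i, (Cfsg.reflectionMatrix ⇑Q (u a - w a)).mulVec (w i)
      = if i = a then u i else w i := by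
    intro a i
    rw [reflectionMatrix_mulVec, hQv, polar_sub_left, hww, polar_comm ⇑Q (u a) (w i), hwu]
    by_cases hia : i = a
    · subst hia
      rw [if_pos rfl, if_pos rfl]
      have : ((-1 : F)⁻¹ * (1 - 0)) = -1 := by
        rw [inv_neg, inv_one]; ring
      rw [this, neg_smul, one_smul]
      abel
    · rw [if_neg hia, if_neg hia, sub_zero, mul_zero, zero_smul, sub_zero]
  intro l
  induction l with
  | nil =>
    intro _ i
    simp
  | cons a l ih =>
    intro hnd i
    rw [List.nodup_cons] at hnd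
    obtain ⟨ha, hl⟩ := hnd
    obtain ⟨ih1, ih2⟩ := ih hl i
    rw [List.map_cons, List.prod_cons, ← Matrix.mulVec_mulVec, ← Matrix.mulVec_mulVec, ih1, ih2]
    by_cases hia : i = a
    · subst hia
      rw [if_neg ha, if_neg ha, r1, r2, if_pos rfl, if_pos rfl, if_pos List.mem_cons_self,
        if_pos List.mem_cons_self]
      exact ⟨rfl, rfl⟩
    · by_cases hil : i ∈ l
      · rw [if_pos hil, if_pos hil, r1, r2, if_neg hia, if_neg hia,
          if_pos (List.mem_cons_of_mem _ hil), if_pos (List.mem_cons_of_mem _ hil)]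
        exact ⟨rfl, rfl⟩
      · have hil' : i ∉ a :: l := by
          rw [List.mem_cons]
          rintro (h | h)
          · exact hia h
          · exact hil h
        rw [if_neg hil, if_neg hil, r1, r2, if_neg hia, if_neg hia, if_neg hil', if_neg hil']
        exact ⟨rfl, rfl⟩


/-- For a pair of complementary totally singular subspaces of even dimension there is an
element of `Ω` swapping them. -/
theorem TsPair.exists_swap (hQ : (polarBilin Q).Nondegenerate)
    (h : Fintype.card F ≠ 2 ∨ Fintype.card ι ≠ 4) {U W : Submodule F (ι → F)}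
    (P : TsPair Q U W) (hdim : finrank F W = finrank F U) (hev : Even (finrank F U)) :
    ∃ j ∈ commutator ↥(Cfsg.isometryGroup F ⇑Q),
      (∀ x ∈ U, mt(j).mulVec x ∈ W) ∧ (∀ x ∈ W, mt(j).mulVec x ∈ U) := by
  classical
  obtain ⟨k, hk⟩ : ∃ k, finrank F U = k := ⟨_, rfl⟩
  obtain ⟨b⟩ : Nonempty (Basis (Fin k) F U) := ⟨Module.finBasisOfFinrankEq F U hk⟩
  obtain ⟨u, hu_def⟩ : ∃ u : Fin k → ι → F, u = fun i => (b i : ι → F) := ⟨_, rfl⟩
  have huU : ∀ i, u i ∈ U := fun i => by rw [hu_def]; exact (b i).2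
  have hli : LinearIndependent F u := by
    rw [hu_def]
    exact b.linearIndependent.map' U.subtype (Submodule.ker_subtype U)
  have hspanU : Submodule.span F (Set.range u) = U := by
    have h1 := b.span_eq
    have h2 := congrArg (Submodule.map U.subtype) h1
    rw [Submodule.map_span, Submodule.map_subtype_top, ← Set.range_comp] at h2
    rw [hu_def]
    exact h2
  have hex : ∀ i, ∃ y ∈ W, polar ⇑Q y (u i) = 1 ∧
      ∀ x ∈ Submodule.span F (u '' {l | l ≠ i}), x ∈ U → polar ⇑Q y x = 0 := by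
    intro i
    exact P.exists_dual hQ _ (huU i) (hli.notMem_span_image (by simp))
  choose w hwW hw1 hw0 using hex
  have hwu : ∀ i l, polar ⇑Q (w i) (u l) = if i = l then 1 else 0 := by
    intro i l
    by_cases hil : i = l
    · subst hil
      rw [if_pos rfl, hw1]
    · rw [if_neg hil]
      exact hw0 i (u l) (Submodule.subset_span ⟨l, fun h => hil h.symm, rfl⟩) (huU l)
  have hsw := swap_list Q u w (fun i => P.hU _ (huU i)) (fun i => P.hW _ (hwW i))
    (fun i l => P.polU (huU i) (huU l)) (fun i l => P.polW (hwW i) (hwW l)) hwu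
    (List.finRange k) (List.nodup_finRange k)
  have hQv : ∀ a, Q (u a - w a) = -1 := by
    intro a
    have h1 := Q_sub_smul' Q (u a) (w a) 1
    rw [one_smul] at h1
    rw [h1, P.hU _ (huU a), P.hW _ (hwW a), hwu, if_pos rfl]
    ring
  have hne : ∀ x ∈ (List.finRange k).map (fun a => u a - w a), Q x ≠ 0 := by
    intro x hx
    obtain ⟨a, -, rfl⟩ := List.mem_map.mp hx
    rw [hQv]
    exact neg_ne_zero.mpr one_ne_zero
  obtain ⟨j, hj⟩ : ∃ j, j = reflList Q ((List.finRange k).map (fun a => u a - w a)) hne :=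
    ⟨_, rfl⟩
  have hjmat : mt(j)
      = ((List.finRange k).map (fun a => Cfsg.reflectionMatrix ⇑Q (u a - w a))).prod := by
    rw [hj, coe_reflList, List.map_map]
    rfl
  have hju : ∀ i, mt(j).mulVec (u i) = w i := by
    intro i
    rw [hjmat, (hsw i).1, if_pos (List.mem_finRange i)]
  have hjw : ∀ i, mt(j).mulVec (w i) = u i := by
    intro i
    rw [hjmat, (hsw i).2, if_pos (List.mem_finRange i)]
  have hliw : LinearIndependent F w := by
    rw [linearIndependent_iff']
    intro s g hsum l hl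
    have h1 : polarBilin Q (∑ i ∈ s, g i • w i) (u l) = 0 := by
      rw [hsum, polarBilin_apply_apply, polar_zero_left]
    rw [map_sum, LinearMap.sum_apply] at h1
    simp only [map_smul, LinearMap.smul_apply, polarBilin_apply_apply, hwu, smul_eq_mul,
      mul_ite, mul_one, mul_zero, Finset.sum_ite_eq', hl, if_true] at h1
    exact h1
  have hspanW : Submodule.span F (Set.range w) = W := by
    apply Submodule.eq_of_le_of_finrank_eq
    · rw [Submodule.span_le]
      rintro _ ⟨i, rfl⟩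
      exact hwW i
    · rw [finrank_span_eq_card hliw, Fintype.card_fin, hdim, hk]
  refine ⟨j, ?_, ?_, ?_⟩
  · obtain ⟨m, hm⟩ := hev
    rw [hj]
    exact reflList_mem_commutator_of_const Q hQ h (-1) m _ hne (by
      intro v hv
      obtain ⟨a, -, rfl⟩ := List.mem_map.mp hv
      exact hQv a) (by rw [List.length_map, List.length_finRange, ← hk, hm]; ring)
  · intro x hx
    rw [← hspanU] at hx
    induction hx using Submodule.span_induction with
    | mem x hx =>
      obtain ⟨i, rfl⟩ := hx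
      rw [hju]
      exact hwW i
    | zero =>
      rw [Matrix.mulVec_zero]
      exact W.zero_mem
    | add x y _ _ hx hy =>
      rw [Matrix.mulVec_add]
      exact W.add_mem hx hy
    | smul c x _ hx =>
      rw [Matrix.mulVec_smul]
      exact W.smul_mem c hx
  · intro x hx
    rw [← hspanW] at hx
    induction hx using Submodule.span_induction with
    | mem x hx =>
      obtain ⟨i, rfl⟩ := hx
      rw [hjw]
      exact huU i
    | zero =>
      rw [Matrix.mulVec_zero]
      exact U.zero_mem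
    | add x y _ _ hx hy =>
      rw [Matrix.mulVec_add]
      exact U.add_mem hx hy
    | smul c x _ hx =>
      rw [Matrix.mulVec_smul]
      exact U.smul_mem c hx


/-- An element of `Ω` moving a vector of `W` out of both `U` and `W`. -/
theorem TsPair.exists_moving (hQ : (polarBilin Q).Nondegenerate) (hn : 5 ≤ Fintype.card ι)
    {U W : Submodule F (ι → F)} (P : TsPair Q U W) (hk : 2 ≤ finrank F U) :
    ∃ g ∈ commutator ↥(Cfsg.isometryGroup F ⇑Q), ∃ x ∈ W,
      mt(g).mulVec x ∉ W ∧ mt(g).mulVec x ∉ U := by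
  classical
  obtain ⟨w, hwU, -, hw0'⟩ := exists_mem_orth_not_mem Q hQ U ⊥ ∅ (by
    rw [finrank_bot, Finset.card_empty]
    omega)
  have hw0 : w ≠ 0 := fun h => hw0' (by rw [h]; exact Submodule.zero_mem _)
  obtain ⟨u, huU, -, huw⟩ := exists_mem_orth_not_mem Q hQ U
    (Submodule.span F ({w} : Set (ι → F))) ∅ (by
      rw [finrank_span_singleton hw0, Finset.card_empty]
      omega)
  obtain ⟨x, hxW, hxu, hx0⟩ := P.exists_dual hQ _ huU huw
  have hxw : polar ⇑Q x w = 0 := hx0 w (Submodule.mem_span_singleton_self w) hwU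
  have e : mt(eich Q u w (P.hU u huU) (P.polU huU hwU)).mulVec x = x - w := by
    rw [eich_apply, polar_comm ⇑Q w x, hxw, polar_comm ⇑Q u x, hxu, P.hU w hwU, zero_smul,
      add_zero, one_smul, zero_mul, zero_smul, sub_zero]
  refine ⟨eich Q u w (P.hU u huU) (P.polU huU hwU), eich_mem_commutator Q hQ hn u w _ _,
    x, hxW, ?_, ?_⟩
  · rw [e]
    intro hmem
    have h1 : w ∈ W := by
      have := W.sub_mem hxW hmem
      rwa [sub_sub_cancel] at this
    exact hw0 (P.eq_zero hwU h1)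
  · rw [e]
    intro hmem
    have h1 : x ∈ U := by
      have := U.add_mem hmem hwU
      rwa [sub_add_cancel] at this
    rw [P.eq_zero h1 hxW, polar_zero_left] at hxu
    exact zero_ne_one hxu

end Core

end OrthPair

end Cfsg.Agent.Lib.Helper44
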