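import Mathlib
import Cfsg.Agent.Lib.Helper44.OrthPair

/-!
Rational structures of quadratic spaces (helper44), part 1: existence lemmas for singular vectors
over a finite field, and the base change toolkit for a subfield `F₀ ≤ F` (coordinatewise
functionals, coefficient lemmas, the restricted quadratic form).
-/

set_option autoImplicit false
set_option linter.unusedSectionVars false
set_option linter.unusedVariables false

namespace Cfsg.Agent.Lib.Helper44.OS

open Module QuadraticMap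
open Cfsg.Agent.Lib.Helper51 Cfsg.Agent.Lib.Helper52 Cfsg.Agent.Lib.Helper44

section KSide

variable {ι : Type} [Fintype ι] [DecidableEq ι] {K : Type*} [Field K]
variable (Q : QuadraticForm K (ι → K))

/-- A hyperbolic pair orthogonal to a given small finite set of vectors. -/
theorem exists_hyp_pair [Fintype K] (hQ : (polarBilin Q).Nondegenerate) (S : Finset (ι → K))
    (hS : 2 * S.card + 3 ≤ Fintype.card ι) :
    ∃ a b : ι → K, Q a = 0 ∧ Q b = 0 ∧ polar ⇑Q a b = 1 ∧ (∀ s ∈ S, polar ⇑Q s a = 0) ∧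
      (∀ s ∈ S, polar ⇑Q s b = 0) := by
  classical
  obtain ⟨T, hT⟩ : ∃ T : Submodule K (ι → K), T = Submodule.span K (S : Set (ι → K)) := ⟨_, rfl⟩
  obtain ⟨O, hO⟩ : ∃ O : Submodule K (ι → K),
      O = LinearMap.BilinForm.orthogonal (polarBilin Q) T := ⟨_, rfl⟩
  obtain ⟨q, hq⟩ := Submodule.exists_isCompl T
  have h1 := finrank_orth_span_ge Q hQ S
  rw [← hT, ← hO] at h1
  have h2 : finrank K T ≤ S.card := by rw [hT]; exact finrank_span_finset_le_card S
  have h3 : finrank K T + finrank K q = Fintype.card ι := by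
    have := Submodule.finrank_add_eq_of_isCompl hq
    rwa [Module.finrank_fintype_fun_eq_card] at this
  have h4 := Submodule.finrank_sup_add_finrank_inf_eq O q
  have h5 := Submodule.finrank_le (O ⊔ q)
  rw [Module.finrank_fintype_fun_eq_card] at h5
  have h6 : 3 ≤ finrank K ↥(O ⊓ q) := by omega
  obtain ⟨a, haC, ha0, hQa⟩ := exists_singular_of_finrank Q (O ⊓ q) h6
  have haT : a ∉ T := by
    intro h
    have h7 : a ∈ T ⊓ q := ⟨h, haC.2⟩
    rw [hq.inf_eq_bot, Submodule.mem_bot] at h7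
    exact ha0 h7
  have haS : ∀ s ∈ S, polar ⇑Q s a = 0 := by
    have h7 := haC.1
    rw [hO, hT] at h7
    exact (mem_orth_span Q _ a).mp h7
  obtain ⟨y, hy1, hy0⟩ := exists_polar_sep Q hQ T a haT
  refine ⟨a, y - Q y • a, hQa, ?_, ?_, haS, ?_⟩
  · rw [sub_eq_add_neg, ← neg_smul, Q_add_smul, hQa, hy1]
    ring
  · rw [polar_sub_right, polar_smul_right, Cfsg.Agent.Lib.Helper51.polar_self, hQa,
      polar_comm, hy1, smul_eq_mul]
    ring
  · intro s hs
    rw [polar_sub_right, polar_smul_right, haS s hs, polar_comm,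
      hy0 s (by rw [hT]; exact Submodule.subset_span hs), smul_eq_mul]
    ring

/-- If a subspace contains a singular vector `e` and a vector not orthogonal to it, then it is
additively generated by its (non-radical) singular vectors. -/
theorem mem_closure_singular (U : Submodule K (ι → K)) (e x : ι → K)
    (he : e ∈ U) (hQe : Q e = 0) (hx : x ∈ U) (hex : polar ⇑Q e x ≠ 0) :
    ∀ y ∈ U, y ∈ AddSubgroup.closure
      {s : ι → K | s ∈ U ∧ Q s = 0 ∧ ∃ x' ∈ U, polar ⇑Q s x' ≠ 0} := by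
  obtain ⟨C, hC⟩ : ∃ C : AddSubgroup (ι → K), C = AddSubgroup.closure
      {s : ι → K | s ∈ U ∧ Q s = 0 ∧ ∃ x' ∈ U, polar ⇑Q s x' ≠ 0} := ⟨_, rfl⟩
  rw [← hC]
  have hsub : ∀ s, s ∈ U → Q s = 0 → (∃ x' ∈ U, polar ⇑Q s x' ≠ 0) → s ∈ C := by
    intro s h1 h2 h3
    rw [hC]
    exact AddSubgroup.subset_closure ⟨h1, h2, h3⟩
  have hee : polar ⇑Q e e = 0 := by rw [Cfsg.Agent.Lib.Helper51.polar_self, hQe, mul_zero]
  have key : ∀ y ∈ U, polar ⇑Q y e ≠ 0 → y ∈ C := by
    intro y hy hye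
    obtain ⟨t, ht⟩ : ∃ t : K, t = Q y / polar ⇑Q y e := ⟨_, rfl⟩
    have hs : Q (y - t • e) = 0 := by
      rw [sub_eq_add_neg, ← neg_smul, Q_add_smul, hQe, ht]
      field_simp
      ring
    have h1 : y - t • e ∈ C := by
      apply hsub _ (U.sub_mem hy (U.smul_mem _ he)) hs
      refine ⟨e, he, ?_⟩
      rw [polar_sub_left, polar_smul_left, hee, smul_zero, sub_zero]
      exact hye
    have h2 : t • e ∈ C := by
      by_cases ht0 : t = 0
      · rw [ht0, zero_smul]
        exact C.zero_mem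
      · apply hsub _ (U.smul_mem _ he) (by rw [QuadraticMap.map_smul, hQe, smul_zero])
        refine ⟨x, hx, ?_⟩
        rw [polar_smul_left, smul_eq_mul]
        exact mul_ne_zero ht0 hex
    have h3 : y = (y - t • e) + t • e := by abel
    rw [h3]
    exact C.add_mem h1 h2
  intro y hy
  by_cases hye : polar ⇑Q y e = 0
  · have hxe : polar ⇑Q x e ≠ 0 := by rw [polar_comm]; exact hex
    have h1 := key x hx hxe
    have h2 := key (y + x) (U.add_mem hy hx) (by rw [polar_add_left, hye, zero_add]; exact hxe)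
    have h3 : y = (y + x) - x := by abel
    rw [h3]
    exact C.sub_mem h2 h1
  · exact key y hy hye

/-- If a subspace contains a singular vector `e` and a vector not orthogonal to it, then an
additive map vanishing on its (non-radical) singular vectors vanishes on the subspace. -/
theorem eq_zero_of_singular {A : Type*} [AddGroup A] (U : Submodule K (ι → K)) (e x : ι → K)
    (he : e ∈ U) (hQe : Q e = 0) (hx : x ∈ U) (hex : polar ⇑Q e x ≠ 0) (f : (ι → K) →+ A)
    (hf : ∀ s ∈ U, Q s = 0 → (∃ x' ∈ U, polar ⇑Q s x' ≠ 0) → f s = 0) : ∀ y ∈ U, f y = 0 := by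
  intro y hy
  have h := mem_closure_singular Q U e x he hQe hx hex y hy
  have hle : AddSubgroup.closure
      {s : ι → K | s ∈ U ∧ Q s = 0 ∧ ∃ x' ∈ U, polar ⇑Q s x' ≠ 0} ≤ f.ker :=
    (AddSubgroup.closure_le _).mpr (fun s hs => hf s hs.1 hs.2.1 hs.2.2)
  exact hle h

theorem polar_sum_left {κ : Type*} (s : Finset κ) (f : κ → ι → K) (y : ι → K) :
    polar ⇑Q (∑ k ∈ s, f k) y = ∑ k ∈ s, polar ⇑Q (f k) y := by
  have := map_sum ((polarBilin Q).flip y) f s
  simpa only [LinearMap.flip_apply, polarBilin_apply_apply] using this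

/-- A singular vector orthogonal to a small finite set and not orthogonal to a vector outside
its span. -/
theorem exists_singular_perp [Fintype K] (hQ : (polarBilin Q).Nondegenerate)
    (S : Finset (ι → K)) (hS : 2 * S.card + 3 ≤ Fintype.card ι) (v : ι → K)
    (hv : v ∉ Submodule.span K (S : Set (ι → K))) :
    ∃ b, Q b = 0 ∧ (∀ s ∈ S, polar ⇑Q s b = 0) ∧ polar ⇑Q v b ≠ 0 := by
  classical
  by_contra hcon
  push Not at hcon
  obtain ⟨e, x, hQe, hQx, hex, heS, hxS⟩ := exists_hyp_pair Q hQ S hS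
  obtain ⟨y, hy1, hy0⟩ := exists_polar_sep Q hQ _ v hv
  obtain ⟨U, hU⟩ : ∃ U : Submodule K (ι → K), U = LinearMap.BilinForm.orthogonal (polarBilin Q)
      (Submodule.span K (S : Set (ι → K))) := ⟨_, rfl⟩
  have hmem : ∀ z, z ∈ U ↔ ∀ s ∈ S, polar ⇑Q s z = 0 := by
    intro z
    rw [hU]
    exact mem_orth_span Q _ z
  have hyU : y ∈ U := by
    rw [hmem]
    intro s hs
    rw [polar_comm]
    exact hy0 s (Submodule.subset_span hs)
  have h := eq_zero_of_singular Q U e x ((hmem e).2 heS) hQe ((hmem x).2 hxS)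
    (by rw [hex]; exact one_ne_zero) (polarBilin Q v).toAddMonoidHom
    (fun s hsU hQs _ => hcon s hQs ((hmem s).1 hsU)) y hyU
  have h' : polar ⇑Q v y = 0 := h
  rw [polar_comm, hy1] at h'
  exact one_ne_zero h'

/-- The subspace `Ks` has an orthogonal projection: every vector has the same pairing with
`Ks` as some vector of `Ks`. -/
def HasProj (Ks : Submodule K (ι → K)) : Prop :=
  ∀ y : ι → K, ∃ y' ∈ Ks, ∀ x ∈ Ks, polar ⇑Q y' x = polar ⇑Q y x

theorem HasProj.nondeg (hQ : (polarBilin Q).Nondegenerate) {Ks : Submodule K (ι → K)}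
    (hP : HasProj Q Ks) {x : ι → K} (hx : x ∈ Ks) (hx0 : x ≠ 0) :
    ∃ y ∈ Ks, polar ⇑Q x y ≠ 0 := by
  obtain ⟨y, hy⟩ := exists_polar_ne_zero Q hQ x hx0
  obtain ⟨y', hy'K, hy'⟩ := hP y
  exact ⟨y', hy'K, by rw [polar_comm, hy' x hx, polar_comm]; exact hy⟩

theorem finrank_inf_orth_ge (hQ : (polarBilin Q).Nondegenerate) (Ks : Submodule K (ι → K))
    (S : Finset (ι → K)) :
    finrank K Ks ≤ finrank K ↥(Ks ⊓ LinearMap.BilinForm.orthogonal (polarBilin Q)
      (Submodule.span K (S : Set (ι → K)))) + S.card := by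
  have h1 := finrank_orth_span_ge Q hQ S
  have h2 := Submodule.finrank_sup_add_finrank_inf_eq Ks
    (LinearMap.BilinForm.orthogonal (polarBilin Q) (Submodule.span K (S : Set (ι → K))))
  have h3 := Submodule.finrank_le (Ks ⊔
    LinearMap.BilinForm.orthogonal (polarBilin Q) (Submodule.span K (S : Set (ι → K))))
  rw [Module.finrank_fintype_fun_eq_card] at h3
  omega

/-- A non-zero singular vector of a subspace orthogonal to a small finite set. -/
theorem exists_singular_in_perp [Fintype K] (hQ : (polarBilin Q).Nondegenerate)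
    (Ks : Submodule K (ι → K)) (S : Finset (ι → K)) (h : S.card + 3 ≤ finrank K Ks) :
    ∃ x ∈ Ks, x ≠ 0 ∧ Q x = 0 ∧ ∀ s ∈ S, polar ⇑Q s x = 0 := by
  have h1 := finrank_inf_orth_ge Q hQ Ks S
  obtain ⟨x, hx, hx0, hQx⟩ := exists_singular_of_finrank Q (Ks ⊓
    LinearMap.BilinForm.orthogonal (polarBilin Q) (Submodule.span K (S : Set (ι → K))))
    (by omega)
  exact ⟨x, hx.1, hx0, hQx, (mem_orth_span Q _ x).mp hx.2⟩

/-- A hyperbolic pair inside a subspace with an orthogonal projection, orthogonal to a small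
finite subset of the subspace. -/
theorem exists_hyp_pair_in [Fintype K] (hQ : (polarBilin Q).Nondegenerate)
    {Ks : Submodule K (ι → K)} (hP : HasProj Q Ks) (S : Finset (ι → K))
    (hSK : ∀ s ∈ S, s ∈ Ks) (hS : 2 * S.card + 3 ≤ finrank K Ks) :
    ∃ a b : ι → K, a ∈ Ks ∧ b ∈ Ks ∧ Q a = 0 ∧ Q b = 0 ∧ polar ⇑Q a b = 1 ∧
      (∀ s ∈ S, polar ⇑Q s a = 0) ∧ (∀ s ∈ S, polar ⇑Q s b = 0) := by
  classical
  obtain ⟨T, hT⟩ : ∃ T : Submodule K (ι → K), T = Submodule.span K (S : Set (ι → K)) := ⟨_, rfl⟩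
  obtain ⟨O, hO⟩ : ∃ O : Submodule K (ι → K),
      O = Ks ⊓ LinearMap.BilinForm.orthogonal (polarBilin Q) T := ⟨_, rfl⟩
  obtain ⟨q, hq⟩ := Submodule.exists_isCompl T
  have h1 := finrank_inf_orth_ge Q hQ Ks S
  rw [← hT, ← hO] at h1
  have h2 : finrank K T ≤ S.card := by rw [hT]; exact finrank_span_finset_le_card S
  have h3 : finrank K T + finrank K q = Fintype.card ι := by
    have := Submodule.finrank_add_eq_of_isCompl hq
    rwa [Module.finrank_fintype_fun_eq_card] at this
  have h4 := Submodule.finrank_sup_add_finrank_inf_eq O q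
  have h5 := Submodule.finrank_le (O ⊔ q)
  rw [Module.finrank_fintype_fun_eq_card] at h5
  have h6 : 3 ≤ finrank K ↥(O ⊓ q) := by omega
  obtain ⟨a, haC, ha0, hQa⟩ := exists_singular_of_finrank Q (O ⊓ q) h6
  have haK : a ∈ Ks := by
    have h7 := haC.1
    rw [hO] at h7
    exact h7.1
  have haT : a ∉ T := by
    intro h
    have h7 : a ∈ T ⊓ q := ⟨h, haC.2⟩
    rw [hq.inf_eq_bot, Submodule.mem_bot] at h7
    exact ha0 h7
  have haS : ∀ s ∈ S, polar ⇑Q s a = 0 := by
    have h7 := haC.1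
    rw [hO, hT] at h7
    exact (mem_orth_span Q _ a).mp h7.2
  obtain ⟨y, hy1, hy0⟩ := exists_polar_sep Q hQ T a haT
  obtain ⟨y', hy'K, hy'⟩ := hP y
  have hy'1 : polar ⇑Q y' a = 1 := by rw [hy' a haK, hy1]
  have hy'0 : ∀ s ∈ S, polar ⇑Q y' s = 0 := by
    intro s hs
    rw [hy' s (hSK s hs)]
    exact hy0 s (by rw [hT]; exact Submodule.subset_span hs)
  refine ⟨a, y' - Q y' • a, haK, Ks.sub_mem hy'K (Ks.smul_mem _ haK), hQa, ?_, ?_, haS, ?_⟩
  · rw [sub_eq_add_neg, ← neg_smul, Q_add_smul, hQa, hy'1]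
    ring
  · rw [polar_sub_right, polar_smul_right, Cfsg.Agent.Lib.Helper51.polar_self, hQa,
      polar_comm, hy'1, smul_eq_mul]
    ring
  · intro s hs
    rw [polar_sub_right, polar_smul_right, haS s hs, polar_comm, hy'0 s hs, smul_eq_mul]
    ring

end KSide

section Ext

variable {ι : Type} [Fintype ι] [DecidableEq ι] {F : Type*} [Field F] {F₀ : Subfield F}

/-- A vector over the subfield, viewed over the big field. -/
def cv (x : ι → F₀) : ι → F := fun i => (x i : F)

theorem cv_add (x y : ι → F₀) : cv (x + y) = cv x + cv y := rfl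

theorem cv_sub (x y : ι → F₀) : cv (x - y) = cv x - cv y := rfl

theorem cv_neg (x : ι → F₀) : cv (-x) = -cv x := rfl

theorem cv_zero : cv (0 : ι → F₀) = 0 := rfl

theorem cv_smul (a : F₀) (x : ι → F₀) : cv (a • x) = (a : F) • cv x := rfl

theorem cv_injective : Function.Injective (cv : (ι → F₀) → (ι → F)) := by
  intro x y h
  funext i
  exact Subtype.ext (congrFun h i)

theorem cv_eq_zero {x : ι → F₀} (h : cv x = 0) : x = 0 := cv_injective (by rw [h, cv_zero])

theorem cv_ne_zero {x : ι → F₀} (h : x ≠ 0) : cv x ≠ 0 := fun h0 => h (cv_eq_zero h0)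

theorem exists_cv (w : ι → F) (hw : ∀ i, w i ∈ F₀) : ∃ x : ι → F₀, cv x = w :=
  ⟨fun i => ⟨w i, hw i⟩, rfl⟩

theorem cv_single (j : ι) : cv (Pi.single j (1 : F₀)) = (Pi.single j (1 : F) : ι → F) := by
  funext i
  by_cases h : i = j
  · subst h
    simp [cv]
  · simp [cv, Pi.single_eq_of_ne h]

/-- A functional separating a non-zero scalar. -/
theorem exists_fun_ne (c : F) (hc : c ≠ 0) : ∃ l : F →ₗ[F₀] F₀, l c ≠ 0 := by
  by_contra h
  push Not at h
  exact hc ((Module.forall_dual_apply_eq_zero_iff F₀ c).mp h)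

/-- A functional vanishing on the subfield and separating a scalar outside it. -/
theorem exists_fun_one (c : F) (hc : c ∉ F₀) : ∃ l : F →ₗ[F₀] F₀, l 1 = 0 ∧ l c ≠ 0 := by
  obtain ⟨W, hW⟩ : ∃ W : Submodule F₀ F, W = Submodule.span F₀ ({1} : Set F) := ⟨_, rfl⟩
  have hcW : c ∉ W := by
    intro h
    rw [hW, Submodule.mem_span_singleton] at h
    obtain ⟨a, ha⟩ := h
    apply hc
    rw [← ha, Subfield.smul_def, smul_eq_mul, mul_one]
    exact a.2
  have hq : W.mkQ c ≠ 0 := by
    intro h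
    exact hcW ((Submodule.Quotient.mk_eq_zero W).mp h)
  by_contra h
  push Not at h
  apply hq
  rw [← Module.forall_dual_apply_eq_zero_iff F₀]
  intro φ
  apply h (φ ∘ₗ W.mkQ)
  rw [LinearMap.comp_apply]
  have h1 : W.mkQ (1 : F) = 0 :=
    (Submodule.Quotient.mk_eq_zero W).mpr (by rw [hW]; exact Submodule.subset_span rfl)
  rw [h1, map_zero]

/-- Apply a functional coordinatewise. -/
def app (l : F →ₗ[F₀] F₀) (x : ι → F) : ι → F₀ := fun i => l (x i)

theorem app_add (l : F →ₗ[F₀] F₀) (x y : ι → F) : app l (x + y) = app l x + app l y := by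
  funext i
  simp [app]

theorem app_sub (l : F →ₗ[F₀] F₀) (x y : ι → F) : app l (x - y) = app l x - app l y := by
  funext i
  simp [app]

theorem app_smul_cv (l : F →ₗ[F₀] F₀) (c : F) (x : ι → F₀) : app l (c • cv x) = l c • x := by
  funext i
  simp only [app, cv, Pi.smul_apply, smul_eq_mul]
  have h1 : c * (x i : F) = (x i) • c := by rw [Subfield.smul_def, smul_eq_mul, mul_comm]
  rw [h1, map_smul, smul_eq_mul, mul_comm]

theorem app_cv (l : F →ₗ[F₀] F₀) (x : ι → F₀) : app l (cv x) = l 1 • x := by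
  rw [← app_smul_cv, one_smul]

/-- Coefficients of a rational vector in terms of two independent rational vectors are
rational. -/
theorem coef_mem2 {r p ρ : ι → F₀} (hind : ∀ a b : F₀, a • r + b • p = 0 → a = 0 ∧ b = 0)
    {c₁ c₂ : F} (h : c₁ • cv r + c₂ • cv p = cv ρ) : c₁ ∈ F₀ ∧ c₂ ∈ F₀ := by
  have key : ∀ l : F →ₗ[F₀] F₀, l 1 = 0 → l c₁ = 0 ∧ l c₂ = 0 := by
    intro l hl
    have h1 := congrArg (app l) h
    rw [app_add, app_smul_cv, app_smul_cv, app_cv, hl, zero_smul] at h1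
    exact hind _ _ h1
  constructor
  · by_contra hc
    obtain ⟨l, hl1, hl2⟩ := exists_fun_one c₁ hc
    exact hl2 (key l hl1).1
  · by_contra hc
    obtain ⟨l, hl1, hl2⟩ := exists_fun_one c₂ hc
    exact hl2 (key l hl1).2

/-- Coefficients of a rational vector in terms of three independent rational vectors are
rational. -/
theorem coef_mem3 {r p s ρ : ι → F₀}
    (hind : ∀ a b c : F₀, a • r + b • p + c • s = 0 → a = 0 ∧ b = 0 ∧ c = 0)
    {c₁ c₂ c₃ : F} (h : c₁ • cv r + c₂ • cv p + c₃ • cv s = cv ρ) :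
    c₁ ∈ F₀ ∧ c₂ ∈ F₀ ∧ c₃ ∈ F₀ := by
  have key : ∀ l : F →ₗ[F₀] F₀, l 1 = 0 → l c₁ = 0 ∧ l c₂ = 0 ∧ l c₃ = 0 := by
    intro l hl
    have h1 := congrArg (app l) h
    rw [app_add, app_add, app_smul_cv, app_smul_cv, app_smul_cv, app_cv, hl, zero_smul] at h1
    exact hind _ _ _ h1
  refine ⟨?_, ?_, ?_⟩
  · by_contra hc
    obtain ⟨l, hl1, hl2⟩ := exists_fun_one c₁ hc
    exact hl2 (key l hl1).1
  · by_contra hc
    obtain ⟨l, hl1, hl2⟩ := exists_fun_one c₂ hc
    exact hl2 (key l hl1).2.1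
  · by_contra hc
    obtain ⟨l, hl1, hl2⟩ := exists_fun_one c₃ hc
    exact hl2 (key l hl1).2.2

/-- If a multiple of a non-zero rational vector is rational, the scalar is rational. -/
theorem coef_mem1 {r ρ : ι → F₀} (hr : r ≠ 0) {c : F} (h : c • cv r = cv ρ) : c ∈ F₀ := by
  by_contra hc
  obtain ⟨l, hl1, hl2⟩ := exists_fun_one c hc
  have h1 := congrArg (app l) h
  rw [app_smul_cv, app_cv, hl1, zero_smul] at h1
  rcases smul_eq_zero.mp h1 with h2 | h2
  · exact hl2 h2
  · exact hr h2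

variable (Q : QuadraticForm F (ι → F))

/-- The restriction of a quadratic form with rational values on rational vectors. -/
noncomputable def Q0 (F₀ : Subfield F) (hrat : ∀ x : ι → F₀, Q (cv x) ∈ F₀) :
    QuadraticForm F₀ (ι → F₀) :=
  QuadraticMap.ofPolar (fun x => (⟨Q (cv x), hrat x⟩ : F₀))
    (by
      intro a x
      apply Subtype.ext
      simp only [cv_smul, QuadraticMap.map_smul, smul_eq_mul, Subfield.coe_mul])
    (by
      intro x x' y
      apply Subtype.ext
      simp only [polar, cv_add, Subfield.coe_sub, Subfield.coe_add]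
      have h := polar_add_left Q (cv x) (cv x') (cv y)
      simp only [polar] at h
      linear_combination h)
    (by
      intro a x y
      apply Subtype.ext
      simp only [polar, cv_add, cv_smul, Subfield.coe_sub, smul_eq_mul, Subfield.coe_mul]
      have h := polar_smul_left Q (a : F) (cv x) (cv y)
      simp only [polar, smul_eq_mul] at h
      linear_combination h)

theorem Q0_apply (hrat : ∀ x : ι → F₀, Q (cv x) ∈ F₀) (x : ι → F₀) :
    ((Q0 Q F₀ hrat x : F₀) : F) = Q (cv x) := rfl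

theorem polar_Q0 (hrat : ∀ x : ι → F₀, Q (cv x) ∈ F₀) (x y : ι → F₀) :
    ((polar ⇑(Q0 Q F₀ hrat) x y : F₀) : F) = polar ⇑Q (cv x) (cv y) := by
  simp only [polar, Subfield.coe_sub, Q0_apply, cv_add]

theorem Q0_nondeg [Fintype F] (hQ : (polarBilin Q).Nondegenerate)
    (hrat : ∀ x : ι → F₀, Q (cv x) ∈ F₀) :
    (polarBilin (Q0 Q F₀ hrat)).Nondegenerate := by
  let _ : Fintype F₀ := Fintype.ofFinite F₀
  apply Cfsg.Agent.Lib.Helper7.polarBilin_nondegenerate_of
  intro u hu
  by_contra hu0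
  obtain ⟨y, hy⟩ := exists_polar_ne_zero Q hQ (cv u) (cv_ne_zero hu0)
  apply hy
  have h1 : ∀ j : ι, polar ⇑Q (cv u) (Pi.single j (1 : F)) = 0 := by
    intro j
    rw [← cv_single (F₀ := F₀), ← polar_Q0 Q hrat, hu]
    rfl
  have h2 : y = ∑ j, y j • (Pi.single j (1 : F) : ι → F) := by
    funext i
    simp [Finset.sum_apply, Pi.single_apply]
  rw [h2]
  have h3 : polar ⇑Q (cv u) (∑ j, y j • (Pi.single j (1 : F) : ι → F))
      = ∑ j, polar ⇑Q (cv u) (y j • (Pi.single j (1 : F) : ι → F)) := by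
    have := map_sum (polarBilin Q (cv u)) (fun j => y j • (Pi.single j (1 : F) : ι → F))
      Finset.univ
    simpa only [polarBilin_apply_apply] using this
  rw [h3]
  apply Finset.sum_eq_zero
  intro j _
  rw [polar_smul_right, h1 j, smul_zero]

end Ext

end Cfsg.Agent.Lib.Helper44.OS
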