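import Mathlib
import Cfsg.Agent.Lib.Helper44.OSBase

/-!
Rational structures of quadratic spaces (helper44), part 2: root groups of an overgroup `M` of
the rational part of `Ω` at rational singular points; the parameter ring.
-/

set_option autoImplicit false
set_option linter.unusedSectionVars false
set_option linter.unusedVariables false

namespace Cfsg.Agent.Lib.Helper44.OS

open Module QuadraticMap
open Cfsg.Agent.Lib.Helper51 Cfsg.Agent.Lib.Helper52 Cfsg.Agent.Lib.Helper44

section Root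

variable {ι : Type} [Fintype ι] [DecidableEq ι] {F : Type*} [Field F]
variable {Q : QuadraticForm F (ι → F)} {F₀ : Subfield F} {Q₀ : QuadraticForm F₀ (ι → F₀)}
variable {M : Subgroup ↥(Cfsg.isometryGroup F ⇑Q)}

local notation "mt(" g ")" => ((g : Matrix.GeneralLinearGroup ι F) : Matrix ι ι F)

/-! ### Matrix identities for Eichler transformations -/

theorem eichMat_swap {c d : ι → F} (hc : Q c = 0) (hd : Q d = 0) :
    eichMat Q c d = eichMat Q d (-c) := by
  apply matrix_ext_mulVec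
  intro x
  rw [eichMat_mulVec, eichMat_mulVec, hd, QuadraticMap.map_neg, hc, polar_neg_left]
  module

theorem eichMat_lincomb {v w : ι → F} (hv : Q v = 0) (hw : Q w = 0) (hvw : polar ⇑Q v w = 0)
    (α β γ δ : F) :
    eichMat Q (α • v + β • w) (γ • v + δ • w) = eichMat Q v ((α * δ - β * γ) • w) := by
  have h1 : Q (γ • v + δ • w) = 0 := by
    have := Q_add_smul_add_smul Q 0 v w γ δ
    rw [zero_add] at this
    rw [this, hv, hw, hvw, QuadraticMap.map_zero, polar_zero_left, polar_zero_left]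
    ring
  apply matrix_ext_mulVec
  intro x
  rw [eichMat_mulVec, eichMat_mulVec, h1, QuadraticMap.map_smul, hw]
  simp only [polar_add_left, polar_smul_left, smul_eq_mul]
  module

/-! ### The root group predicate -/

/-- `E(c, x)` lies in `M`. -/
def InR (M : Subgroup ↥(Cfsg.isometryGroup F ⇑Q)) (c x : ι → F) : Prop :=
  ∃ (hc : Q c = 0) (h : polar ⇑Q c x = 0), eich Q c x hc h ∈ M

theorem InR.sing {c x : ι → F} (h : InR M c x) : Q c = 0 := h.1

theorem InR.orth {c x : ι → F} (h : InR M c x) : polar ⇑Q c x = 0 := h.2.1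

theorem inR_of_mat {c x : ι → F} (hc : Q c = 0) (h : polar ⇑Q c x = 0)
    {g : ↥(Cfsg.isometryGroup F ⇑Q)} (hg : g ∈ M) (hmat : mt(g) = eichMat Q c x) :
    InR M c x := by
  refine ⟨hc, h, ?_⟩
  have h1 : g = eich Q c x hc h := isometry_ext Q (by rw [hmat, coe_eich])
  rwa [← h1]

theorem InR.congr {c x c' x' : ι → F} (h : InR M c x) (hc' : Q c' = 0)
    (h' : polar ⇑Q c' x' = 0) (e : eichMat Q c x = eichMat Q c' x') : InR M c' x' :=
  inR_of_mat hc' h' h.2.2 (by rw [coe_eich, e])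

theorem InR.of_eq {c x x' : ι → F} (h : InR M c x) (e : x = x') : InR M c x' := e ▸ h

theorem InR.zero {c : ι → F} (hc : Q c = 0) : InR M c 0 :=
  ⟨hc, polar_zero_right _ _, by rw [eich_zero]; exact M.one_mem⟩

theorem InR.add {c x y : ι → F} (h1 : InR M c x) (h2 : InR M c y) : InR M c (x + y) := by
  obtain ⟨hc, hx, hm⟩ := h1
  obtain ⟨hc', hy, hm'⟩ := h2
  exact ⟨hc, by rw [polar_add_right, hx, hy, add_zero], eich_add_mem Q hc hx hy _ hm hm'⟩

theorem InR.neg {c x : ι → F} (h : InR M c x) : InR M c (-x) := by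
  obtain ⟨hc, hx, hm⟩ := h
  refine ⟨hc, by rw [polar_neg_right, hx, neg_zero], ?_⟩
  have := M.inv_mem hm
  rwa [eich_inv] at this

theorem InR.sub {c x y : ι → F} (h1 : InR M c x) (h2 : InR M c y) : InR M c (x - y) := by
  rw [sub_eq_add_neg]
  exact h1.add h2.neg

theorem InR.self {c : ι → F} (hc : Q c = 0) (t : F) : InR M c (t • c) := by
  have h0 : polar ⇑Q c (t • c) = 0 := by
    rw [polar_smul_right, Cfsg.Agent.Lib.Helper51.polar_self, hc, mul_zero, smul_zero]
  refine ⟨hc, h0, ?_⟩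
  rw [eich_eq_one_of_mem_span Q c (t • c) hc h0
    (Submodule.smul_mem _ _ (Submodule.mem_span_singleton_self c))]
  exact M.one_mem

theorem InR.sum {κ : Type*} {c : ι → F} (hc : Q c = 0) (s : Finset κ) (f : κ → ι → F)
    (h : ∀ k ∈ s, InR M c (f k)) : InR M c (∑ k ∈ s, f k) := by
  classical
  induction s using Finset.induction_on with
  | empty => rw [Finset.sum_empty]; exact InR.zero hc
  | insert a s ha ih =>
    rw [Finset.sum_insert ha]
    exact (h a (Finset.mem_insert_self a s)).add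
      (ih (fun k hk => h k (Finset.mem_insert_of_mem hk)))

theorem InR.conj {c x : ι → F} (h : InR M c x) {g : ↥(Cfsg.isometryGroup F ⇑Q)} (hg : g ∈ M) :
    InR M (mt(g).mulVec c) (mt(g).mulVec x) := by
  obtain ⟨hc, hx, hm⟩ := h
  have := M.mul_mem (M.mul_mem hg hm) (M.inv_mem hg)
  rw [conj_eich] at this
  exact ⟨_, _, this⟩

theorem InR.conj' {c x c' x' : ι → F} (h : InR M c x) {g : ↥(Cfsg.isometryGroup F ⇑Q)}
    (hg : g ∈ M) (e1 : mt(g).mulVec c = c') (e2 : mt(g).mulVec x = x') : InR M c' x' := by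
  subst e1 e2
  exact h.conj hg

theorem InR.swap {c d : ι → F} (h : InR M c d) (hd : Q d = 0) : InR M d (-c) :=
  h.congr hd (by rw [polar_neg_right, polar_comm, h.orth, neg_zero]) (eichMat_swap h.sing hd)

theorem InR.smul_left {c x : ι → F} {t : F} (h : InR M (t • c) x) (hc : Q c = 0) :
    InR M c (t • x) := by
  have h1 := h.orth
  rw [polar_smul_left, smul_eq_mul] at h1
  exact h.congr hc (by rw [polar_smul_right, smul_eq_mul]; exact h1) (eichMat_smul_left Q c x t)

theorem InR.smul_right {c x : ι → F} {t : F} (h : InR M c (t • x)) : InR M (t • c) x := by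
  by_cases ht : t = 0
  · subst ht
    have h0 : eichMat Q c ((0 : F) • x) = eichMat Q ((0 : F) • c) x :=
      (eichMat_smul_left Q c x 0).symm
    exact h.congr (by rw [zero_smul, QuadraticMap.map_zero])
      (by rw [zero_smul, polar_zero_left]) h0
  · have h1 := h.orth
    rw [polar_smul_right, smul_eq_mul] at h1
    have h2 : polar ⇑Q c x = 0 := (mul_eq_zero.mp h1).resolve_left ht
    exact h.congr (by rw [QuadraticMap.map_smul, h.sing, smul_zero])
      (by rw [polar_smul_left, h2, smul_zero]) (eichMat_smul_left Q c x t).symm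

/-- Add a multiple of the centre. -/
theorem InR.add_self {c x : ι → F} (h : InR M c x) (t : F) : InR M c (x + t • c) :=
  h.add (InR.self h.sing t)

/-! ### Rational structures -/

/-- A rational structure: the quadratic form `Q₀` over the subfield is the restriction of
`Q`, and both are non-degenerate. -/
structure RS (Q : QuadraticForm F (ι → F)) (F₀ : Subfield F)
    (Q₀ : QuadraticForm F₀ (ι → F₀)) : Prop where
  nd : (polarBilin Q).Nondegenerate
  nd₀ : (polarBilin Q₀).Nondegenerate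
  val : ∀ x : ι → F₀, Q (cv x) = ((Q₀ x : F₀) : F)

theorem RS.pol (D : RS Q F₀ Q₀) (x y : ι → F₀) :
    polar ⇑Q (cv x) (cv y) = ((polar ⇑Q₀ x y : F₀) : F) := by
  simp only [polar, ← cv_add, D.val, Subfield.coe_sub]

theorem RS.sing (D : RS Q F₀ Q₀) {u : ι → F₀} (h : Q₀ u = 0) : Q (cv u) = 0 := by
  rw [D.val, h]; rfl

theorem RS.orth (D : RS Q F₀ Q₀) {u w : ι → F₀} (h : polar ⇑Q₀ u w = 0) :
    polar ⇑Q (cv u) (cv w) = 0 := by
  rw [D.pol, h]; rfl

theorem RS.orth' (D : RS Q F₀ Q₀) {u w : ι → F₀} (h : polar ⇑Q₀ u w = 0) :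
    polar ⇑Q (cv w) (cv u) = 0 := by
  rw [polar_comm, D.orth h]

theorem RS.one (D : RS Q F₀ Q₀) {u w : ι → F₀} (h : polar ⇑Q₀ u w = 1) :
    polar ⇑Q (cv u) (cv w) = 1 := by
  rw [D.pol, h]; rfl

/-- The image of a rational vector under a rational Eichler transformation is rational. -/
theorem RS.eich_cv (D : RS Q F₀ Q₀) (u w x : ι → F₀) :
    (eichMat Q (cv u) (cv w)).mulVec (cv x)
      = cv (x + polar ⇑Q₀ w x • u - polar ⇑Q₀ u x • w - (Q₀ w * polar ⇑Q₀ u x) • u) := by
  rw [eichMat_mulVec, cv_sub, cv_sub, cv_add, cv_smul, cv_smul, cv_smul, D.pol, D.pol, D.val,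
    Subfield.coe_mul]

/-- Overgroup data: `M` contains every rational element of `Ω`. -/
structure OG (Q : QuadraticForm F (ι → F)) (F₀ : Subfield F) (Q₀ : QuadraticForm F₀ (ι → F₀))
    (M : Subgroup ↥(Cfsg.isometryGroup F ⇑Q)) : Prop where
  rs : RS Q F₀ Q₀
  hn : 13 ≤ Fintype.card ι
  hH : ∀ h : ↥(Cfsg.isometryGroup F ⇑Q), h ∈ commutator ↥(Cfsg.isometryGroup F ⇑Q) →
    (∀ i j, mt(h) i j ∈ F₀) → h ∈ M

variable [Fintype F]

theorem OG.rat (D : OG Q F₀ Q₀ M) {u w : ι → F₀} (hu : Q₀ u = 0) (huw : polar ⇑Q₀ u w = 0) :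
    InR M (cv u) (cv w) := by
  refine ⟨D.rs.sing hu, D.rs.orth huw, ?_⟩
  apply D.hH _ (eich_mem_commutator Q D.rs.nd (by have := D.hn; omega) _ _ _ _)
  intro i j
  rw [coe_eich]
  have h1 : (eichMat Q (cv u) (cv w)) i j
      = ((eichMat Q (cv u) (cv w)).mulVec (Pi.single j (1 : F))) i := by
    rw [Matrix.mulVec_single_one]
    rfl
  rw [h1, ← cv_single (F₀ := F₀), D.rs.eich_cv]
  exact Subtype.prop _

theorem InR.swap_smul {c d : ι → F} {s : F} (h : InR M c (s • d)) (hd : Q d = 0) :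
    InR M d (s • c) := by
  have h1 := h.swap (by rw [QuadraticMap.map_smul, hd, smul_zero])
  have h2 := (h1.smul_left hd).neg
  exact h2.of_eq (by module)

/-- `l (f(x, b)) = f₀(l x, b)` for a coordinatewise functional `l`. -/
theorem RS.app_polar (D : RS Q F₀ Q₀) (l : F →ₗ[F₀] F₀) (x : ι → F) (b : ι → F₀) :
    polar ⇑Q₀ (app l x) b = l (polar ⇑Q x (cv b)) := by
  have hx : x = ∑ j, x j • cv (Pi.single j (1 : F₀)) := by
    funext i
    simp [cv_single, Finset.sum_apply, Pi.single_apply]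
  have happ : app l x = ∑ j, l (x j) • (Pi.single j (1 : F₀) : ι → F₀) := by
    funext i
    simp [app, Finset.sum_apply, Pi.single_apply]
  rw [happ, polar_sum_left]
  nth_rewrite 2 [hx]
  rw [polar_sum_left, map_sum]
  apply Finset.sum_congr rfl
  intro j _
  rw [polar_smul_left, polar_smul_left, D.pol, smul_eq_mul, smul_eq_mul]
  have h1 : x j * ((polar ⇑Q₀ (Pi.single j (1 : F₀)) b : F₀) : F)
      = (polar ⇑Q₀ (Pi.single j (1 : F₀)) b) • x j := by
    rw [Subfield.smul_def, smul_eq_mul, mul_comm]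
  rw [h1, map_smul, smul_eq_mul, mul_comm]

/-- The rank one trick: from `E(u, w) ∈ M` to `E(u, f(w, b) a) ∈ M`. -/
theorem OG.rank_one (D : OG Q F₀ Q₀ M) {u b a : ι → F₀} (hu : Q₀ u = 0) (hb : Q₀ b = 0)
    (ha : Q₀ a = 0) (hub : polar ⇑Q₀ u b = 0) (hua : polar ⇑Q₀ u a = 0)
    (hab : polar ⇑Q₀ a b = 0) {w : ι → F} (hE : InR M (cv u) w) :
    InR M (cv u) (polar ⇑Q w (cv b) • cv a) := by
  classical
  let _ : Fintype F₀ := Fintype.ofFinite F₀
  obtain ⟨a', b', hQa', hQb', ha'b', ha'S, hb'S⟩ :=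
    exists_hyp_pair Q₀ D.rs.nd₀ {u, b, a} (by
      have := D.hn
      have h3 : ({u, b, a} : Finset (ι → F₀)).card ≤ 3 := Finset.card_le_three
      omega)
  have hua' : polar ⇑Q₀ u a' = 0 := ha'S u (by simp)
  have hba' : polar ⇑Q₀ b a' = 0 := ha'S b (by simp)
  have haa' : polar ⇑Q₀ a a' = 0 := ha'S a (by simp)
  have hub' : polar ⇑Q₀ u b' = 0 := hb'S u (by simp)
  have hbb' : polar ⇑Q₀ b b' = 0 := hb'S b (by simp)
  have hab' : polar ⇑Q₀ a b' = 0 := hb'S a (by simp)
  obtain ⟨h₁c, h₁o, h₁m⟩ := D.rat (M := M) hQa'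
    (show polar ⇑Q₀ a' b = 0 by rw [polar_comm]; exact hba')
  have e1 : mt(eich Q (cv a') (cv b) h₁c h₁o).mulVec (cv u) = cv u := by
    rw [eich_apply, D.rs.orth' hub, D.rs.orth' hua']
    simp
  have e2 : mt(eich Q (cv a') (cv b) h₁c h₁o).mulVec w
      = w + (polar ⇑Q (cv b) w • cv a' - polar ⇑Q (cv a') w • cv b) := by
    rw [eich_apply, D.rs.sing hb]
    module
  have h3 : InR M (cv u) (polar ⇑Q (cv b) w • cv a' - polar ⇑Q (cv a') w • cv b) :=
    ((hE.conj' h₁m e1 e2).sub hE).of_eq (by abel)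
  obtain ⟨h₂c, h₂o, h₂m⟩ := D.rat (M := M) ha hab'
  have e1' : mt(eich Q (cv a) (cv b') h₂c h₂o).mulVec (cv u) = cv u := by
    rw [eich_apply, D.rs.orth' hub', D.rs.orth' hua]
    simp
  have hb'a' : polar ⇑Q (cv b') (cv a') = 1 := by rw [polar_comm]; exact D.rs.one ha'b'
  have e2' : mt(eich Q (cv a) (cv b') h₂c h₂o).mulVec
      (polar ⇑Q (cv b) w • cv a' - polar ⇑Q (cv a') w • cv b)
      = (polar ⇑Q (cv b) w • cv a' - polar ⇑Q (cv a') w • cv b) + polar ⇑Q (cv b) w • cv a := by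
    rw [eich_apply, D.rs.sing hQb']
    simp only [polar_sub_right, polar_smul_right, smul_eq_mul]
    rw [hb'a', D.rs.orth' hbb', D.rs.orth haa', D.rs.orth hab]
    module
  have h4 : InR M (cv u) (polar ⇑Q (cv b) w • cv a) :=
    ((h3.conj' h₂m e1' e2').sub h3).of_eq (by abel)
  exact h4.of_eq (by rw [polar_comm])

/-- Moving the second vector of a root element (with a rational scalar). -/
theorem OG.move (D : OG Q F₀ Q₀ M) {u w a : ι → F₀} (hu : Q₀ u = 0) (hw : Q₀ w = 0)
    (ha : Q₀ a = 0) (huw : polar ⇑Q₀ u w = 0) (hua : polar ⇑Q₀ u a = 0)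
    (hwn : w ∉ Submodule.span F₀ ({u, a} : Set (ι → F₀))) {s : F}
    (hE : InR M (cv u) (s • cv w)) (t : F₀) : InR M (cv u) (((t : F) * s) • cv a) := by
  classical
  let _ : Fintype F₀ := Fintype.ofFinite F₀
  obtain ⟨b, hQb, hbS, hwb⟩ := exists_singular_perp Q₀ D.rs.nd₀ {u, a} (by
      have := D.hn
      have h2 : ({u, a} : Finset (ι → F₀)).card ≤ 2 := Finset.card_le_two
      omega) w (by
      rw [Finset.coe_insert, Finset.coe_singleton]
      exact hwn)
  have hub : polar ⇑Q₀ u b = 0 := hbS u (by simp)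
  have hab : polar ⇑Q₀ a b = 0 := hbS a (by simp)
  obtain ⟨c, hc⟩ : ∃ c : F₀, c = t / polar ⇑Q₀ w b := ⟨_, rfl⟩
  have hval : polar ⇑Q₀ w (c • b) = t := by
    rw [polar_smul_right, smul_eq_mul, hc]
    field_simp
  have h1 := D.rank_one hu (show Q₀ (c • b) = 0 by rw [QuadraticMap.map_smul, hQb, smul_zero]) ha
    (show polar ⇑Q₀ u (c • b) = 0 by rw [polar_smul_right, hub, smul_zero]) hua
    (show polar ⇑Q₀ a (c • b) = 0 by rw [polar_smul_right, hab, smul_zero]) hE
  refine h1.of_eq ?_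
  rw [polar_smul_left, D.rs.pol, hval, smul_eq_mul, mul_comm]

/-- Moving the second vector of a root element to any singular vector of the perp. -/
theorem OG.same (D : OG Q F₀ Q₀ M) {u w w' : ι → F₀} (hu : Q₀ u = 0) (hw : Q₀ w = 0)
    (hw' : Q₀ w' = 0) (huw : polar ⇑Q₀ u w = 0) (huw' : polar ⇑Q₀ u w' = 0)
    (hwn : w ∉ Submodule.span F₀ ({u} : Set (ι → F₀))) {s : F}
    (hE : InR M (cv u) (s • cv w)) (t : F₀) : InR M (cv u) (((t : F) * s) • cv w') := by
  classical
  let _ : Fintype F₀ := Fintype.ofFinite F₀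
  obtain ⟨x, x', hQx, hQx', hxx', hxS, hx'S⟩ :=
    exists_hyp_pair Q₀ D.rs.nd₀ {u, w, w'} (by
      have := D.hn
      have h3 : ({u, w, w'} : Finset (ι → F₀)).card ≤ 3 := Finset.card_le_three
      omega)
  have hux : polar ⇑Q₀ u x = 0 := hxS u (by simp)
  have hux' : polar ⇑Q₀ u x' = 0 := hx'S u (by simp)
  have hwx' : polar ⇑Q₀ w x' = 0 := hx'S w (by simp)
  have hw'x' : polar ⇑Q₀ w' x' = 0 := hx'S w' (by simp)
  have h1 := D.move hu hw hQx huw hux (by
    intro hmem
    obtain ⟨α, β, hαβ⟩ := Submodule.mem_span_pair.mp hmem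
    have h2 : polar ⇑Q₀ (α • u + β • x) x' = β := by
      rw [polar_add_left, polar_smul_left, polar_smul_left, hux', hxx']
      simp
    rw [hαβ, hwx'] at h2
    apply hwn
    rw [Submodule.mem_span_singleton]
    exact ⟨α, by rw [← hαβ, ← h2, zero_smul, add_zero]⟩) hE 1
  have h2 := D.move hu hQx hw' hux huw' (by
    intro hmem
    obtain ⟨α, β, hαβ⟩ := Submodule.mem_span_pair.mp hmem
    have h3 : polar ⇑Q₀ (α • u + β • w') x' = 0 := by
      rw [polar_add_left, polar_smul_left, polar_smul_left, hux', hw'x']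
      simp
    rw [hαβ, hxx'] at h3
    exact one_ne_zero h3) h1 t
  exact h2.of_eq (by simp)

/-- The parameter predicate: `E(u, s w) ∈ M` for all rational singular orthogonal `u`, `w`. -/
def SP (M : Subgroup ↥(Cfsg.isometryGroup F ⇑Q)) (Q₀ : QuadraticForm F₀ (ι → F₀)) (s : F) :
    Prop :=
  ∀ u w : ι → F₀, Q₀ u = 0 → Q₀ w = 0 → polar ⇑Q₀ u w = 0 → InR M (cv u) (s • cv w)

/-- One root element with parameter `s` gives all of them. -/
theorem OG.sp_of_one (D : OG Q F₀ Q₀ M) {u w : ι → F₀} (hu : Q₀ u = 0) (hw : Q₀ w = 0)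
    (huw : polar ⇑Q₀ u w = 0) (hu0 : u ≠ 0)
    (hwn : w ∉ Submodule.span F₀ ({u} : Set (ι → F₀)))
    {s : F} (hE : InR M (cv u) (s • cv w)) : SP M Q₀ s := by
  classical
  let _ : Fintype F₀ := Fintype.ofFinite F₀
  intro u₁ w₁ hu₁ hw₁ hu₁w₁
  obtain ⟨x, x', hQx, hQx', hxx', hxS, hx'S⟩ :=
    exists_hyp_pair Q₀ D.rs.nd₀ {u, w, u₁, w₁} (by
      have := D.hn
      have h4 : ({u, w, u₁, w₁} : Finset (ι → F₀)).card ≤ 4 := Finset.card_le_four
      omega)
  have hux : polar ⇑Q₀ u x = 0 := hxS u (by simp)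
  have hu₁x : polar ⇑Q₀ u₁ x = 0 := hxS u₁ (by simp)
  have hux' : polar ⇑Q₀ u x' = 0 := hx'S u (by simp)
  have hu₁x' : polar ⇑Q₀ u₁ x' = 0 := hx'S u₁ (by simp)
  have h1 := D.same hu hw hQx huw hux hwn hE 1
  have h2 := h1.swap_smul (D.rs.sing hQx)
  have hxu : polar ⇑Q₀ x u = 0 := by rw [polar_comm]; exact hux
  have hxu₁ : polar ⇑Q₀ x u₁ = 0 := by rw [polar_comm]; exact hu₁x
  have h3 := D.same hQx hu hu₁ hxu hxu₁ (by
    intro hmem
    obtain ⟨α, hα⟩ := Submodule.mem_span_singleton.mp hmem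
    have h5 : polar ⇑Q₀ (α • x) x' = α := by
      rw [polar_smul_left, hxx']
      simp
    rw [hα, hux'] at h5
    apply hu0
    rw [← hα, ← h5, zero_smul]) h2 1
  have h4 := h3.swap_smul (D.rs.sing hu₁)
  have h5 := D.same hu₁ hQx hw₁ hu₁x hu₁w₁ (by
    intro hmem
    obtain ⟨α, hα⟩ := Submodule.mem_span_singleton.mp hmem
    have h6 : polar ⇑Q₀ (α • u₁) x' = 0 := by rw [polar_smul_left, hu₁x', smul_zero]
    rw [hα, hxx'] at h6
    exact one_ne_zero h6) h4 1
  exact h5.of_eq (by simp)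

theorem sp_add {s s' : F} (h1 : SP M Q₀ s) (h2 : SP M Q₀ s') : SP M Q₀ (s + s') :=
  fun u w hu hw huw => ((h1 u w hu hw huw).add (h2 u w hu hw huw)).of_eq (by rw [add_smul])

theorem sp_neg {s : F} (h : SP M Q₀ s) : SP M Q₀ (-s) :=
  fun u w hu hw huw => (h u w hu hw huw).neg.of_eq (by rw [neg_smul])

theorem OG.sp_rat (D : OG Q F₀ Q₀ M) (a : F₀) : SP M Q₀ (a : F) :=
  fun u w hu hw huw => (D.rat hu (show polar ⇑Q₀ u (a • w) = 0 by
    rw [polar_smul_right, huw, smul_zero])).of_eq (cv_smul a w)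

/-- The parameters are closed under multiplication. -/
theorem OG.sp_mul (D : OG Q F₀ Q₀ M) {s s' : F} (h1 : SP M Q₀ s) (h2 : SP M Q₀ s') :
    SP M Q₀ (s * s') := by
  classical
  let _ : Fintype F₀ := Fintype.ofFinite F₀
  obtain ⟨u, x', hQu, hQx', hux', -, -⟩ := exists_hyp_pair Q₀ D.rs.nd₀ ∅ (by
    have := D.hn
    simp only [Finset.card_empty]
    omega)
  obtain ⟨u', y', hQu', hQy', hu'y', hu'S, hy'S⟩ := exists_hyp_pair Q₀ D.rs.nd₀ {u, x'} (by
    have := D.hn
    have h2 : ({u, x'} : Finset (ι → F₀)).card ≤ 2 := Finset.card_le_two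
    omega)
  have huu' : polar ⇑Q₀ u u' = 0 := hu'S u (by simp)
  have huy' : polar ⇑Q₀ u y' = 0 := hy'S u (by simp)
  have hu0 : u ≠ 0 := by
    rintro rfl
    rw [polar_zero_left] at hux'
    exact zero_ne_one hux'
  have hu'n : u' ∉ Submodule.span F₀ ({u} : Set (ι → F₀)) := by
    intro hmem
    obtain ⟨α, hα⟩ := Submodule.mem_span_singleton.mp hmem
    have h6 : polar ⇑Q₀ (α • u) y' = 0 := by rw [polar_smul_left, huy', smul_zero]
    rw [hα, hu'y'] at h6
    exact one_ne_zero h6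
  obtain ⟨a, a', hQa, hQa', haa', haS, ha'S⟩ := exists_hyp_pair Q₀ D.rs.nd₀ {u, u'} (by
    have := D.hn
    have h2 : ({u, u'} : Finset (ι → F₀)).card ≤ 2 := Finset.card_le_two
    omega)
  have hua : polar ⇑Q₀ u a = 0 := haS u (by simp)
  have hu'a : polar ⇑Q₀ u' a = 0 := haS u' (by simp)
  have hua' : polar ⇑Q₀ u a' = 0 := ha'S u (by simp)
  have hu'a' : polar ⇑Q₀ u' a' = 0 := ha'S u' (by simp)
  have hE₁ := h1 u a hQu hQa hua
  obtain ⟨hgc, hgo, hgm⟩ := h2 u' a' hQu' hQa' hu'a'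
  have e1 : mt(eich Q (cv u') (s' • cv a') hgc hgo).mulVec (cv u) = cv u := by
    rw [eich_apply, polar_smul_left, D.rs.orth' hua', D.rs.orth' huu']
    simp
  have ha'a : polar ⇑Q (cv a') (cv a) = 1 := by rw [polar_comm]; exact D.rs.one haa'
  have e2 : mt(eich Q (cv u') (s' • cv a') hgc hgo).mulVec (s • cv a)
      = s • cv a + (s * s') • cv u' := by
    rw [eich_apply]
    simp only [polar_smul_left, polar_smul_right, smul_eq_mul]
    rw [ha'a, D.rs.orth hu'a]
    module
  have h3 : InR M (cv u) ((s * s') • cv u') := ((hE₁.conj' hgm e1 e2).sub hE₁).of_eq (by abel)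
  exact D.sp_of_one hQu hQu' huu' hu0 hu'n h3

/-- The parameters form a subfield between `F₀` and `F`; for prime degree it is `F₀` or `F`. -/
theorem OG.sp_dichotomy (D : OG Q F₀ Q₀ M) (r : ℕ) (hr : r.Prime)
    (hcard : Fintype.card F = Nat.card F₀ ^ r) :
    (∀ c : F, SP M Q₀ c → c ∈ F₀) ∨ (∀ c : F, SP M Q₀ c) := by
  classical
  let R : Subring F :=
    { carrier := {c | SP M Q₀ c}
      mul_mem' := fun ha hb => D.sp_mul ha hb
      one_mem' := D.sp_rat 1
      add_mem' := fun ha hb => sp_add ha hb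
      zero_mem' := D.sp_rat 0
      neg_mem' := fun ha => sp_neg ha }
  let K : Subfield F :=
    { R with
      inv_mem' := by
        intro c hc
        by_cases h0 : c = 0
        · subst h0; rw [_root_.inv_zero]; exact R.zero_mem
        · have h1 : c⁻¹ = c ^ (Fintype.card F - 2) := by
            have h2 := FiniteField.pow_card_sub_one_eq_one c h0
            have h4 : Fintype.card F - 1 = (Fintype.card F - 2) + 1 := by
              have := Fintype.one_lt_card (α := F); omega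
            rw [h4, pow_succ] at h2
            exact inv_eq_of_mul_eq_one_left h2
          rw [h1]; exact R.pow_mem hc _ }
  have hle : ∀ x : F₀, algebraMap F₀ F x ∈ K := fun x => D.sp_rat x
  let E : IntermediateField F₀ F := Subfield.toIntermediateField K hle
  have hfin : Module.finrank F₀ F = r := by
    let _ : Fintype F₀ := Fintype.ofFinite F₀
    have h1 := Module.card_eq_pow_finrank (K := F₀) (V := F)
    rw [hcard, Nat.card_eq_fintype_card] at h1
    exact (Nat.pow_right_injective (Fintype.one_lt_card) h1).symm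
  have hso := IntermediateField.isSimpleOrder_of_finrank_prime F₀ F (by rw [hfin]; exact hr)
  rcases eq_bot_or_eq_top E with hE | hE
  · left
    intro c hc
    have h1 : c ∈ E := hc
    rw [hE, IntermediateField.mem_bot] at h1
    obtain ⟨x, rfl⟩ := h1
    exact x.2
  · right
    intro c
    have h1 : c ∈ E := by rw [hE]; exact IntermediateField.mem_top
    exact h1

/-- A rational vector pairing to one with a given non-zero rational vector. -/
theorem RS.exists_partner (D : RS Q F₀ Q₀) {u : ι → F₀} (hu0 : u ≠ 0) :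
    ∃ v : ι → F₀, polar ⇑Q₀ u v = 1 := by
  obtain ⟨y, hy1, -⟩ := exists_polar_sep Q₀ D.nd₀ ⊥ u (by simpa using hu0)
  exact ⟨y, by rw [polar_comm]; exact hy1⟩

/-- If the only parameters are the rational ones, then the root group of `M` at a rational
singular point is the rational one. -/
theorem OG.rat_of_inR (D : OG Q F₀ Q₀ M) (hS : ∀ c : F, SP M Q₀ c → c ∈ F₀) {u : ι → F₀}
    (hu : Q₀ u = 0) (hu0 : u ≠ 0) {w : ι → F} (hE : InR M (cv u) w) :
    ∃ (w₀ : ι → F₀) (t : F), w = cv w₀ + t • cv u := by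
  classical
  let _ : Fintype F₀ := Fintype.ofFinite F₀
  obtain ⟨v, huv⟩ := D.rs.exists_partner hu0
  obtain ⟨w', hw'⟩ : ∃ w' : ι → F, w' = w - polar ⇑Q w (cv v) • cv u := ⟨_, rfl⟩
  have hE' : InR M (cv u) w' := by
    rw [hw']
    exact hE.sub (InR.self (D.rs.sing hu) _)
  have hw'v : polar ⇑Q w' (cv v) = 0 := by
    rw [hw', polar_sub_left, polar_smul_left, D.rs.one huv, smul_eq_mul, mul_one, sub_self]
  -- singular rational vectors of the perp
  have claim : ∀ b : ι → F₀, Q₀ b = 0 → polar ⇑Q₀ u b = 0 → polar ⇑Q w' (cv b) ∈ F₀ := by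
    intro b hb hub
    obtain ⟨a, a', hQa, hQa', haa', haS, ha'S⟩ := exists_hyp_pair Q₀ D.rs.nd₀ {u, b} (by
      have := D.hn
      have h2 : ({u, b} : Finset (ι → F₀)).card ≤ 2 := Finset.card_le_two
      omega)
    have hua : polar ⇑Q₀ u a = 0 := haS u (by simp)
    have hba : polar ⇑Q₀ b a = 0 := haS b (by simp)
    have hua' : polar ⇑Q₀ u a' = 0 := ha'S u (by simp)
    have h1 := D.rank_one hu hb hQa hub hua (by rw [polar_comm]; exact hba) hE'
    apply hS
    refine D.sp_of_one hu hQa hua hu0 ?_ h1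
    intro hmem
    obtain ⟨α, hα⟩ := Submodule.mem_span_singleton.mp hmem
    have h6 : polar ⇑Q₀ (α • u) a' = 0 := by rw [polar_smul_left, hua', smul_zero]
    rw [hα, haa'] at h6
    exact one_ne_zero h6
  -- all rational vectors
  have key : ∀ l : F →ₗ[F₀] F₀, l 1 = 0 → ∀ b : ι → F₀, l (polar ⇑Q w' (cv b)) = 0 := by
    intro l hl
    obtain ⟨f, hf⟩ : ∃ f : (ι → F₀) →+ F₀, ∀ b, f b = l (polar ⇑Q w' (cv b)) :=
      ⟨AddMonoidHom.mk' (fun b => l (polar ⇑Q w' (cv b))) (by
        intro b b'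
        rw [cv_add, polar_add_right, map_add]), fun b => rfl⟩
    obtain ⟨e, x, hQe, hQx, hex, heS, hxS⟩ := exists_hyp_pair Q₀ D.rs.nd₀ {u} (by
      have := D.hn
      simp only [Finset.card_singleton]
      omega)
    obtain ⟨U, hU⟩ : ∃ U : Submodule F₀ (ι → F₀), U = LinearMap.BilinForm.orthogonal
        (polarBilin Q₀) (Submodule.span F₀ (({u} : Finset (ι → F₀)) : Set (ι → F₀))) := ⟨_, rfl⟩
    have hmem : ∀ z, z ∈ U ↔ polar ⇑Q₀ u z = 0 := by
      intro z
      rw [hU, mem_orth_span]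
      simp
    have hUz := eq_zero_of_singular Q₀ U e x ((hmem e).2 (heS u (by simp))) hQe
      ((hmem x).2 (hxS u (by simp))) (by rw [hex]; exact one_ne_zero) f (by
        intro s hsU hQs _
        rw [hf]
        obtain ⟨c, hc⟩ : ∃ c : F₀, (c : F) = polar ⇑Q w' (cv s) :=
          ⟨⟨_, claim s hQs ((hmem s).1 hsU)⟩, rfl⟩
        rw [← hc]
        have h1 : (c : F) = c • (1 : F) := by rw [Subfield.smul_def, smul_eq_mul, mul_one]
        rw [h1, map_smul, hl, smul_zero])
    intro b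
    have hb1 : b - polar ⇑Q₀ u b • v ∈ U := by
      rw [hmem, polar_sub_right, polar_smul_right, huv, smul_eq_mul, mul_one, sub_self]
    have h2 := hUz _ hb1
    rw [hf] at h2
    have h3 : polar ⇑Q w' (cv b) = polar ⇑Q w' (cv (b - polar ⇑Q₀ u b • v)) := by
      rw [cv_sub, cv_smul, polar_sub_right, polar_smul_right, hw'v, smul_zero, sub_zero]
    rw [h3]
    exact h2
  have hrat : ∀ i, w' i ∈ F₀ := by
    intro i
    by_contra hc
    obtain ⟨l, hl1, hl2⟩ := exists_fun_one (w' i) hc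
    have h1 : app l w' = 0 := by
      by_contra h0
      obtain ⟨b, hb⟩ := exists_polar_ne_zero Q₀ D.rs.nd₀ (app l w') h0
      apply hb
      rw [D.rs.app_polar]
      exact key l hl1 b
    exact hl2 (congrFun h1 i)
  obtain ⟨w₀, hw₀⟩ := exists_cv w' hrat
  refine ⟨w₀, polar ⇑Q w (cv v), ?_⟩
  rw [hw₀, hw']
  abel

/-- If every scalar is a parameter, `M` contains `Ω`. -/
theorem OG.full (D : OG Q F₀ Q₀ M) (hS : ∀ c : F, SP M Q₀ c) :
    commutator ↥(Cfsg.isometryGroup F ⇑Q) ≤ M := by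
  classical
  let _ : Fintype F₀ := Fintype.ofFinite F₀
  have full : ∀ u : ι → F₀, Q₀ u = 0 → u ≠ 0 → IsFullPt Q M (cv u) := by
    intro u hu hu0
    refine ⟨D.rs.sing hu, ?_⟩
    intro w huw
    suffices h : InR M (cv u) w by
      obtain ⟨_, _, hm⟩ := h
      exact hm
    obtain ⟨v, huv⟩ := D.rs.exists_partner hu0
    obtain ⟨e, x, hQe, hQx, hex, heS, hxS⟩ := exists_hyp_pair Q₀ D.rs.nd₀ {u} (by
      have := D.hn
      simp only [Finset.card_singleton]
      omega)
    obtain ⟨U, hU⟩ : ∃ U : Submodule F₀ (ι → F₀), U = LinearMap.BilinForm.orthogonal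
        (polarBilin Q₀) (Submodule.span F₀ (({u} : Finset (ι → F₀)) : Set (ι → F₀))) := ⟨_, rfl⟩
    have hmem : ∀ z, z ∈ U ↔ polar ⇑Q₀ u z = 0 := by
      intro z
      rw [hU, mem_orth_span]
      simp
    have hP : ∀ b : ι → F₀, b ∈ U → ∀ s : F, InR M (cv u) (s • cv b) := by
      intro b hbU
      have hcl := mem_closure_singular Q₀ U e x ((hmem e).2 (heS u (by simp))) hQe
        ((hmem x).2 (hxS u (by simp))) (by rw [hex]; exact one_ne_zero) b hbU
      refine AddSubgroup.closure_induction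
        (p := fun b _ => ∀ s : F, InR M (cv u) (s • cv b)) ?_ ?_ ?_ ?_ hcl
      · intro z hz s
        exact hS s u z hu hz.2.1 ((hmem z).1 hz.1)
      · intro s
        rw [cv_zero, smul_zero]
        exact InR.zero (D.rs.sing hu)
      · intro z z' _ _ h1 h2 s
        exact ((h1 s).add (h2 s)).of_eq (by rw [cv_add, smul_add])
      · intro z _ h1 s
        exact (h1 s).neg.of_eq (by rw [cv_neg, smul_neg])
    have hdec : w = ∑ j, w j • cv ((Pi.single j (1 : F₀) : ι → F₀)
        - polar ⇑Q₀ (Pi.single j (1 : F₀)) u • v) := by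
      have hw : w = ∑ j, w j • cv (Pi.single j (1 : F₀)) := by
        funext i
        simp [cv_single, Finset.sum_apply, Pi.single_apply]
      have h0 : polar ⇑Q w (cv u) = 0 := by rw [polar_comm]; exact huw
      nth_rewrite 1 [hw] at h0
      rw [polar_sum_left] at h0
      simp only [cv_sub, cv_smul, smul_sub, Finset.sum_sub_distrib]
      rw [← hw]
      have h1 : ∑ j, w j • ((polar ⇑Q₀ (Pi.single j (1 : F₀)) u : F₀) : F) • cv v
          = (∑ j, polar ⇑Q (w j • cv (Pi.single j (1 : F₀))) (cv u)) • cv v := by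
        rw [Finset.sum_smul]
        apply Finset.sum_congr rfl
        intro j _
        rw [polar_smul_left, D.rs.pol, smul_smul, smul_eq_mul]
      rw [h1, h0, zero_smul, sub_zero]
    rw [hdec]
    apply InR.sum (D.rs.sing hu)
    intro j _
    apply hP
    rw [hmem, polar_sub_right, polar_smul_right, huv, smul_eq_mul, mul_one,
      polar_comm ⇑Q₀ u, sub_self]
  obtain ⟨a, b, hQa, hQb, hab, -, -⟩ := exists_hyp_pair Q₀ D.rs.nd₀ ∅ (by
    have := D.hn
    simp only [Finset.card_empty]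
    omega)
  have ha0 : a ≠ 0 := by
    rintro rfl
    rw [polar_zero_left] at hab
    exact zero_ne_one hab
  have hb0 : b ≠ 0 := by
    rintro rfl
    rw [polar_zero_right] at hab
    exact zero_ne_one hab
  exact commutator_le_of_fullPair Q D.rs.nd (by have := D.hn; omega) (full a hQa ha0)
    (full b hQb hb0) (by rw [D.rs.one hab]; exact one_ne_zero)

end Root

end Cfsg.Agent.Lib.Helper44.OS
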