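import Mathlib
import Cfsg.Agent.Lib.Helper44.OSRoot

/-!
Rational structures of quadratic spaces (helper44), part 3: the decomposition lemma. If the
root groups of the overgroup `M` at rational singular points are the rational ones, then an
element of `M` carrying the fixed space of one rational involution onto the fixed space of
another is a scalar multiple of a rational matrix.
-/

set_option autoImplicit false
set_option linter.unusedSectionVars false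
set_option linter.unusedVariables false

namespace Cfsg.Agent.Lib.Helper44.OS

open Module QuadraticMap
open Cfsg.Agent.Lib.Helper51 Cfsg.Agent.Lib.Helper52 Cfsg.Agent.Lib.Helper44

section Decomp

variable {ι : Type} [Fintype ι] [DecidableEq ι] {F : Type*} [Field F]
variable {Q : QuadraticForm F (ι → F)} {F₀ : Subfield F} {Q₀ : QuadraticForm F₀ (ι → F₀)}
variable {M : Subgroup ↥(Cfsg.isometryGroup F ⇑Q)}

local notation "mt(" g ")" => ((g : Matrix.GeneralLinearGroup ι F) : Matrix ι ι F)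

/-- The rational vectors fixed by a matrix. -/
def fixR (F₀ : Subfield F) (A : Matrix ι ι F) : Submodule F₀ (ι → F₀) where
  carrier := {x | A.mulVec (cv x) = cv x}
  add_mem' := by
    intro a b ha hb
    show A.mulVec (cv (a + b)) = cv (a + b)
    rw [cv_add, Matrix.mulVec_add, ha, hb]
  zero_mem' := by
    show A.mulVec (cv 0) = cv 0
    rw [cv_zero, Matrix.mulVec_zero]
  smul_mem' := by
    intro c x hx
    show A.mulVec (cv (c • x)) = cv (c • x)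
    rw [cv_smul, Matrix.mulVec_smul, hx]

theorem mem_fixR {A : Matrix ι ι F} {x : ι → F₀} : x ∈ fixR F₀ A ↔ A.mulVec (cv x) = cv x :=
  Iff.rfl

theorem mem_fixR_neg {A : Matrix ι ι F} {x : ι → F₀} :
    x ∈ fixR F₀ (-A) ↔ A.mulVec (cv x) = -cv x := by
  rw [mem_fixR, Matrix.neg_mulVec, neg_eq_iff_eq_neg]

theorem exists_cv_mulVec {A : Matrix ι ι F} (hA : ∀ i j, A i j ∈ F₀) (x : ι → F₀) :
    ∃ x' : ι → F₀, cv x' = A.mulVec (cv x) :=
  exists_cv _ (fun i => by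
    simp only [Matrix.mulVec, dotProduct]
    exact F₀.sum_mem (fun j _ => F₀.mul_mem (hA i j) (x j).2))

/-- A rational involutive isometry. -/
structure RInv (Q : QuadraticForm F (ι → F)) (F₀ : Subfield F) (A : Matrix ι ι F) : Prop where
  rat : ∀ i j, A i j ∈ F₀
  sq : A * A = 1
  iso : ∀ x, Q (A.mulVec x) = Q x

theorem RInv.pol {A : Matrix ι ι F} (I : RInv Q F₀ A) (x y : ι → F) :
    polar ⇑Q (A.mulVec x) (A.mulVec y) = polar ⇑Q x y := by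
  simp only [QuadraticMap.polar, ← Matrix.mulVec_add, I.iso]

theorem RInv.neg {A : Matrix ι ι F} (I : RInv Q F₀ A) : RInv Q F₀ (-A) where
  rat := fun i j => by rw [Matrix.neg_apply]; exact F₀.neg_mem (I.rat i j)
  sq := by rw [neg_mul_neg]; exact I.sq
  iso := fun x => by rw [Matrix.neg_mulVec, QuadraticMap.map_neg, I.iso]

theorem RInv.perp {A : Matrix ι ι F} (I : RInv Q F₀ A) (h2 : (2 : F) ≠ 0) {c m : ι → F}
    (hc : A.mulVec c = c) (hm : A.mulVec m = -m) : polar ⇑Q c m = 0 := by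
  have h := I.pol c m
  rw [hc, hm, polar_neg_right] at h
  have h3 : (2 : F) * polar ⇑Q c m = 0 := by linear_combination -h
  exact (mul_eq_zero.mp h3).resolve_left h2

theorem RInv.mulVec_mulVec {A : Matrix ι ι F} (I : RInv Q F₀ A) (x : ι → F) :
    A.mulVec (A.mulVec x) = x := by
  rw [Matrix.mulVec_mulVec, I.sq, Matrix.one_mulVec]

theorem two_ne_zero_sub (h2 : (2 : F) ≠ 0) : (2 : F₀) ≠ 0 := by
  intro h
  apply h2
  have h3 : ((1 + 1 : F₀) : F) = 0 := by rw [one_add_one_eq_two, h]; rfl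
  rw [Subfield.coe_add, Subfield.coe_one, one_add_one_eq_two] at h3
  exact h3

/-- Splitting a rational vector into its fixed and negated parts. -/
theorem RInv.split {A : Matrix ι ι F} (I : RInv Q F₀ A) (h2 : (2 : F) ≠ 0) (x : ι → F₀) :
    ∃ p ∈ fixR F₀ A, ∃ m ∈ fixR F₀ (-A), x = p + m := by
  obtain ⟨x', hx'⟩ := exists_cv_mulVec I.rat x
  have h2' : (2 : F₀) ≠ 0 := two_ne_zero_sub h2
  refine ⟨(2 : F₀)⁻¹ • (x + x'), ?_, (2 : F₀)⁻¹ • (x - x'), ?_, ?_⟩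
  · rw [mem_fixR, cv_smul, cv_add, hx', Matrix.mulVec_smul, Matrix.mulVec_add,
      I.mulVec_mulVec, add_comm]
  · rw [mem_fixR_neg, cv_smul, cv_sub, hx', Matrix.mulVec_smul, Matrix.mulVec_sub,
      I.mulVec_mulVec, ← smul_neg, neg_sub]
  · rw [← smul_add]
    have h3 : x + x' + (x - x') = (2 : F₀) • x := by rw [two_smul]; abel
    rw [h3, smul_smul, inv_mul_cancel₀ h2', one_smul]

theorem RInv.perp₀ {A : Matrix ι ι F} (I : RInv Q F₀ A) (D : RS Q F₀ Q₀) (h2 : (2 : F) ≠ 0)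
    {p m : ι → F₀} (hp : p ∈ fixR F₀ A) (hm : m ∈ fixR F₀ (-A)) : polar ⇑Q₀ p m = 0 := by
  apply Subtype.ext
  rw [← D.pol]
  exact I.perp h2 (mem_fixR.mp hp) (mem_fixR_neg.mp hm)

theorem RInv.hasProj {A : Matrix ι ι F} (I : RInv Q F₀ A) (D : RS Q F₀ Q₀) (h2 : (2 : F) ≠ 0) :
    HasProj Q₀ (fixR F₀ A) := by
  intro y
  obtain ⟨p, hp, m, hm, rfl⟩ := I.split h2 y
  refine ⟨p, hp, fun x hx => ?_⟩
  rw [polar_add_left, polar_comm ⇑Q₀ m x, I.perp₀ D h2 hx hm, add_zero]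

/-- A vector orthogonal to all rational vectors is zero. -/
theorem RS.eq_zero_of_perp_rat (D : RS Q F₀ Q₀) {c : ι → F}
    (h : ∀ b : ι → F₀, polar ⇑Q c (cv b) = 0) : c = 0 := by
  by_contra hc
  obtain ⟨y, hy⟩ := exists_polar_ne_zero Q D.nd c hc
  apply hy
  have h2 : y = ∑ j, y j • cv (Pi.single j (1 : F₀)) := by
    funext i
    simp [cv_single, Finset.sum_apply, Pi.single_apply]
  rw [h2, polar_comm, polar_sum_left]
  apply Finset.sum_eq_zero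
  intro j _
  rw [polar_smul_left, polar_comm, h, smul_zero]

/-- Independence over the subfield implies independence over the field. -/
theorem indep_cv {v v' : ι → F₀} (h : ∀ a b : F₀, a • v + b • v' = 0 → a = 0 ∧ b = 0)
    {s t : F} (hst : s • cv v + t • cv v' = 0) : s = 0 ∧ t = 0 := by
  have key : ∀ l : F →ₗ[F₀] F₀, l s = 0 ∧ l t = 0 := by
    intro l
    have h1 := congrArg (app l) hst
    rw [app_add, app_smul_cv, app_smul_cv] at h1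
    have h0 : app l (0 : ι → F) = 0 := by
      funext i
      simp [app]
    rw [h0] at h1
    exact h _ _ h1
  constructor
  · by_contra hs
    obtain ⟨l, hl⟩ := exists_fun_ne (F₀ := F₀) s hs
    exact hl (key l).1
  · by_contra ht
    obtain ⟨l, hl⟩ := exists_fun_ne (F₀ := F₀) t ht
    exact hl (key l).2

/-- The setting of the decomposition lemma. -/
structure DSet (Q : QuadraticForm F (ι → F)) (F₀ : Subfield F) (Q₀ : QuadraticForm F₀ (ι → F₀))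
    (M : Subgroup ↥(Cfsg.isometryGroup F ⇑Q)) (y : ↥(Cfsg.isometryGroup F ⇑Q))
    (A₁ A₂ : Matrix ι ι F) : Prop where
  og : OG Q F₀ Q₀ M
  hS : ∀ c : F, SP M Q₀ c → c ∈ F₀
  h2 : (2 : F) ≠ 0
  hy : y ∈ M
  i₁ : RInv Q F₀ A₁
  i₂ : RInv Q F₀ A₂
  comm : mt(y) * A₁ = A₂ * mt(y)
  d₁ : 5 ≤ finrank F₀ (fixR F₀ A₁)
  d₂ : 7 ≤ finrank F₀ (fixR F₀ A₂)
  hφ : ∃ φ : ι → F₀, φ ≠ 0 ∧ A₂.mulVec (cv φ) = -cv φ

variable {y : ↥(Cfsg.isometryGroup F ⇑Q)} {A₁ A₂ : Matrix ι ι F}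

theorem DSet.map_fix (T : DSet Q F₀ Q₀ M y A₁ A₂) {c : ι → F} (hc : A₁.mulVec c = c) :
    A₂.mulVec (mt(y).mulVec c) = mt(y).mulVec c := by
  rw [Matrix.mulVec_mulVec, ← T.comm, ← Matrix.mulVec_mulVec, hc]

theorem DSet.map_neg (T : DSet Q F₀ Q₀ M y A₁ A₂) {c : ι → F} (hc : A₁.mulVec c = -c) :
    A₂.mulVec (mt(y).mulVec c) = -(mt(y).mulVec c) := by
  rw [Matrix.mulVec_mulVec, ← T.comm, ← Matrix.mulVec_mulVec, hc, Matrix.mulVec_neg]

variable [Fintype F]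

/-- Step 1: the point of the image line orthogonal to a rational singular `p` is rational
modulo `p`. -/
theorem DSet.y1 (T : DSet Q F₀ Q₀ M y A₁ A₂) {v w p : ι → F₀} (hv : v ∈ fixR F₀ A₁)
    (hw : w ∈ fixR F₀ A₁) (hQv : Q₀ v = 0) (hQw : Q₀ w = 0) (hvw : polar ⇑Q₀ v w = 0)
    (hp : p ∈ fixR F₀ A₂) (hQp : Q₀ p = 0) (hp0 : p ≠ 0) :
    ∃ (r : ι → F₀) (π : F), polar ⇑Q (mt(y).mulVec (cv w)) (cv p) • mt(y).mulVec (cv v)
      - polar ⇑Q (mt(y).mulVec (cv v)) (cv p) • mt(y).mulVec (cv w) = cv r + π • cv p := by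
  classical
  let _ : Fintype F₀ := Fintype.ofFinite F₀
  have D := T.og
  obtain ⟨c₀, hc₀⟩ : ∃ c₀ : ι → F, c₀ = mt(y).mulVec (cv v) := ⟨_, rfl⟩
  obtain ⟨d₀, hd₀⟩ : ∃ d₀ : ι → F, d₀ = mt(y).mulVec (cv w) := ⟨_, rfl⟩
  rw [← hc₀, ← hd₀]
  have hQc : Q c₀ = 0 := by rw [hc₀, isometry_apply, D.rs.sing hQv]
  have hQd : Q d₀ = 0 := by rw [hd₀, isometry_apply, D.rs.sing hQw]
  have hcd : polar ⇑Q c₀ d₀ = 0 := by rw [hc₀, hd₀, isometry_polar, D.rs.orth hvw]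
  have hdc : polar ⇑Q d₀ c₀ = 0 := by rw [polar_comm]; exact hcd
  have hcc : polar ⇑Q c₀ c₀ = 0 := by
    rw [Cfsg.Agent.Lib.Helper51.polar_self, hQc, mul_zero]
  have hdd : polar ⇑Q d₀ d₀ = 0 := by
    rw [Cfsg.Agent.Lib.Helper51.polar_self, hQd, mul_zero]
  have hAc : A₂.mulVec c₀ = c₀ := by rw [hc₀]; exact T.map_fix (mem_fixR.mp hv)
  have hAd : A₂.mulVec d₀ = d₀ := by rw [hd₀]; exact T.map_fix (mem_fixR.mp hw)
  have hR : InR M c₀ d₀ := (D.rat hQv hvw).conj' T.hy hc₀.symm hd₀.symm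
  obtain ⟨α, hα⟩ : ∃ α : F, α = polar ⇑Q d₀ (cv p) := ⟨_, rfl⟩
  obtain ⟨β, hβ⟩ : ∃ β : F, β = -polar ⇑Q c₀ (cv p) := ⟨_, rfl⟩
  have hgoal : polar ⇑Q d₀ (cv p) • c₀ - polar ⇑Q c₀ (cv p) • d₀ = α • c₀ + β • d₀ := by
    rw [hα, hβ, neg_smul, sub_eq_add_neg]
  rw [hgoal]
  by_cases h0 : α = 0 ∧ β = 0
  · refine ⟨0, 0, ?_⟩
    rw [h0.1, h0.2, zero_smul, zero_smul, zero_smul, cv_zero, add_zero]
  obtain ⟨γ, δ, hdet⟩ : ∃ γ δ : F, α * δ - β * γ = 1 := by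
    by_cases hα0 : α = 0
    · have hβ0 : β ≠ 0 := fun h => h0 ⟨hα0, h⟩
      exact ⟨-β⁻¹, 0, by rw [mul_zero, zero_sub, mul_neg, neg_neg, mul_inv_cancel₀ hβ0]⟩
    · exact ⟨0, α⁻¹, by rw [mul_zero, sub_zero, mul_inv_cancel₀ hα0]⟩
  obtain ⟨c, hc⟩ : ∃ c : ι → F, c = α • c₀ + β • d₀ := ⟨_, rfl⟩
  obtain ⟨d, hd⟩ : ∃ d : ι → F, d = γ • c₀ + δ • d₀ := ⟨_, rfl⟩
  rw [← hc]
  have hQc' : Q c = 0 := by
    have := Q_add_smul_add_smul Q 0 c₀ d₀ α β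
    rw [zero_add] at this
    rw [hc, this, hQc, hQd, hcd, QuadraticMap.map_zero, polar_zero_left, polar_zero_left]
    ring
  have hcd' : polar ⇑Q c d = 0 := by
    rw [hc, hd]
    simp only [polar_add_left, polar_add_right, polar_smul_left, polar_smul_right, smul_eq_mul,
      hcd, hdc, hcc, hdd]
    ring
  have hRcd : InR M c d := by
    refine hR.congr hQc' hcd' ?_
    rw [hc, hd, eichMat_lincomb hQc hQd hcd, hdet, one_smul]
  obtain ⟨φ, hφ0, hφ⟩ := T.hφ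
  have hφm : φ ∈ fixR F₀ (-A₂) := mem_fixR_neg.mpr hφ
  have hc₀φ : polar ⇑Q c₀ (cv φ) = 0 := T.i₂.perp T.h2 hAc hφ
  have hd₀φ : polar ⇑Q d₀ (cv φ) = 0 := T.i₂.perp T.h2 hAd hφ
  have hcφ : polar ⇑Q (cv φ) c = 0 := by
    rw [polar_comm, hc, polar_add_left, polar_smul_left, polar_smul_left, hc₀φ, hd₀φ]
    simp
  have hdφ : polar ⇑Q (cv φ) d = 0 := by
    rw [polar_comm, hd, polar_add_left, polar_smul_left, polar_smul_left, hc₀φ, hd₀φ]
    simp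
  have hpφ : polar ⇑Q₀ p φ = 0 := T.i₂.perp₀ D.rs T.h2 hp hφm
  have hcp : polar ⇑Q (cv p) c = 0 := by
    rw [polar_comm, hc, polar_add_left, polar_smul_left, polar_smul_left, smul_eq_mul,
      smul_eq_mul]
    linear_combination α * hβ - β * hα
  have hdp : polar ⇑Q (cv p) d = 1 := by
    rw [polar_comm, hd, polar_add_left, polar_smul_left, polar_smul_left, smul_eq_mul,
      smul_eq_mul]
    linear_combination hdet + γ * hβ - δ * hα
  obtain ⟨hgc, hgo, hgm⟩ := D.rat (M := M) hQp hpφ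
  have e1 : mt(eich Q (cv p) (cv φ) hgc hgo).mulVec c = c := by
    rw [eich_apply, hcφ, hcp]
    simp
  obtain ⟨φ', hφ'⟩ : ∃ φ' : ι → F₀, φ' = φ + Q₀ φ • p := ⟨_, rfl⟩
  have e2 : mt(eich Q (cv p) (cv φ) hgc hgo).mulVec d = d - cv φ' := by
    rw [eich_apply, hdφ, hdp, hφ', cv_add, cv_smul, D.rs.val]
    module
  have hk : InR M c (-cv φ') := ((hRcd.conj' hgm e1 e2).sub hRcd).of_eq (by abel)
  obtain ⟨hkc, hko, hkm⟩ := hk
  obtain ⟨s', hs'm, hφs'⟩ := HasProj.nondeg Q₀ D.rs.nd₀ (T.i₂.neg.hasProj D.rs T.h2) hφm hφ0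
  have hps' : polar ⇑Q₀ p s' = 0 := T.i₂.perp₀ D.rs T.h2 hp hs'm
  have hR' : InR M (cv p) (cv s') := D.rat hQp hps'
  have hφ'p : polar ⇑Q₀ φ' p = 0 := by
    rw [hφ', polar_add_left, polar_smul_left, polar_comm, hpφ,
      Cfsg.Agent.Lib.Helper51.polar_self, hQp]
    simp
  have hφ's' : polar ⇑Q₀ φ' s' = polar ⇑Q₀ φ s' := by
    rw [hφ', polar_add_left, polar_smul_left, hps']
    simp
  have hcs' : polar ⇑Q c (cv s') = 0 := by
    have hAc' : A₂.mulVec c = c := by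
      rw [hc, Matrix.mulVec_add, Matrix.mulVec_smul, Matrix.mulVec_smul, hAc, hAd]
    exact T.i₂.perp T.h2 hAc' (mem_fixR_neg.mp hs'm)
  have e3 : mt(eich Q c (-cv φ') hkc hko).mulVec (cv p) = cv p := by
    rw [eich_apply, polar_neg_left, D.rs.pol, hφ'p, polar_comm ⇑Q c (cv p), hcp]
    simp
  obtain ⟨τ, hτ⟩ : ∃ τ : F₀, τ = polar ⇑Q₀ φ s' := ⟨_, rfl⟩
  have hτ0 : τ ≠ 0 := by rw [hτ]; exact hφs'
  have e4 : mt(eich Q c (-cv φ') hkc hko).mulVec (cv s') = cv s' - (τ : F) • c := by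
    rw [eich_apply, polar_neg_left, D.rs.pol, hφ's', hcs', ← hτ]
    module
  have h5 : InR M (cv p) (-((τ : F) • c)) := ((hR'.conj' hkm e3 e4).sub hR').of_eq (by abel)
  obtain ⟨w₀, t, hw⟩ := D.rat_of_inR T.hS hQp hp0 h5
  have hτF : (τ : F) ≠ 0 := fun h => hτ0 (Subtype.ext h)
  refine ⟨(-τ⁻¹) • w₀, -(τ : F)⁻¹ * t, ?_⟩
  have h6 : c = (-(τ : F)⁻¹) • (-((τ : F) • c)) := by
    rw [smul_neg, neg_smul, neg_neg, smul_smul, inv_mul_cancel₀ hτF, one_smul]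
  rw [h6, hw, cv_smul, smul_add, smul_smul]
  congr 2

/-- Step 2: the point of the image line orthogonal to a rational singular `p` (not orthogonal
to the whole line) is rational. -/
theorem DSet.y2 (T : DSet Q F₀ Q₀ M y A₁ A₂) {v w p : ι → F₀} (hv : v ∈ fixR F₀ A₁)
    (hw : w ∈ fixR F₀ A₁) (hQv : Q₀ v = 0) (hQw : Q₀ w = 0) (hvw : polar ⇑Q₀ v w = 0)
    (hp : p ∈ fixR F₀ A₂) (hQp : Q₀ p = 0)
    (hne : polar ⇑Q (mt(y).mulVec (cv v)) (cv p) ≠ 0 ∨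
      polar ⇑Q (mt(y).mulVec (cv w)) (cv p) ≠ 0) :
    ∃ (ρ : ι → F₀) (μ : F), polar ⇑Q (mt(y).mulVec (cv w)) (cv p) • mt(y).mulVec (cv v)
      - polar ⇑Q (mt(y).mulVec (cv v)) (cv p) • mt(y).mulVec (cv w) = μ • cv ρ := by
  classical
  let _ : Fintype F₀ := Fintype.ofFinite F₀
  have D := T.og
  have hp0 : p ≠ 0 := by
    rintro rfl
    rw [cv_zero, polar_zero_right, polar_zero_right] at hne
    exact hne.elim (fun h => h rfl) (fun h => h rfl)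
  obtain ⟨r, π, hrπ⟩ := T.y1 hv hw hQv hQw hvw hp hQp hp0
  obtain ⟨c₀, hc₀⟩ : ∃ c₀ : ι → F, c₀ = mt(y).mulVec (cv v) := ⟨_, rfl⟩
  obtain ⟨d₀, hd₀⟩ : ∃ d₀ : ι → F, d₀ = mt(y).mulVec (cv w) := ⟨_, rfl⟩
  rw [← hc₀, ← hd₀] at hrπ hne ⊢
  have hQc : Q c₀ = 0 := by rw [hc₀, isometry_apply, D.rs.sing hQv]
  have hQd : Q d₀ = 0 := by rw [hd₀, isometry_apply, D.rs.sing hQw]
  have hcd : polar ⇑Q c₀ d₀ = 0 := by rw [hc₀, hd₀, isometry_polar, D.rs.orth hvw]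
  have hdc : polar ⇑Q d₀ c₀ = 0 := by rw [polar_comm]; exact hcd
  have hcc : polar ⇑Q c₀ c₀ = 0 := by
    rw [Cfsg.Agent.Lib.Helper51.polar_self, hQc, mul_zero]
  have hdd : polar ⇑Q d₀ d₀ = 0 := by
    rw [Cfsg.Agent.Lib.Helper51.polar_self, hQd, mul_zero]
  have hAc : A₂.mulVec c₀ = c₀ := by rw [hc₀]; exact T.map_fix (mem_fixR.mp hv)
  have hAd : A₂.mulVec d₀ = d₀ := by rw [hd₀]; exact T.map_fix (mem_fixR.mp hw)
  obtain ⟨α, hα⟩ : ∃ α : F, α = polar ⇑Q d₀ (cv p) := ⟨_, rfl⟩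
  obtain ⟨β, hβ⟩ : ∃ β : F, β = polar ⇑Q c₀ (cv p) := ⟨_, rfl⟩
  rw [← hα, ← hβ] at hrπ hne ⊢
  obtain ⟨c, hc⟩ : ∃ c : ι → F, c = α • c₀ - β • d₀ := ⟨_, rfl⟩
  rw [← hc] at hrπ ⊢
  have hAp : A₂.mulVec (cv p) = cv p := mem_fixR.mp hp
  have hAc' : A₂.mulVec c = c := by
    rw [hc, Matrix.mulVec_sub, Matrix.mulVec_smul, Matrix.mulVec_smul, hAc, hAd]
  have hQc' : Q c = 0 := by
    have := Q_add_smul_add_smul Q 0 c₀ d₀ α (-β)
    rw [zero_add] at this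
    rw [hc, sub_eq_add_neg, ← neg_smul, this, hQc, hQd, hcd, QuadraticMap.map_zero,
      polar_zero_left, polar_zero_left]
    ring
  have hcp : polar ⇑Q c (cv p) = 0 := by
    rw [hc, polar_sub_left, polar_smul_left, polar_smul_left, smul_eq_mul, smul_eq_mul, ← hα,
      ← hβ]
    ring
  have hc₀c : polar ⇑Q c₀ c = 0 := by
    rw [hc, polar_sub_right, polar_smul_right, polar_smul_right, hcc, hcd]
    simp
  have hd₀c : polar ⇑Q d₀ c = 0 := by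
    rw [hc, polar_sub_right, polar_smul_right, polar_smul_right, hdc, hdd]
    simp
  have hr : r ∈ fixR F₀ A₂ := by
    rw [mem_fixR]
    have h1 : cv r = c - π • cv p := by rw [hrπ]; abel
    rw [h1, Matrix.mulVec_sub, Matrix.mulVec_smul, hAc', hAp]
  by_cases hπ : π ∈ F₀
  · refine ⟨r + (⟨π, hπ⟩ : F₀) • p, 1, ?_⟩
    rw [one_smul, cv_add, cv_smul, hrπ]
  have hpp : polar ⇑Q (cv p) (cv p) = 0 := by
    rw [Cfsg.Agent.Lib.Helper51.polar_self, D.rs.sing hQp, mul_zero]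
  have hrp : polar ⇑Q₀ r p = 0 := by
    apply Subtype.ext
    rw [← D.rs.pol]
    have h1 := hcp
    rw [hrπ, polar_add_left, polar_smul_left, hpp, smul_zero, add_zero] at h1
    exact h1
  have hQr : Q₀ r = 0 := by
    apply Subtype.ext
    rw [← D.rs.val]
    have h1 := hQc'
    rw [hrπ, Q_add_smul, D.rs.sing hQp, D.rs.orth hrp] at h1
    simpa using h1
  by_cases hrs : r ∈ Submodule.span F₀ ({p} : Set (ι → F₀))
  · obtain ⟨a, ha⟩ := Submodule.mem_span_singleton.mp hrs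
    refine ⟨p, (a : F) + π, ?_⟩
    rw [hrπ, ← ha, cv_smul, add_smul]
  exfalso
  have hP₂ := T.i₂.hasProj D.rs T.h2
  obtain ⟨e, x, heK, hxK, hQe, hQx, hex, heS, hxS⟩ :=
    exists_hyp_pair_in Q₀ D.rs.nd₀ hP₂ {r, p} (by
      intro s hs
      rcases Finset.mem_insert.mp hs with rfl | hs
      · exact hr
      · rw [Finset.mem_singleton] at hs
        subst hs
        exact hp) (by
      have := T.d₂
      have h2 : ({r, p} : Finset (ι → F₀)).card ≤ 2 := Finset.card_le_two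
      omega)
  obtain ⟨U, hU⟩ : ∃ U : Submodule F₀ (ι → F₀), U = fixR F₀ A₂ ⊓
      LinearMap.BilinForm.orthogonal (polarBilin Q₀)
        (Submodule.span F₀ (({r, p} : Finset (ι → F₀)) : Set (ι → F₀))) := ⟨_, rfl⟩
  have hmem : ∀ z, z ∈ U ↔ z ∈ fixR F₀ A₂ ∧ polar ⇑Q₀ r z = 0 ∧ polar ⇑Q₀ p z = 0 := by
    intro z
    rw [hU, Submodule.mem_inf, mem_orth_span]
    simp
  have hex' : ∃ p' ∈ U, Q₀ p' = 0 ∧ (∃ x' ∈ U, polar ⇑Q₀ p' x' ≠ 0) ∧
      (polar ⇑Q c₀ (cv p') ≠ 0 ∨ polar ⇑Q d₀ (cv p') ≠ 0) := by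
    by_contra hcon
    push Not at hcon
    obtain ⟨f, hf⟩ : ∃ f : (ι → F₀) →+ F × F,
        ∀ b, f b = (polar ⇑Q c₀ (cv b), polar ⇑Q d₀ (cv b)) :=
      ⟨AddMonoidHom.mk' (fun b => (polar ⇑Q c₀ (cv b), polar ⇑Q d₀ (cv b))) (by
        intro b b'
        rw [cv_add, polar_add_right, polar_add_right]
        rfl), fun b => rfl⟩
    have hz := eq_zero_of_singular Q₀ U e x
      ((hmem e).2 ⟨heK, heS r (by simp), heS p (by simp)⟩) hQe
      ((hmem x).2 ⟨hxK, hxS r (by simp), hxS p (by simp)⟩) (by rw [hex]; exact one_ne_zero) f (by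
        intro s hsU hQs hnr
        rw [hf]
        obtain ⟨h1, h2⟩ := hcon s hsU hQs hnr
        rw [h1, h2]
        rfl) r ((hmem r).2 ⟨hr, by
          rw [Cfsg.Agent.Lib.Helper51.polar_self, hQr, mul_zero], by rw [polar_comm]; exact hrp⟩)
    rw [hf] at hz
    have h1 : polar ⇑Q c₀ (cv r) = 0 := (Prod.ext_iff.mp hz).1
    have h2 : polar ⇑Q d₀ (cv r) = 0 := (Prod.ext_iff.mp hz).2
    have h3 := hc₀c
    rw [hrπ, polar_add_right, polar_smul_right, h1, zero_add, smul_eq_mul, ← hβ] at h3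
    have h4 := hd₀c
    rw [hrπ, polar_add_right, polar_smul_right, h2, zero_add, smul_eq_mul, ← hα] at h4
    have hπ0 : π ≠ 0 := fun h => hπ (by rw [h]; exact F₀.zero_mem)
    rcases hne with h | h
    · exact h ((mul_eq_zero.mp h3).resolve_left hπ0)
    · exact h ((mul_eq_zero.mp h4).resolve_left hπ0)
  obtain ⟨p', hp'U, hQp', ⟨x', hx'U, hp'x'⟩, hne'⟩ := hex'
  obtain ⟨hp'K, hrp', hpp'⟩ := (hmem p').1 hp'U
  obtain ⟨hx'K, hrx', hpx'⟩ := (hmem x').1 hx'U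
  have hp'0 : p' ≠ 0 := by
    rintro rfl
    rw [polar_zero_left] at hp'x'
    exact hp'x' rfl
  obtain ⟨r', π', hr'π'⟩ := T.y1 hv hw hQv hQw hvw hp'K hQp' hp'0
  rw [← hc₀, ← hd₀] at hr'π'
  obtain ⟨α', hα'⟩ : ∃ α' : F, α' = polar ⇑Q d₀ (cv p') := ⟨_, rfl⟩
  obtain ⟨β', hβ'⟩ : ∃ β' : F, β' = polar ⇑Q c₀ (cv p') := ⟨_, rfl⟩
  rw [← hα', ← hβ'] at hr'π' hne'
  have hcp' : polar ⇑Q c (cv p') = 0 := by
    rw [hrπ, polar_add_left, polar_smul_left, D.rs.orth hrp', D.rs.orth hpp']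
    simp
  have hrel : α * β' = β * α' := by
    have h1 := hcp'
    rw [hc, polar_sub_left, polar_smul_left, polar_smul_left, ← hβ', ← hα', smul_eq_mul,
      smul_eq_mul] at h1
    linear_combination h1
  obtain ⟨ν, hν0, hνα, hνβ⟩ : ∃ ν : F, ν ≠ 0 ∧ α' = ν * α ∧ β' = ν * β := by
    by_cases hα0 : α = 0
    · have hβ0 : β ≠ 0 := by
        rcases hne with h | h
        · exact h
        · exact absurd hα0 h
      have hα'0 : α' = 0 := by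
        rw [hα0, zero_mul] at hrel
        exact (mul_eq_zero.mp hrel.symm).resolve_left hβ0
      refine ⟨β' / β, ?_, ?_, ?_⟩
      · intro h
        have hβ'0 : β' = 0 := by
          rcases div_eq_zero_iff.mp h with h | h
          · exact h
          · exact absurd h hβ0
        rcases hne' with h | h
        · exact h hβ'0
        · exact h hα'0
      · rw [hα'0, hα0, mul_zero]
      · field_simp
    · refine ⟨α' / α, ?_, ?_, ?_⟩
      · intro h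
        have hα'0 : α' = 0 := by
          rcases div_eq_zero_iff.mp h with h | h
          · exact h
          · exact absurd h hα0
        have hβ'0 : β' = 0 := by
          rw [hα'0, mul_zero] at hrel
          exact (mul_eq_zero.mp hrel).resolve_left hα0
        rcases hne' with h | h
        · exact h hβ'0
        · exact h hα'0
      · field_simp
      · field_simp
        linear_combination hrel
  have h7 : ν • c = cv r' + π' • cv p' := by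
    rw [← hr'π', hc, hνα, hνβ]
    module
  rw [hrπ] at h7
  have h8 : ν • cv r + (ν * π) • cv p + (-π') • cv p' = cv r' := by
    calc ν • cv r + (ν * π) • cv p + (-π') • cv p'
        = ν • (cv r + π • cv p) - π' • cv p' := by module
      _ = cv r' := by rw [h7]; abel
  have hind : ∀ a b c : F₀, a • r + b • p + c • p' = 0 → a = 0 ∧ b = 0 ∧ c = 0 := by
    intro a b c h
    have h1 : polar ⇑Q₀ (a • r + b • p + c • p') x' = c * polar ⇑Q₀ p' x' := by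
      rw [polar_add_left, polar_add_left, polar_smul_left, polar_smul_left, polar_smul_left,
        hrx', hpx']
      simp
    rw [h, polar_zero_left] at h1
    have hc0 : c = 0 := (mul_eq_zero.mp h1.symm).resolve_right hp'x'
    subst hc0
    rw [zero_smul, add_zero] at h
    by_cases ha : a = 0
    · subst ha
      rw [zero_smul, zero_add] at h
      exact ⟨rfl, (smul_eq_zero.mp h).resolve_right hp0, rfl⟩
    · exfalso
      apply hrs
      rw [Submodule.mem_span_singleton]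
      refine ⟨-(a⁻¹ * b), ?_⟩
      have h2 : a • r = -(b • p) := eq_neg_of_add_eq_zero_left h
      calc (-(a⁻¹ * b)) • p = a⁻¹ • (-(b • p)) := by rw [neg_smul, smul_neg, smul_smul]
        _ = r := by rw [← h2, smul_smul, inv_mul_cancel₀ ha, one_smul]
  obtain ⟨hν, hνπ, -⟩ := coef_mem3 hind h8
  apply hπ
  have h9 : π = (ν * π) / ν := by field_simp
  rw [h9]
  exact F₀.div_mem hνπ hν

/-- Step 3: the image of a rational totally singular line is a rational line. -/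
theorem DSet.y3 (T : DSet Q F₀ Q₀ M y A₁ A₂) {v w : ι → F₀} (hv : v ∈ fixR F₀ A₁)
    (hw : w ∈ fixR F₀ A₁) (hQv : Q₀ v = 0) (hQw : Q₀ w = 0) (hvw : polar ⇑Q₀ v w = 0)
    (hli : ∀ a b : F, a • mt(y).mulVec (cv v) + b • mt(y).mulVec (cv w) = 0 → a = 0 ∧ b = 0) :
    ∃ (r₁ r₂ : ι → F₀) (a₁ b₁ a₂ b₂ e₁ e₂ : F),
      cv r₁ = a₁ • mt(y).mulVec (cv v) + b₁ • mt(y).mulVec (cv w) ∧
      cv r₂ = a₂ • mt(y).mulVec (cv v) + b₂ • mt(y).mulVec (cv w) ∧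
      mt(y).mulVec (cv v) = e₁ • cv r₁ + e₂ • cv r₂ := by
  classical
  let _ : Fintype F₀ := Fintype.ofFinite F₀
  have D := T.og
  have hP₂ := T.i₂.hasProj D.rs T.h2
  obtain ⟨e, x, heK, hxK, hQe, hQx, hex, -, -⟩ :=
    exists_hyp_pair_in Q₀ D.rs.nd₀ hP₂ ∅ (by simp) (by
      have := T.d₂
      simp only [Finset.card_empty]
      omega)
  obtain ⟨c₀, hc₀⟩ : ∃ c₀ : ι → F, c₀ = mt(y).mulVec (cv v) := ⟨_, rfl⟩
  obtain ⟨d₀, hd₀⟩ : ∃ d₀ : ι → F, d₀ = mt(y).mulVec (cv w) := ⟨_, rfl⟩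
  have hAc : A₂.mulVec c₀ = c₀ := by rw [hc₀]; exact T.map_fix (mem_fixR.mp hv)
  have hAd : A₂.mulVec d₀ = d₀ := by rw [hd₀]; exact T.map_fix (mem_fixR.mp hw)
  have hc₀0 : c₀ ≠ 0 := by
    intro h
    have h1 := hli 1 0 (by rw [← hc₀, h]; simp)
    exact one_ne_zero h1.1
  have h1 : ∃ p₁ ∈ fixR F₀ A₂, Q₀ p₁ = 0 ∧ polar ⇑Q c₀ (cv p₁) ≠ 0 := by
    by_contra hcon
    push Not at hcon
    apply hc₀0
    apply D.rs.eq_zero_of_perp_rat
    intro b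
    obtain ⟨pb, hpb, mb, hmb, rfl⟩ := T.i₂.split T.h2 b
    rw [cv_add, polar_add_right, T.i₂.perp T.h2 hAc (mem_fixR_neg.mp hmb), add_zero]
    obtain ⟨f, hf⟩ : ∃ f : (ι → F₀) →+ F, ∀ b, f b = polar ⇑Q c₀ (cv b) :=
      ⟨AddMonoidHom.mk' (fun b => polar ⇑Q c₀ (cv b)) (by
        intro b b'
        rw [cv_add, polar_add_right]), fun b => rfl⟩
    have h3 := eq_zero_of_singular Q₀ (fixR F₀ A₂) e x heK hQe hxK
      (by rw [hex]; exact one_ne_zero) f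
      (fun s hs hQs _ => by rw [hf]; exact hcon s hs hQs) pb hpb
    rwa [hf] at h3
  obtain ⟨p₁, hp₁K, hQp₁, hcp₁⟩ := h1
  obtain ⟨ρ₁, μ₁, h₁⟩ := T.y2 hv hw hQv hQw hvw hp₁K hQp₁ (Or.inl (by rw [← hc₀]; exact hcp₁))
  rw [← hc₀, ← hd₀] at h₁ hli ⊢
  have hμ₁ : μ₁ ≠ 0 := by
    rintro rfl
    rw [zero_smul, sub_eq_add_neg, ← neg_smul] at h₁
    exact hcp₁ (neg_eq_zero.mp (hli _ _ h₁).2)
  obtain ⟨a₁, ha₁⟩ : ∃ a₁ : F, a₁ = μ₁⁻¹ * polar ⇑Q d₀ (cv p₁) := ⟨_, rfl⟩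
  obtain ⟨b₁, hb₁⟩ : ∃ b₁ : F, b₁ = -(μ₁⁻¹ * polar ⇑Q c₀ (cv p₁)) := ⟨_, rfl⟩
  have hb₁0 : b₁ ≠ 0 := by
    rw [hb₁]
    exact neg_ne_zero.mpr (mul_ne_zero (inv_ne_zero hμ₁) hcp₁)
  have hρ₁ : cv ρ₁ = a₁ • c₀ + b₁ • d₀ := by
    have h3 : cv ρ₁ = μ₁⁻¹ • (μ₁ • cv ρ₁) := by
      rw [smul_smul, inv_mul_cancel₀ hμ₁, one_smul]
    rw [h3, ← h₁, ha₁, hb₁]
    module
  have hρ₁K : ρ₁ ∈ fixR F₀ A₂ := by
    rw [mem_fixR, hρ₁, Matrix.mulVec_add, Matrix.mulVec_smul, Matrix.mulVec_smul, hAc, hAd]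
  have hρ₁0 : ρ₁ ≠ 0 := by
    rintro rfl
    rw [cv_zero] at hρ₁
    exact hb₁0 (hli _ _ hρ₁.symm).2
  have h2 : ∃ p₂ ∈ fixR F₀ A₂, Q₀ p₂ = 0 ∧ polar ⇑Q₀ ρ₁ p₂ ≠ 0 := by
    by_contra hcon
    push Not at hcon
    obtain ⟨z, hzK, hz⟩ := HasProj.nondeg Q₀ D.rs.nd₀ hP₂ hρ₁K hρ₁0
    apply hz
    exact eq_zero_of_singular Q₀ (fixR F₀ A₂) e x heK hQe hxK
      (by rw [hex]; exact one_ne_zero) (polarBilin Q₀ ρ₁).toAddMonoidHom
      (fun s hs hQs _ => hcon s hs hQs) z hzK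
  obtain ⟨p₂, hp₂K, hQp₂, hρ₁p₂⟩ := h2
  have hρ₁p₂' : polar ⇑Q (cv ρ₁) (cv p₂) ≠ 0 := by
    rw [D.rs.pol]
    exact fun h => hρ₁p₂ (Subtype.ext h)
  have hne₂ : polar ⇑Q c₀ (cv p₂) ≠ 0 ∨ polar ⇑Q d₀ (cv p₂) ≠ 0 := by
    by_contra hcon
    push Not at hcon
    apply hρ₁p₂'
    rw [hρ₁, polar_add_left, polar_smul_left, polar_smul_left, hcon.1, hcon.2]
    simp
  obtain ⟨ρ₂, μ₂, h₂⟩ := T.y2 hv hw hQv hQw hvw hp₂K hQp₂ (by rw [← hc₀, ← hd₀]; exact hne₂)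
  rw [← hc₀, ← hd₀] at h₂
  have hμ₂ : μ₂ ≠ 0 := by
    rintro rfl
    rw [zero_smul, sub_eq_add_neg, ← neg_smul] at h₂
    have h3 := hli _ _ h₂
    rcases hne₂ with h | h
    · exact h (neg_eq_zero.mp h3.2)
    · exact h h3.1
  obtain ⟨a₂, ha₂⟩ : ∃ a₂ : F, a₂ = μ₂⁻¹ * polar ⇑Q d₀ (cv p₂) := ⟨_, rfl⟩
  obtain ⟨b₂, hb₂⟩ : ∃ b₂ : F, b₂ = -(μ₂⁻¹ * polar ⇑Q c₀ (cv p₂)) := ⟨_, rfl⟩
  have hρ₂ : cv ρ₂ = a₂ • c₀ + b₂ • d₀ := by
    have h3 : cv ρ₂ = μ₂⁻¹ • (μ₂ • cv ρ₂) := by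
      rw [smul_smul, inv_mul_cancel₀ hμ₂, one_smul]
    rw [h3, ← h₂, ha₂, hb₂]
    module
  have hρ₂p₂ : polar ⇑Q (cv ρ₂) (cv p₂) = 0 := by
    rw [hρ₂, polar_add_left, polar_smul_left, polar_smul_left, ha₂, hb₂, smul_eq_mul,
      smul_eq_mul]
    ring
  have hρ₂0 : cv ρ₂ ≠ 0 := by
    intro h
    rw [h] at hρ₂
    have h3 := hli _ _ hρ₂.symm
    have h4 : polar ⇑Q d₀ (cv p₂) = 0 := by
      have h5 := h3.1
      rw [ha₂] at h5
      exact (mul_eq_zero.mp h5).resolve_left (inv_ne_zero hμ₂)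
    have h5 : polar ⇑Q c₀ (cv p₂) = 0 := by
      have h6 := h3.2
      rw [hb₂, neg_eq_zero] at h6
      exact (mul_eq_zero.mp h6).resolve_left (inv_ne_zero hμ₂)
    rcases hne₂ with h | h
    · exact h h5
    · exact h h4
  obtain ⟨Δ, hΔ⟩ : ∃ Δ : F, Δ = a₁ * b₂ - a₂ * b₁ := ⟨_, rfl⟩
  have hΔ0 : Δ ≠ 0 := by
    intro h0
    have h3 : b₂ • cv ρ₁ - b₁ • cv ρ₂ = 0 := by
      rw [hρ₁, hρ₂]
      have h4 : b₂ • (a₁ • c₀ + b₁ • d₀) - b₁ • (a₂ • c₀ + b₂ • d₀) = Δ • c₀ := by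
        rw [hΔ]
        module
      rw [h4, h0, zero_smul]
    have h4 : polar ⇑Q (b₂ • cv ρ₁ - b₁ • cv ρ₂) (cv p₂) = b₂ * polar ⇑Q (cv ρ₁) (cv p₂) := by
      rw [polar_sub_left, polar_smul_left, polar_smul_left, hρ₂p₂]
      simp
    rw [h3, polar_zero_left] at h4
    have hb₂0 : b₂ = 0 := (mul_eq_zero.mp h4.symm).resolve_right hρ₁p₂'
    rw [hb₂0, zero_smul, zero_sub, neg_eq_zero] at h3
    exact hρ₂0 ((smul_eq_zero.mp h3).resolve_left hb₁0)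
  refine ⟨ρ₁, ρ₂, a₁, b₁, a₂, b₂, b₂ / Δ, -b₁ / Δ, hρ₁, hρ₂, ?_⟩
  rw [hρ₁, hρ₂]
  have h5 : (b₂ / Δ) • (a₁ • c₀ + b₁ • d₀) + (-b₁ / Δ) • (a₂ • c₀ + b₂ • d₀)
      = ((a₁ * b₂ - a₂ * b₁) / Δ) • c₀ := by
    module
  rw [h5, ← hΔ, div_self hΔ0, one_smul]

/-- Step 4: the image of a rational singular point of the fixed space is rational. -/
theorem DSet.y4 (T : DSet Q F₀ Q₀ M y A₁ A₂) {v : ι → F₀} (hv : v ∈ fixR F₀ A₁)
    (hQv : Q₀ v = 0) (hv0 : v ≠ 0) :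
    ∃ (ρ : ι → F₀) (γ : F), mt(y).mulVec (cv v) = γ • cv ρ := by
  classical
  let _ : Fintype F₀ := Fintype.ofFinite F₀
  have D := T.og
  have hP₁ := T.i₁.hasProj D.rs T.h2
  obtain ⟨w, w', hwK, hw'K, hQw, hQw', hww', hwS, hw'S⟩ :=
    exists_hyp_pair_in Q₀ D.rs.nd₀ hP₁ {v} (by simpa using hv) (by
      have := T.d₁
      simp only [Finset.card_singleton]
      omega)
  have hvw : polar ⇑Q₀ v w = 0 := hwS v (by simp)
  have hvw' : polar ⇑Q₀ v w' = 0 := hw'S v (by simp)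
  obtain ⟨c₀, hc₀⟩ : ∃ c₀ : ι → F, c₀ = mt(y).mulVec (cv v) := ⟨_, rfl⟩
  obtain ⟨d₁, hd₁⟩ : ∃ d₁ : ι → F, d₁ = mt(y).mulVec (cv w) := ⟨_, rfl⟩
  obtain ⟨d₂, hd₂⟩ : ∃ d₂ : ι → F, d₂ = mt(y).mulVec (cv w') := ⟨_, rfl⟩
  have hc₀0 : c₀ ≠ 0 := by rw [hc₀]; exact mulVec_ne_zero Q y _ (cv_ne_zero hv0)
  have p11 : polar ⇑Q c₀ d₁ = 0 := by rw [hc₀, hd₁, isometry_polar, D.rs.orth hvw]
  have p12 : polar ⇑Q c₀ d₂ = 0 := by rw [hc₀, hd₂, isometry_polar, D.rs.orth hvw']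
  have p21 : polar ⇑Q d₁ d₂ = 1 := by rw [hd₁, hd₂, isometry_polar, D.rs.one hww']
  have pd1 : polar ⇑Q d₁ d₁ = 0 := by
    rw [Cfsg.Agent.Lib.Helper51.polar_self, hd₁, isometry_apply, D.rs.sing hQw, mul_zero]
  have pd2 : polar ⇑Q d₂ d₂ = 0 := by
    rw [Cfsg.Agent.Lib.Helper51.polar_self, hd₂, isometry_apply, D.rs.sing hQw', mul_zero]
  have hind : ∀ a b c : F, a • c₀ + b • d₁ + c • d₂ = 0 → a = 0 ∧ b = 0 ∧ c = 0 := by
    intro a b c h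
    have h1 : polar ⇑Q (a • c₀ + b • d₁ + c • d₂) d₁ = c := by
      rw [polar_add_left, polar_add_left, polar_smul_left, polar_smul_left, polar_smul_left,
        p11, pd1, polar_comm ⇑Q d₂ d₁, p21]
      simp
    have h2 : polar ⇑Q (a • c₀ + b • d₁ + c • d₂) d₂ = b := by
      rw [polar_add_left, polar_add_left, polar_smul_left, polar_smul_left, polar_smul_left,
        p12, p21, pd2]
      simp
    rw [h, polar_zero_left] at h1 h2
    subst h1 h2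
    rw [zero_smul, zero_smul, add_zero, add_zero] at h
    exact ⟨(smul_eq_zero.mp h).resolve_right hc₀0, rfl, rfl⟩
  obtain ⟨r₁, r₂, a₁, b₁, a₂, b₂, e₁, e₂, hr₁, hr₂, hce⟩ := T.y3 hv hwK hQv hQw hvw (by
    rw [← hc₀, ← hd₁]
    intro a b h
    have h1 := hind a b 0 (by rw [zero_smul, add_zero]; exact h)
    exact ⟨h1.1, h1.2.1⟩)
  obtain ⟨r₁', r₂', a₁', b₁', a₂', b₂', e₁', e₂', hr₁', hr₂', hce'⟩ :=
    T.y3 hv hw'K hQv hQw' hvw' (by
      rw [← hc₀, ← hd₂]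
      intro a b h
      have h1 := hind a 0 b (by rw [zero_smul, add_zero]; exact h)
      exact ⟨h1.1, h1.2.2⟩)
  rw [← hc₀, ← hd₁] at hr₁ hr₂
  rw [← hc₀] at hce hce'
  rw [← hc₀, ← hd₂] at hr₁' hr₂'
  rw [← hc₀]
  obtain ⟨i, hi⟩ := Function.ne_iff.mp hc₀0
  obtain ⟨l, hl⟩ := exists_fun_ne (F₀ := F₀) (c₀ i) hi
  obtain ⟨ρ, hρ⟩ : ∃ ρ : ι → F₀, ρ = app l c₀ := ⟨_, rfl⟩
  have hρ0 : ρ ≠ 0 := by
    intro h
    apply hl
    have h1 := congrFun h i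
    rw [hρ] at h1
    exact h1
  have h1 : ρ = l e₁ • r₁ + l e₂ • r₂ := by
    rw [hρ]
    nth_rewrite 1 [hce]
    rw [app_add, app_smul_cv, app_smul_cv]
  have h2 : ρ = l e₁' • r₁' + l e₂' • r₂' := by
    rw [hρ]
    nth_rewrite 1 [hce']
    rw [app_add, app_smul_cv, app_smul_cv]
  obtain ⟨X, hX⟩ : ∃ X : F, X = (l e₁ : F) * a₁ + (l e₂ : F) * a₂ := ⟨_, rfl⟩
  obtain ⟨Z, hZ⟩ : ∃ Z : F, Z = (l e₁ : F) * b₁ + (l e₂ : F) * b₂ := ⟨_, rfl⟩
  obtain ⟨X', hX'⟩ : ∃ X' : F, X' = (l e₁' : F) * a₁' + (l e₂' : F) * a₂' := ⟨_, rfl⟩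
  obtain ⟨Z', hZ'⟩ : ∃ Z' : F, Z' = (l e₁' : F) * b₁' + (l e₂' : F) * b₂' := ⟨_, rfl⟩
  have h3 : cv ρ = X • c₀ + Z • d₁ := by
    rw [h1, cv_add, cv_smul, cv_smul, hr₁, hr₂, hX, hZ]
    module
  have h4 : cv ρ = X' • c₀ + Z' • d₂ := by
    rw [h2, cv_add, cv_smul, cv_smul, hr₁', hr₂', hX', hZ']
    module
  have h5 : (X - X') • c₀ + Z • d₁ + (-Z') • d₂ = 0 := by
    have h6 : X • c₀ + Z • d₁ = X' • c₀ + Z' • d₂ := by rw [← h3, ← h4]
    calc (X - X') • c₀ + Z • d₁ + (-Z') • d₂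
        = (X • c₀ + Z • d₁) - (X' • c₀ + Z' • d₂) := by module
      _ = 0 := by rw [h6, sub_self]
  have hZ0 : Z = 0 := (hind _ _ _ h5).2.1
  rw [hZ0, zero_smul, add_zero] at h3
  have hX0 : X ≠ 0 := by
    intro h
    rw [h, zero_smul] at h3
    exact hρ0 (cv_eq_zero h3)
  refine ⟨ρ, X⁻¹, ?_⟩
  rw [h3, smul_smul, inv_mul_cancel₀ hX0, one_smul]

/-- Step 5: on the rational fixed space of `A₁`, the element `y` is a fixed scalar times a
rational map. -/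
theorem DSet.y5 (T : DSet Q F₀ Q₀ M y A₁ A₂) :
    ∃ γ : F, γ ≠ 0 ∧ ∀ x ∈ fixR F₀ A₁, ∃ x' : ι → F₀, mt(y).mulVec (cv x) = γ • cv x' := by
  classical
  let _ : Fintype F₀ := Fintype.ofFinite F₀
  have D := T.og
  have hP₁ := T.i₁.hasProj D.rs T.h2
  obtain ⟨e, f, heK, hfK, hQe, hQf, hef, -, -⟩ :=
    exists_hyp_pair_in Q₀ D.rs.nd₀ hP₁ ∅ (by simp) (by
      have := T.d₁
      simp only [Finset.card_empty]
      omega)
  have he0 : e ≠ 0 := by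
    rintro rfl
    rw [polar_zero_left] at hef
    exact zero_ne_one hef
  obtain ⟨ρe, γ, hγ⟩ := T.y4 heK hQe he0
  have hγ0 : γ ≠ 0 := by
    rintro rfl
    rw [zero_smul] at hγ
    exact mulVec_ne_zero Q y _ (cv_ne_zero he0) hγ
  have step : ∀ v v' : ι → F₀, v ∈ fixR F₀ A₁ → v' ∈ fixR F₀ A₁ → Q₀ v = 0 → Q₀ v' = 0 →
      v ≠ 0 → v' ≠ 0 → polar ⇑Q₀ v v' = 0 →
      (∃ x' : ι → F₀, mt(y).mulVec (cv v) = γ • cv x') →
      ∃ x' : ι → F₀, mt(y).mulVec (cv v') = γ • cv x' := by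
    intro v v' hv hv' hQv hQv' hv0 hv'0 hvv' ⟨ρ, hρ⟩
    by_cases hdep : ∃ a : F₀, v' = a • v
    · obtain ⟨a, rfl⟩ := hdep
      exact ⟨a • ρ, by rw [cv_smul, Matrix.mulVec_smul, hρ, cv_smul, smul_comm]⟩
    push Not at hdep
    have hind : ∀ a b : F₀, a • v + b • v' = 0 → a = 0 ∧ b = 0 := by
      intro a b h
      have hb : b = 0 := by
        by_contra hb
        apply hdep (-(b⁻¹ * a))
        have h2 : b • v' = -(a • v) := eq_neg_of_add_eq_zero_right h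
        calc v' = b⁻¹ • (b • v') := by rw [smul_smul, inv_mul_cancel₀ hb, one_smul]
          _ = (-(b⁻¹ * a)) • v := by rw [h2, smul_neg, smul_smul, neg_smul]
      subst hb
      rw [zero_smul, add_zero] at h
      exact ⟨(smul_eq_zero.mp h).resolve_right hv0, rfl⟩
    obtain ⟨ρ', γ', hρ'⟩ := T.y4 hv' hQv' hv'0
    have hs0 : v + v' ≠ 0 := by
      intro h
      have := hind 1 1 (by rw [one_smul, one_smul]; exact h)
      exact one_ne_zero this.1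
    have hQs : Q₀ (v + v') = 0 := by
      have h1 : Q₀ (v + v') = Q₀ v + Q₀ v' + polar ⇑Q₀ v v' := by
        simp only [polar]; ring
      rw [h1, hQv, hQv', hvv']; simp
    obtain ⟨ρ'', γ'', hρ''⟩ := T.y4 (Submodule.add_mem _ hv hv') hQs hs0
    have hγ''0 : γ'' ≠ 0 := by
      rintro rfl
      rw [zero_smul] at hρ''
      exact mulVec_ne_zero Q y _ (cv_ne_zero hs0) hρ''
    have hγ'0 : γ' ≠ 0 := by
      rintro rfl
      rw [zero_smul] at hρ'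
      exact mulVec_ne_zero Q y _ (cv_ne_zero hv'0) hρ'
    have hindρ : ∀ a b : F₀, a • ρ + b • ρ' = 0 → a = 0 ∧ b = 0 := by
      intro a b h
      have h1 : mt(y).mulVec (((a : F) * γ⁻¹) • cv v + ((b : F) * γ'⁻¹) • cv v') = 0 := by
        rw [Matrix.mulVec_add, Matrix.mulVec_smul, Matrix.mulVec_smul, hρ, hρ', smul_smul,
          smul_smul, mul_assoc, mul_assoc, inv_mul_cancel₀ hγ0, inv_mul_cancel₀ hγ'0, mul_one,
          mul_one, ← cv_smul, ← cv_smul, ← cv_add, h, cv_zero]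
      have h2 : ((a : F) * γ⁻¹) • cv v + ((b : F) * γ'⁻¹) • cv v' = 0 := by
        by_contra hne
        exact mulVec_ne_zero Q y _ hne h1
      obtain ⟨h3, h4⟩ := indep_cv hind h2
      have h5 : (a : F) = 0 := (mul_eq_zero.mp h3).resolve_right (inv_ne_zero hγ0)
      have h6 : (b : F) = 0 := (mul_eq_zero.mp h4).resolve_right (inv_ne_zero hγ'0)
      exact ⟨Subtype.ext h5, Subtype.ext h6⟩
    have h7 : (γ''⁻¹ * γ) • cv ρ + (γ''⁻¹ * γ') • cv ρ' = cv ρ'' := by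
      have h8 : cv ρ'' = γ''⁻¹ • (γ'' • cv ρ'') := by
        rw [smul_smul, inv_mul_cancel₀ hγ''0, one_smul]
      rw [h8, ← hρ'', cv_add, Matrix.mulVec_add, hρ, hρ', smul_add, smul_smul, smul_smul]
    obtain ⟨ha, hb⟩ := coef_mem2 hindρ h7
    have ha0 : γ''⁻¹ * γ ≠ 0 := mul_ne_zero (inv_ne_zero hγ''0) hγ0
    refine ⟨((⟨γ''⁻¹ * γ, ha⟩ : F₀)⁻¹ * (⟨γ''⁻¹ * γ', hb⟩ : F₀)) • ρ', ?_⟩
    rw [hρ', cv_smul, smul_smul]
    congr 1
    show γ' = γ * ((γ''⁻¹ * γ)⁻¹ * (γ''⁻¹ * γ'))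
    field_simp
  have gen : ∀ v v' : ι → F₀, v ∈ fixR F₀ A₁ → v' ∈ fixR F₀ A₁ → Q₀ v = 0 → Q₀ v' = 0 →
      v ≠ 0 → v' ≠ 0 →
      (∃ x' : ι → F₀, mt(y).mulVec (cv v) = γ • cv x') →
      ∃ x' : ι → F₀, mt(y).mulVec (cv v') = γ • cv x' := by
    intro v v' hv hv' hQv hQv' hv0 hv'0 h
    obtain ⟨x, hxK, hx0, hQx, hxS⟩ :=
      exists_singular_in_perp Q₀ D.rs.nd₀ (fixR F₀ A₁) {v, v'} (by
        have := T.d₁
        have h2 : ({v, v'} : Finset (ι → F₀)).card ≤ 2 := Finset.card_le_two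
        omega)
    have hvx : polar ⇑Q₀ v x = 0 := hxS v (by simp)
    have hv'x : polar ⇑Q₀ v' x = 0 := hxS v' (by simp)
    exact step x v' hxK hv' hQx hQv' hx0 hv'0 (by rw [polar_comm]; exact hv'x)
      (step v x hv hxK hQv hQx hv0 hx0 hvx h)
  refine ⟨γ, hγ0, ?_⟩
  let C : AddSubgroup (ι → F₀) :=
    { carrier := {x | ∃ x' : ι → F₀, mt(y).mulVec (cv x) = γ • cv x'}
      add_mem' := by
        rintro a b ⟨a', ha⟩ ⟨b', hb⟩
        exact ⟨a' + b', by rw [cv_add, Matrix.mulVec_add, ha, hb, cv_add, smul_add]⟩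
      zero_mem' := ⟨0, by rw [cv_zero, Matrix.mulVec_zero, smul_zero]⟩
      neg_mem' := by
        rintro a ⟨a', ha⟩
        exact ⟨-a', by rw [cv_neg, Matrix.mulVec_neg, ha, cv_neg, smul_neg]⟩ }
  intro x hx
  have h := mem_closure_singular Q₀ (fixR F₀ A₁) e f heK hQe hfK
    (by rw [hef]; exact one_ne_zero) x hx
  have hle : AddSubgroup.closure
      {s : ι → F₀ | s ∈ fixR F₀ A₁ ∧ Q₀ s = 0 ∧ ∃ x' ∈ fixR F₀ A₁, polar ⇑Q₀ s x' ≠ 0} ≤ C := by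
    rw [AddSubgroup.closure_le]
    rintro s ⟨hsK, hQs, x', hx'K, hsx'⟩
    have hs0 : s ≠ 0 := by
      rintro rfl
      rw [polar_zero_left] at hsx'
      exact hsx' rfl
    exact gen e s heK hsK hQe hQs he0 hs0 ⟨ρe, hγ⟩
  exact hle h

/-- The decomposition lemma: `y` is a scalar multiple of a rational matrix. -/
theorem DSet.main (T : DSet Q F₀ Q₀ M y A₁ A₂) :
    ∃ c : F, c ≠ 0 ∧ ∀ i j, c * mt(y) i j ∈ F₀ := by
  classical
  let _ : Fintype F₀ := Fintype.ofFinite F₀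
  have D := T.og
  have hP₁ := T.i₁.hasProj D.rs T.h2
  obtain ⟨γ, hγ0, hγ⟩ := T.y5
  obtain ⟨e, f, heK, hfK, hQe, hQf, hef, -, -⟩ :=
    exists_hyp_pair_in Q₀ D.rs.nd₀ hP₁ ∅ (by simp) (by
      have := T.d₁
      simp only [Finset.card_empty]
      omega)
  obtain ⟨u, huK, hu0, hQu, huS⟩ :=
    exists_singular_in_perp Q₀ D.rs.nd₀ (fixR F₀ A₁) {e, f} (by
      have := T.d₁
      have h2 : ({e, f} : Finset (ι → F₀)).card ≤ 2 := Finset.card_le_two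
      omega)
  have heu : polar ⇑Q₀ e u = 0 := huS e (by simp)
  have hfu : polar ⇑Q₀ f u = 0 := huS f (by simp)
  have hue : polar ⇑Q₀ u e = 0 := by rw [polar_comm]; exact heu
  have huf : polar ⇑Q₀ u f = 0 := by rw [polar_comm]; exact hfu
  obtain ⟨u', hu'⟩ := hγ u huK
  obtain ⟨e', he'⟩ := hγ e heK
  have hu'0 : u' ≠ 0 := by
    rintro rfl
    rw [cv_zero, smul_zero] at hu'
    exact mulVec_ne_zero Q y _ (cv_ne_zero hu0) hu'
  have hQu' : Q₀ u' = 0 := by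
    apply Subtype.ext
    rw [← D.rs.val]
    have h1 : Q (mt(y).mulVec (cv u)) = 0 := by rw [isometry_apply, D.rs.sing hQu]
    rw [hu', QuadraticMap.map_smul, smul_eq_mul] at h1
    exact (mul_eq_zero.mp h1).resolve_left (mul_ne_zero hγ0 hγ0)
  have hu'K : A₂.mulVec (cv u') = cv u' := by
    have h := T.map_fix (mem_fixR.mp huK)
    rw [hu', Matrix.mulVec_smul] at h
    exact smul_right_injective _ hγ0 h
  have hγγ : γ * γ ∈ F₀ := by
    have hR := ((D.rat (M := M) hQu hue).conj' T.hy hu' he').smul_left (D.rs.sing hQu')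
    obtain ⟨w₀, t, hw⟩ := D.rat_of_inR T.hS hQu' hu'0 hR
    have hind : ∀ a b : F₀, a • e' + b • u' = 0 → a = 0 ∧ b = 0 := by
      intro a b h
      have h1 : mt(y).mulVec (cv (a • e + b • u)) = 0 := by
        rw [cv_add, cv_smul, cv_smul, Matrix.mulVec_add, Matrix.mulVec_smul, Matrix.mulVec_smul,
          he', hu', smul_comm _ γ, smul_comm _ γ, ← smul_add, ← cv_smul, ← cv_smul, ← cv_add, h,
          cv_zero, smul_zero]
      have h2 : a • e + b • u = 0 := by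
        by_contra hne
        exact mulVec_ne_zero Q y _ (cv_ne_zero hne) h1
      have h3 : polar ⇑Q₀ (a • e + b • u) f = a := by
        rw [polar_add_left, polar_smul_left, polar_smul_left, hef, huf]
        simp
      rw [h2, polar_zero_left] at h3
      subst h3
      rw [zero_smul, zero_add] at h2
      exact ⟨rfl, (smul_eq_zero.mp h2).resolve_right hu0⟩
    have h4 : (γ * γ) • cv e' + (-t) • cv u' = cv w₀ := by
      rw [← smul_smul, hw]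
      module
    exact (coef_mem2 hind h4).1
  have hneg : ∀ m ∈ fixR F₀ (-A₁), ∃ m' : ι → F₀, (2 * γ) • mt(y).mulVec (cv m) = cv m' := by
    intro m hm
    obtain ⟨q, hq⟩ : ∃ q : F₀, q = Q₀ m := ⟨_, rfl⟩
    obtain ⟨ap, hap⟩ : ∃ ap : ι → F₀, ap = e - q • f := ⟨_, rfl⟩
    have hapK : ap ∈ fixR F₀ A₁ := by
      rw [hap]
      exact Submodule.sub_mem _ heK (Submodule.smul_mem _ _ hfK)
    obtain ⟨a', ha'⟩ := hγ ap hapK
    have ha'K : A₂.mulVec (cv a') = cv a' := by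
      have h := T.map_fix (mem_fixR.mp hapK)
      rw [ha', Matrix.mulVec_smul] at h
      exact smul_right_injective _ hγ0 h
    have hpm : polar ⇑Q₀ ap m = 0 := T.i₁.perp₀ D.rs T.h2 hapK hm
    have hQap : Q₀ ap = -q := by
      rw [hap, sub_eq_add_neg, ← neg_smul, Q_add_smul, hQe, hQf, hef]
      ring
    have hQa : Q₀ (ap + m) = 0 := by
      have h1 : Q₀ (ap + m) = Q₀ ap + Q₀ m + polar ⇑Q₀ ap m := by
        simp only [polar]; ring
      rw [h1, hQap, hpm, ← hq]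
      ring
    have hua : polar ⇑Q₀ u (ap + m) = 0 := by
      rw [polar_add_right, T.i₁.perp₀ D.rs T.h2 huK hm, hap, polar_sub_right, polar_smul_right,
        hue, huf]
      simp
    have hya : mt(y).mulVec (cv (ap + m)) = γ • cv a' + mt(y).mulVec (cv m) := by
      rw [cv_add, Matrix.mulVec_add, ha']
    have hR := ((D.rat (M := M) hQu hua).conj' T.hy hu' hya).smul_left (D.rs.sing hQu')
    obtain ⟨w₀, t, hw⟩ := D.rat_of_inR T.hS hQu' hu'0 hR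
    obtain ⟨w₁, hw₁⟩ := exists_cv_mulVec T.i₂.rat w₀
    have hAm : A₂.mulVec (mt(y).mulVec (cv m)) = -(mt(y).mulVec (cv m)) :=
      T.map_neg (mem_fixR_neg.mp hm)
    have h1 := congrArg A₂.mulVec hw
    rw [Matrix.mulVec_smul, Matrix.mulVec_add, Matrix.mulVec_smul, ha'K, hAm,
      Matrix.mulVec_add, Matrix.mulVec_smul, hu'K, ← hw₁] at h1
    refine ⟨w₀ - w₁, ?_⟩
    rw [cv_sub]
    have h2 : (2 * γ) • mt(y).mulVec (cv m)
        = γ • (γ • cv a' + mt(y).mulVec (cv m))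
          - γ • (γ • cv a' + -(mt(y).mulVec (cv m))) := by
      module
    rw [h2, hw, h1]
    abel
  have h2F : (2 : F) ∈ F₀ := by
    rw [← one_add_one_eq_two]
    exact F₀.add_mem F₀.one_mem F₀.one_mem
  have hall : ∀ x : ι → F₀, ∃ x' : ι → F₀, mt(y).mulVec (cv x) = γ • cv x' := by
    intro x
    obtain ⟨p, hp, m, hm, rfl⟩ := T.i₁.split T.h2 x
    obtain ⟨p', hp'⟩ := hγ p hp
    obtain ⟨m', hm'⟩ := hneg m hm
    have hk : 2 * (γ * γ) ∈ F₀ := F₀.mul_mem h2F hγγ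
    have hk0 : 2 * (γ * γ) ≠ 0 := mul_ne_zero T.h2 (mul_ne_zero hγ0 hγ0)
    refine ⟨p' + (⟨2 * (γ * γ), hk⟩ : F₀)⁻¹ • m', ?_⟩
    rw [cv_add, Matrix.mulVec_add, hp', cv_add, cv_smul, smul_add, ← hm']
    congr 1
    rw [smul_smul, smul_smul]
    have h3 : γ * (2 * (γ * γ))⁻¹ * (2 * γ) = 1 := by
      have h2' := T.h2
      field_simp
    have h4 : γ * (((⟨2 * (γ * γ), hk⟩ : F₀)⁻¹ : F₀) : F) * (2 * γ) = 1 := h3
    rw [h4, one_smul]
  refine ⟨γ⁻¹, inv_ne_zero hγ0, ?_⟩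
  intro i j
  obtain ⟨x', hx'⟩ := hall (Pi.single j (1 : F₀))
  rw [cv_single, Matrix.mulVec_single_one] at hx'
  have h3 : mt(y) i j = γ * (x' i : F) := congrFun hx' i
  rw [h3, ← mul_assoc, inv_mul_cancel₀ hγ0, one_mul]
  exact (x' i).2

end Decomp

end Cfsg.Agent.Lib.Helper44.OS
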