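import Mathlib
import Cfsg.Agent.Lib.Helper44.OSDecomp
import Cfsg.Agent.Lib.Helper44.SubfUnitary
import Cfsg.Agent.Lib.Helper50.SubfMax
import Cfsg.Agent.Lib.Helper7.OmegaCenter

/-!
Rational structures of quadratic spaces (helper44), part 4: the dihedral argument. In odd
dimension and odd characteristic, an overgroup `M ≤ Ω` of the rational part of `Ω` whose
parameter ring is the subfield consists of scalar multiples of rational matrices.
-/

set_option autoImplicit false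
set_option linter.unusedSectionVars false
set_option linter.unusedVariables false

namespace Cfsg.Agent.Lib.Helper44.OS

open Module QuadraticMap
open Cfsg.Agent.Lib.Helper51 Cfsg.Agent.Lib.Helper52 Cfsg.Agent.Lib.Helper44

section Dihedral

variable {ι : Type} [Fintype ι] [DecidableEq ι] {F : Type*} [Field F]
variable {Q : QuadraticForm F (ι → F)} {F₀ : Subfield F} {Q₀ : QuadraticForm F₀ (ι → F₀)}
variable {M : Subgroup ↥(Cfsg.isometryGroup F ⇑Q)}

local notation "mt(" g ")" => ((g : Matrix.GeneralLinearGroup ι F) : Matrix ι ι F)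

/-! ### Dimensions of fixed spaces -/

/-- The fixed space of a matrix. -/
def fixF (A : Matrix ι ι F) : Submodule F (ι → F) where
  carrier := {x | A.mulVec x = x}
  add_mem' := by
    intro a b ha hb
    show A.mulVec (a + b) = a + b
    rw [Matrix.mulVec_add, ha, hb]
  zero_mem' := Matrix.mulVec_zero A
  smul_mem' := by
    intro c x hx
    show A.mulVec (c • x) = c • x
    rw [Matrix.mulVec_smul, hx]

theorem mem_fixF {A : Matrix ι ι F} {x : ι → F} : x ∈ fixF A ↔ A.mulVec x = x := Iff.rfl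

theorem finrank_fixR_le (F₀ : Subfield F) (A : Matrix ι ι F) :
    finrank F₀ (fixR F₀ A) ≤ finrank F (fixF A) := by
  classical
  let b := Module.finBasis F₀ (fixR F₀ A)
  have hv : LinearIndependent F₀ (fun i => ((b i : fixR F₀ A) : ι → F₀)) :=
    b.linearIndependent.map' (fixR F₀ A).subtype (Submodule.ker_subtype _)
  have hv' : LinearIndependent F (fun i => algebraMap F₀ F ∘ ((b i : fixR F₀ A) : ι → F₀)) :=
    linearIndependent_algebraMap_comp_iff.mpr hv
  have h1 := finrank_span_eq_card hv'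
  rw [Fintype.card_fin] at h1
  rw [← h1]
  apply Submodule.finrank_mono
  rw [Submodule.span_le]
  rintro _ ⟨i, rfl⟩
  exact (b i).2

theorem RInv.finrank_add_ge {A : Matrix ι ι F} (I : RInv Q F₀ A) (h2 : (2 : F) ≠ 0) :
    Fintype.card ι ≤ finrank F₀ (fixR F₀ A) + finrank F₀ (fixR F₀ (-A)) := by
  have h1 : fixR F₀ A ⊔ fixR F₀ (-A) = ⊤ := by
    rw [eq_top_iff]
    intro x _
    obtain ⟨p, hp, m, hm, rfl⟩ := I.split h2 x
    exact Submodule.add_mem_sup hp hm
  have h3 := Submodule.finrank_add_le_finrank_add_finrank (fixR F₀ A) (fixR F₀ (-A))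
  rw [h1, finrank_top, Module.finrank_fintype_fun_eq_card] at h3
  exact h3

theorem finrank_fixF_add_le (h2 : (2 : F) ≠ 0) (A : Matrix ι ι F) :
    finrank F (fixF A) + finrank F (fixF (-A)) ≤ Fintype.card ι := by
  have hdis : fixF A ⊓ fixF (-A) = ⊥ := by
    rw [eq_bot_iff]
    rintro x ⟨h1, h3⟩
    rw [SetLike.mem_coe, mem_fixF] at h1 h3
    rw [Matrix.neg_mulVec, h1] at h3
    rw [Submodule.mem_bot]
    funext i
    have h4 := congrFun h3 i
    simp only [Pi.neg_apply, Pi.zero_apply] at h4 ⊢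
    have h5 : (2 : F) * x i = 0 := by linear_combination -h4
    exact (mul_eq_zero.mp h5).resolve_left h2
  have h4 := Submodule.finrank_sup_add_finrank_inf_eq (fixF A) (fixF (-A))
  rw [hdis, finrank_bot, add_zero] at h4
  have h5 := Submodule.finrank_le (fixF A ⊔ fixF (-A))
  rw [Module.finrank_fintype_fun_eq_card] at h5
  omega

theorem finrank_fixF_conj (g : Matrix.GeneralLinearGroup ι F) {A₁ A₂ : Matrix ι ι F}
    (hc : (g : Matrix ι ι F) * A₁ = A₂ * (g : Matrix ι ι F)) :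
    finrank F (fixF A₁) ≤ finrank F (fixF A₂) := by
  have hmap : ∀ x ∈ fixF A₁, Matrix.toLin' (g : Matrix ι ι F) x ∈ fixF A₂ := by
    intro x hx
    rw [mem_fixF] at hx ⊢
    rw [Matrix.toLin'_apply, Matrix.mulVec_mulVec, ← hc, ← Matrix.mulVec_mulVec, hx]
  apply LinearMap.finrank_le_finrank_of_injective
    (f := (Matrix.toLin' (g : Matrix ι ι F)).restrict hmap)
  intro x x' h
  have h1 : (g : Matrix ι ι F).mulVec (x : ι → F) = (g : Matrix ι ι F).mulVec (x' : ι → F) :=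
    congrArg Subtype.val h
  have h3 : ∀ z : ι → F, ((g⁻¹ : Matrix.GeneralLinearGroup ι F) : Matrix ι ι F).mulVec
      ((g : Matrix ι ι F).mulVec z) = z := by
    intro z
    rw [Matrix.mulVec_mulVec, ← Units.val_mul, inv_mul_cancel, Units.val_one, Matrix.one_mulVec]
  apply Subtype.ext
  calc (x : ι → F) = ((g⁻¹ : Matrix.GeneralLinearGroup ι F) : Matrix ι ι F).mulVec
        ((g : Matrix ι ι F).mulVec (x : ι → F)) := (h3 _).symm
    _ = ((g⁻¹ : Matrix.GeneralLinearGroup ι F) : Matrix ι ι F).mulVec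
        ((g : Matrix ι ι F).mulVec (x' : ι → F)) := by rw [h1]
    _ = (x' : ι → F) := h3 _

/-- Conjugation does not decrease the rational fixed space, if the target is a rational
involution. -/
theorem RInv.finrank_conj {A₁ A₂ : Matrix ι ι F} (I₂ : RInv Q F₀ A₂) (h2 : (2 : F) ≠ 0)
    (g : Matrix.GeneralLinearGroup ι F)
    (hc : (g : Matrix ι ι F) * A₁ = A₂ * (g : Matrix ι ι F)) :
    finrank F₀ (fixR F₀ A₁) ≤ finrank F₀ (fixR F₀ A₂) := by
  have h1 := I₂.finrank_add_ge h2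
  have h3 := finrank_fixR_le F₀ (-A₂)
  have h4 := finrank_fixF_add_le h2 A₂
  have h5 := finrank_fixF_conj g hc
  have h6 := finrank_fixR_le F₀ A₁
  omega

theorem finrank_fixR_add_le (h2 : (2 : F) ≠ 0) (F₀ : Subfield F) (A : Matrix ι ι F) :
    finrank F₀ (fixR F₀ A) + finrank F₀ (fixR F₀ (-A)) ≤ Fintype.card ι := by
  have h3 := finrank_fixR_le F₀ A
  have h4 := finrank_fixR_le F₀ (-A)
  have h5 := finrank_fixF_add_le h2 A
  omega

/-! ### Rational involutions in the isometry group -/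

theorem coe_sq {g : ↥(Cfsg.isometryGroup F ⇑Q)} (hsq : g * g = 1) : mt(g) * mt(g) = 1 := by
  have h := congrArg (fun x : ↥(Cfsg.isometryGroup F ⇑Q) => mt(x)) hsq
  simpa using h

theorem rinv_of {g : ↥(Cfsg.isometryGroup F ⇑Q)} (hrat : ∀ i j, mt(g) i j ∈ F₀)
    (hsq : g * g = 1) : RInv Q F₀ mt(g) where
  rat := hrat
  sq := coe_sq hsq
  iso := fun x => isometry_apply Q g x

theorem RInv.exists_neg {A : Matrix ι ι F} (I : RInv Q F₀ A) (h2 : (2 : F) ≠ 0) (hA : A ≠ 1) :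
    ∃ φ : ι → F₀, φ ≠ 0 ∧ A.mulVec (cv φ) = -cv φ := by
  by_contra hcon
  push Not at hcon
  apply hA
  have hfix : ∀ x : ι → F₀, A.mulVec (cv x) = cv x := by
    intro x
    obtain ⟨p, hp, m, hm, rfl⟩ := I.split h2 x
    have hm0 : m = 0 := by
      by_contra h
      exact hcon m h (mem_fixR_neg.mp hm)
    rw [hm0, add_zero]
    exact mem_fixR.mp hp
  ext i j
  have h1 := congrFun (hfix (Pi.single j (1 : F₀))) i
  rw [cv_single, Matrix.mulVec_single_one] at h1
  have h3 : A i j = (Pi.single j (1 : F) : ι → F) i := h1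
  rw [h3, Matrix.one_apply, Pi.single_apply]

theorem det_of_mem_commutator {g : ↥(Cfsg.isometryGroup F ⇑Q)}
    (hg : g ∈ commutator ↥(Cfsg.isometryGroup F ⇑Q)) : (mt(g)).det = 1 := by
  have h1 := Abelianization.commutator_subset_ker
    ((Matrix.GeneralLinearGroup.det (n := ι) (R := F)).comp
      (Cfsg.isometryGroup F ⇑Q).subtype) hg
  rw [MonoidHom.mem_ker, MonoidHom.comp_apply] at h1
  have h3 := congrArg Units.val h1
  simpa using h3

theorem ne_neg_one (h2 : (2 : F) ≠ 0) (hodd : Odd (Fintype.card ι)) {A : Matrix ι ι F}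
    (hdet : A.det = 1) : A ≠ -1 := by
  intro h
  rw [h, Matrix.det_neg, Matrix.det_one, mul_one, hodd.neg_one_pow] at hdet
  apply h2
  linear_combination -hdet

theorem det_mem {B : Matrix ι ι F} (hB : ∀ i j, B i j ∈ F₀) : B.det ∈ F₀ := by
  have h1 := RingHom.map_det (F₀.subtype : F₀ →+* F)
    (Matrix.of fun i j => (⟨B i j, hB i j⟩ : F₀))
  have hmap : (F₀.subtype : F₀ →+* F).mapMatrix
      (Matrix.of fun i j => (⟨B i j, hB i j⟩ : F₀)) = B := by
    ext i j
    rfl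
  rw [hmap] at h1
  rw [← h1]
  exact Subtype.property _

/-- In odd dimension, an involution of determinant one which is a scalar multiple of a rational
matrix is rational. -/
theorem rat_of_scalar (hodd : Odd (Fintype.card ι)) {g : ↥(Cfsg.isometryGroup F ⇑Q)}
    (hdet : (mt(g)).det = 1) (hsq : g * g = 1) {c : F} (hc : c ≠ 0)
    (h : ∀ i j, c * mt(g) i j ∈ F₀) : ∀ i j, mt(g) i j ∈ F₀ := by
  classical
  obtain ⟨k, hk⟩ := hodd
  have hne : Nonempty ι := by
    rw [← Fintype.card_pos_iff]; omega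
  obtain ⟨i₀⟩ := hne
  have hsq' : mt(g) * mt(g) = 1 := coe_sq hsq
  have hcc : c * c ∈ F₀ := by
    have h1 : (mt(g) * mt(g)) i₀ i₀ = 1 := by rw [hsq', Matrix.one_apply_eq]
    rw [Matrix.mul_apply] at h1
    have h3 : c * c = ∑ j, (c * mt(g) i₀ j) * (c * mt(g) j i₀) := by
      have h4 : ∑ j, (c * mt(g) i₀ j) * (c * mt(g) j i₀)
          = c * c * ∑ j, mt(g) i₀ j * mt(g) j i₀ := by
        rw [Finset.mul_sum]
        apply Finset.sum_congr rfl
        intro j _
        ring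
      rw [h4, h1, mul_one]
    rw [h3]
    exact F₀.sum_mem (fun j _ => F₀.mul_mem (h _ _) (h _ _))
  have hcn : c ^ Fintype.card ι ∈ F₀ := by
    have h1 : (c • mt(g)).det = c ^ Fintype.card ι := by
      rw [Matrix.det_smul, hdet, mul_one]
    rw [← h1]
    exact det_mem (fun i j => by rw [Matrix.smul_apply, smul_eq_mul]; exact h i j)
  have hcF : c ∈ F₀ := by
    have h1 : c = c ^ Fintype.card ι * ((c * c) ^ k)⁻¹ := by
      rw [hk]
      field_simp
      ring
    rw [h1]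
    exact F₀.mul_mem hcn (F₀.inv_mem (F₀.pow_mem hcc k))
  intro i j
  have h1 : mt(g) i j = c⁻¹ * (c * mt(g) i j) := by
    rw [← mul_assoc, inv_mul_cancel₀ hc, one_mul]
  rw [h1]
  exact F₀.mul_mem (F₀.inv_mem hcF) (h i j)

/-! ### Reflection products in orthogonal rational unit vectors -/

theorem polar_sum_right' {κ : Type*} (s : Finset κ) (f : κ → ι → F) (y : ι → F) :
    polar ⇑Q y (∑ k ∈ s, f k) = ∑ k ∈ s, polar ⇑Q y (f k) := by
  rw [polar_comm, polar_sum_left]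
  exact Finset.sum_congr rfl (fun k _ => polar_comm _ _ _)

/-- `A` acts as the product of the reflections in the pairwise orthogonal rational vectors
`u k` of norm one. -/
structure IsNeg (Q : QuadraticForm F (ι → F)) (Q₀ : QuadraticForm F₀ (ι → F₀)) {κ : Type}
    [Fintype κ] (u : κ → ι → F₀) (A : Matrix ι ι F) : Prop where
  unit : ∀ k, Q₀ (u k) = 1
  orth : ∀ k l, k ≠ l → polar ⇑Q₀ (u k) (u l) = 0
  app : ∀ x, A.mulVec x = x - ∑ k, polar ⇑Q (cv (u k)) x • cv (u k)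

section IsNeg

variable {κ : Type} [Fintype κ] {u : κ → ι → F₀} {A : Matrix ι ι F}

theorem IsNeg.pol [DecidableEq κ] (N : IsNeg Q Q₀ u A) (D : RS Q F₀ Q₀) (k l : κ) :
    polar ⇑Q (cv (u k)) (cv (u l)) = if k = l then 2 else 0 := by
  split_ifs with h
  · subst h
    rw [Cfsg.Agent.Lib.Helper51.polar_self, D.val, N.unit]
    simp
  · exact D.orth (N.orth k l h)

theorem IsNeg.app_self (N : IsNeg Q Q₀ u A) (D : RS Q F₀ Q₀) (k : κ) :
    A.mulVec (cv (u k)) = -cv (u k) := by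
  classical
  rw [N.app]
  have h1 : ∑ l, polar ⇑Q (cv (u l)) (cv (u k)) • cv (u l) = (2 : F) • cv (u k) := by
    rw [Finset.sum_eq_single k]
    · rw [N.pol D, if_pos rfl]
    · intro l _ hl
      rw [N.pol D, if_neg hl, zero_smul]
    · intro h
      exact absurd (Finset.mem_univ k) h
  rw [h1, two_smul]
  abel

theorem IsNeg.sq (N : IsNeg Q Q₀ u A) (D : RS Q F₀ Q₀) (x : ι → F) :
    A.mulVec (A.mulVec x) = x := by
  classical
  have h1 : A.mulVec (A.mulVec x)
      = A.mulVec x - ∑ k, polar ⇑Q (cv (u k)) (A.mulVec x) • cv (u k) := N.app _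
  have h3 : ∀ k, polar ⇑Q (cv (u k)) (A.mulVec x) = -polar ⇑Q (cv (u k)) x := by
    intro k
    rw [N.app x, polar_sub_right, polar_sum_right']
    have h4 : ∑ l, polar ⇑Q (cv (u k)) (polar ⇑Q (cv (u l)) x • cv (u l))
        = 2 * polar ⇑Q (cv (u k)) x := by
      rw [Finset.sum_eq_single k]
      · rw [polar_smul_right, N.pol D, if_pos rfl, smul_eq_mul, mul_comm]
      · intro l _ hl
        rw [polar_smul_right, N.pol D, if_neg (Ne.symm hl), smul_zero]
      · intro h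
        exact absurd (Finset.mem_univ k) h
    rw [h4]
    ring
  rw [h1]
  simp only [h3]
  rw [N.app x]
  simp only [neg_smul, Finset.sum_neg_distrib]
  abel

theorem IsNeg.rat (N : IsNeg Q Q₀ u A) (D : RS Q F₀ Q₀) : ∀ i j, A i j ∈ F₀ := by
  intro i j
  have h1 : A i j = (A.mulVec (Pi.single j (1 : F))) i := by
    rw [Matrix.mulVec_single_one]
    rfl
  rw [h1, N.app, ← cv_single]
  simp only [Pi.sub_apply, Finset.sum_apply, Pi.smul_apply, smul_eq_mul]
  refine F₀.sub_mem ?_ (F₀.sum_mem (fun k _ => F₀.mul_mem ?_ ?_))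
  · exact ((Pi.single j (1 : F₀) : ι → F₀) i).2
  · rw [D.pol]
    exact Subtype.property _
  · exact (u k i).2

theorem IsNeg.fix (N : IsNeg Q Q₀ u A) (D : RS Q F₀ Q₀) {x : ι → F₀}
    (hx : ∀ k, polar ⇑Q₀ (u k) x = 0) : x ∈ fixR F₀ A := by
  rw [mem_fixR, N.app]
  have h1 : ∑ k, polar ⇑Q (cv (u k)) (cv x) • cv (u k) = 0 :=
    Finset.sum_eq_zero (fun k _ => by rw [D.orth (hx k), zero_smul])
  rw [h1, sub_zero]

theorem IsNeg.finrank_fix (N : IsNeg Q Q₀ u A) (D : RS Q F₀ Q₀) :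
    Fintype.card ι ≤ finrank F₀ (fixR F₀ A) + Fintype.card κ := by
  classical
  have h1 := finrank_orth_span_ge Q₀ D.nd₀ (Finset.univ.image u)
  have h3 : LinearMap.BilinForm.orthogonal (polarBilin Q₀) (Submodule.span F₀
      ((Finset.univ.image u : Finset (ι → F₀)) : Set (ι → F₀))) ≤ fixR F₀ A := by
    intro x hx
    rw [mem_orth_span] at hx
    exact N.fix D (fun k => hx (u k) (by simp))
  have h4 := Submodule.finrank_mono h3
  have h5 : (Finset.univ.image u).card ≤ Fintype.card κ := Finset.card_image_le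
  omega

theorem IsNeg.finrank_neg (N : IsNeg Q Q₀ u A) (D : RS Q F₀ Q₀) (h2 : (2 : F) ≠ 0) :
    Fintype.card κ ≤ finrank F₀ (fixR F₀ (-A)) := by
  classical
  have hli : LinearIndependent F₀ u := by
    apply LinearMap.BilinForm.linearIndependent_of_iIsOrtho (B := polarBilin Q₀)
    · rw [LinearMap.BilinForm.iIsOrtho_def]
      intro k l hkl
      exact N.orth k l hkl
    · intro k
      rw [polarBilin_apply_apply, Cfsg.Agent.Lib.Helper51.polar_self, N.unit, mul_one]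
      exact two_ne_zero_sub h2
  have h1 := finrank_span_eq_card hli
  rw [← h1]
  apply Submodule.finrank_mono
  rw [Submodule.span_le]
  rintro _ ⟨k, rfl⟩
  exact mem_fixR_neg.mpr (N.app_self D k)

theorem IsNeg.ne_one [Nonempty κ] (N : IsNeg Q Q₀ u A) (D : RS Q F₀ Q₀) (h2 : (2 : F) ≠ 0) :
    A ≠ 1 := by
  intro h
  obtain ⟨k⟩ := ‹Nonempty κ›
  have h1 := N.app_self D k
  rw [h, Matrix.one_mulVec] at h1
  have h3 : Q (cv (u k)) = 1 := by
    rw [D.val, N.unit]
    rfl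
  have h4 : Q (cv (u k)) = Q (-cv (u k)) := by rw [← h1]
  have h5 : (2 : F) • cv (u k) = 0 := by
    rw [two_smul]
    nth_rewrite 1 [h1]
    abel
  have h6 : cv (u k) = 0 := (smul_eq_zero.mp h5).resolve_left h2
  rw [h6, QuadraticMap.map_zero] at h3
  exact zero_ne_one h3

theorem IsNeg.mul {κ' : Type} [Fintype κ'] {u' : κ' → ι → F₀} {A' : Matrix ι ι F}
    (N : IsNeg Q Q₀ u A) (N' : IsNeg Q Q₀ u' A') (D : RS Q F₀ Q₀)
    (ho : ∀ k l, polar ⇑Q₀ (u k) (u' l) = 0) : IsNeg Q Q₀ (Sum.elim u u') (A * A') where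
  unit := by
    rintro (k | k)
    · exact N.unit k
    · exact N'.unit k
  orth := by
    rintro (k | k) (l | l) h
    · exact N.orth k l (fun e => h (by rw [e]))
    · exact ho k l
    · rw [polar_comm]
      exact ho l k
    · exact N'.orth k l (fun e => h (by rw [e]))
  app := by
    intro x
    rw [← Matrix.mulVec_mulVec, N.app, N'.app, Fintype.sum_sum_type]
    simp only [Sum.elim_inl, Sum.elim_inr]
    have h1 : ∀ k, polar ⇑Q (cv (u k)) (x - ∑ l, polar ⇑Q (cv (u' l)) x • cv (u' l))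
        = polar ⇑Q (cv (u k)) x := by
      intro k
      rw [polar_sub_right, polar_sum_right']
      have h3 : ∑ l, polar ⇑Q (cv (u k)) (polar ⇑Q (cv (u' l)) x • cv (u' l)) = 0 :=
        Finset.sum_eq_zero (fun l _ => by rw [polar_smul_right, D.orth (ho k l), smul_zero])
      rw [h3, sub_zero]
    simp only [h1]
    abel

end IsNeg

theorem isNeg_pair (D : RS Q F₀ Q₀) {v₁ v₂ : ι → F₀} (h₁ : Q₀ v₁ = 1) (h₂ : Q₀ v₂ = 1)
    (ho : polar ⇑Q₀ v₁ v₂ = 0) (hn₁ : Q (cv v₁) ≠ 0) (hn₂ : Q (cv v₂) ≠ 0) :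
    IsNeg Q Q₀ ![v₁, v₂] mt(refl Q (cv v₁) hn₁ * refl Q (cv v₂) hn₂) where
  unit := by
    intro k
    fin_cases k
    · exact h₁
    · exact h₂
  orth := by
    intro k l hkl
    fin_cases k <;> fin_cases l
    · exact absurd rfl hkl
    · exact ho
    · rw [polar_comm]
      exact ho
    · exact absurd rfl hkl
  app := by
    intro x
    have e1 : Q (cv v₁) = 1 := by rw [D.val, h₁]; rfl
    have e2 : Q (cv v₂) = 1 := by rw [D.val, h₂]; rfl
    have e12 : polar ⇑Q (cv v₁) (cv v₂) = 0 := D.orth ho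
    show (reflectionMatrix ⇑Q (cv v₁) * reflectionMatrix ⇑Q (cv v₂)).mulVec x = _
    rw [← Matrix.mulVec_mulVec, reflectionMatrix_mulVec, reflectionMatrix_mulVec, e1, e2,
      Fin.sum_univ_two, polar_sub_right, polar_smul_right, e12]
    simp only [Matrix.cons_val_zero, Matrix.cons_val_one, inv_one, one_mul, smul_eq_mul,
      mul_zero, sub_zero]
    abel

/-- A unit vector orthogonal to a small finite set. -/
theorem exists_unit_perp {K : Type*} [Field K] [Fintype K] (Q : QuadraticForm K (ι → K))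
    (hQ : (polarBilin Q).Nondegenerate) (S : Finset (ι → K))
    (hS : 2 * S.card + 3 ≤ Fintype.card ι) :
    ∃ v : ι → K, Q v = 1 ∧ ∀ s ∈ S, polar ⇑Q s v = 0 := by
  obtain ⟨a, b, hQa, hQb, hab, haS, hbS⟩ := exists_hyp_pair Q hQ S hS
  refine ⟨a + b, ?_, fun s hs => ?_⟩
  · have h1 : Q (a + b) = Q a + Q b + polar ⇑Q a b := by
      simp only [polar]
      ring
    rw [h1, hQa, hQb, hab]
    ring
  · rw [polar_add_right, haS s hs, hbS s hs, add_zero]

variable [Fintype F]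

/-- An element of `M` commuting with a rational involution other than `±1` is a scalar multiple
of a rational matrix. -/
theorem OG.scalar_of_comm (D : OG Q F₀ Q₀ M) (hS : ∀ c : F, SP M Q₀ c → c ∈ F₀)
    (h2 : (2 : F) ≠ 0) {y : ↥(Cfsg.isometryGroup F ⇑Q)} (hy : y ∈ M) {A : Matrix ι ι F}
    (hA : RInv Q F₀ A) (hA1 : A ≠ 1) (hA2 : A ≠ -1) (hcomm : mt(y) * A = A * mt(y)) :
    ∃ c : F, c ≠ 0 ∧ ∀ i j, c * mt(y) i j ∈ F₀ := by
  have h1 := hA.finrank_add_ge h2
  have hn := D.hn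
  by_cases h7 : 7 ≤ finrank F₀ (fixR F₀ A)
  · exact DSet.main ⟨D, hS, h2, hy, hA, hA, hcomm, by omega, h7, hA.exists_neg h2 hA1⟩
  · have h7' : 7 ≤ finrank F₀ (fixR F₀ (-A)) := by omega
    exact DSet.main ⟨D, hS, h2, hy, hA.neg, hA.neg, by rw [mul_neg, neg_mul, hcomm], by omega,
      h7', hA.neg.exists_neg h2 (fun h => hA2 (by rw [← h, neg_neg]))⟩

/-- An involution of `M ∩ Ω` commuting with a non-trivial rational involution of determinant
one is rational (odd dimension). -/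
theorem OG.rat_of_comm (D : OG Q F₀ Q₀ M) (hS : ∀ c : F, SP M Q₀ c → c ∈ F₀)
    (h2 : (2 : F) ≠ 0) (hodd : Odd (Fintype.card ι)) {y : ↥(Cfsg.isometryGroup F ⇑Q)}
    (hy : y ∈ M) (hyΩ : y ∈ commutator ↥(Cfsg.isometryGroup F ⇑Q)) (hyy : y * y = 1)
    {A : Matrix ι ι F} (hA : RInv Q F₀ A) (hA1 : A ≠ 1) (hAdet : A.det = 1)
    (hcomm : mt(y) * A = A * mt(y)) : ∀ i j, mt(y) i j ∈ F₀ := by
  obtain ⟨c, hc, h⟩ := D.scalar_of_comm hS h2 hy hA hA1 (ne_neg_one h2 hodd hAdet) hcomm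
  exact rat_of_scalar hodd (det_of_mem_commutator hyΩ) hyy hc h

/-- The core theorem: an overgroup `M ≤ Ω` of the rational part of `Ω` is `Ω`, or consists of
scalar multiples of rational matrices. -/
theorem core (hQ : (polarBilin Q).Nondegenerate) (h2 : (2 : F) ≠ 0)
    (hn : 13 ≤ Fintype.card ι) (hodd : Odd (Fintype.card ι)) (F₀ : Subfield F) (r : ℕ)
    (hr : r.Prime) (hcard : Fintype.card F = Nat.card F₀ ^ r)
    (hrat : ∀ x : ι → F₀, Q (cv x) ∈ F₀) (M : Subgroup ↥(Cfsg.isometryGroup F ⇑Q))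
    (hH : ∀ h : ↥(Cfsg.isometryGroup F ⇑Q), h ∈ commutator ↥(Cfsg.isometryGroup F ⇑Q) →
      (∀ i j, mt(h) i j ∈ F₀) → h ∈ M)
    (hM : M ≤ commutator ↥(Cfsg.isometryGroup F ⇑Q)) :
    M = commutator ↥(Cfsg.isometryGroup F ⇑Q) ∨
      ∀ m ∈ M, ∃ c : F, c ≠ 0 ∧ ∀ i j, c * mt(m) i j ∈ F₀ := by
  classical
  let _ : Fintype F₀ := Fintype.ofFinite F₀
  obtain ⟨Q₀, hQ₀⟩ : ∃ Q₀ : QuadraticForm F₀ (ι → F₀), Q₀ = Q0 Q F₀ hrat := ⟨_, rfl⟩
  have rs : RS Q F₀ Q₀ :=
    ⟨hQ, by rw [hQ₀]; exact Q0_nondeg Q hQ hrat, fun x => by rw [hQ₀, Q0_apply]⟩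
  have D : OG Q F₀ Q₀ M := ⟨rs, hn, hH⟩
  rcases D.sp_dichotomy r hr hcard with hS | hS
  swap
  · left
    exact le_antisymm hM (D.full hS)
  right
  have hcardne : Fintype.card F ≠ 2 ∨ Fintype.card ι ≠ 4 := Or.inr (by omega)
  obtain ⟨v₁, hv₁, -⟩ := exists_unit_perp Q₀ rs.nd₀ ∅ (by
    simp only [Finset.card_empty]
    omega)
  obtain ⟨v₂, hv₂, hS₂⟩ := exists_unit_perp Q₀ rs.nd₀ {v₁} (by
    rw [Finset.card_singleton]
    omega)
  obtain ⟨v₃, hv₃, hS₃⟩ := exists_unit_perp Q₀ rs.nd₀ {v₁, v₂} (by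
    have := Finset.card_le_two (a := v₁) (b := v₂)
    omega)
  obtain ⟨v₄, hv₄, hS₄⟩ := exists_unit_perp Q₀ rs.nd₀ {v₁, v₂, v₃} (by
    have := Finset.card_le_three (a := v₁) (b := v₂) (c := v₃)
    omega)
  have o12 : polar ⇑Q₀ v₁ v₂ = 0 := hS₂ v₁ (by simp)
  have o13 : polar ⇑Q₀ v₁ v₃ = 0 := hS₃ v₁ (by simp)
  have o23 : polar ⇑Q₀ v₂ v₃ = 0 := hS₃ v₂ (by simp)
  have o14 : polar ⇑Q₀ v₁ v₄ = 0 := hS₄ v₁ (by simp)
  have o24 : polar ⇑Q₀ v₂ v₄ = 0 := hS₄ v₂ (by simp)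
  have o34 : polar ⇑Q₀ v₃ v₄ = 0 := hS₄ v₃ (by simp)
  have e1 : Q (cv v₁) = 1 := by rw [rs.val, hv₁]; rfl
  have e2 : Q (cv v₂) = 1 := by rw [rs.val, hv₂]; rfl
  have e3 : Q (cv v₃) = 1 := by rw [rs.val, hv₃]; rfl
  have e4 : Q (cv v₄) = 1 := by rw [rs.val, hv₄]; rfl
  have n1 : Q (cv v₁) ≠ 0 := by rw [e1]; exact one_ne_zero
  have n2 : Q (cv v₂) ≠ 0 := by rw [e2]; exact one_ne_zero
  have n3 : Q (cv v₃) ≠ 0 := by rw [e3]; exact one_ne_zero
  have n4 : Q (cv v₄) ≠ 0 := by rw [e4]; exact one_ne_zero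
  obtain ⟨a, ha⟩ : ∃ a : ↥(Cfsg.isometryGroup F ⇑Q),
      a = refl Q (cv v₁) n1 * refl Q (cv v₂) n2 := ⟨_, rfl⟩
  obtain ⟨a', ha'⟩ : ∃ a' : ↥(Cfsg.isometryGroup F ⇑Q),
      a' = refl Q (cv v₃) n3 * refl Q (cv v₄) n4 := ⟨_, rfl⟩
  obtain ⟨b0, hb0⟩ : ∃ b0 : ↥(Cfsg.isometryGroup F ⇑Q), b0 = a * a' := ⟨_, rfl⟩
  have Na : IsNeg Q Q₀ ![v₁, v₂] mt(a) := by
    rw [ha]
    exact isNeg_pair rs hv₁ hv₂ o12 n1 n2
  have Na' : IsNeg Q Q₀ ![v₃, v₄] mt(a') := by
    rw [ha']
    exact isNeg_pair rs hv₃ hv₄ o34 n3 n4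
  have Nb : IsNeg Q Q₀ (Sum.elim ![v₁, v₂] ![v₃, v₄]) mt(b0) := by
    rw [hb0]
    exact Na.mul Na' rs (by
      intro k l
      fin_cases k <;> fin_cases l
      · exact o13
      · exact o14
      · exact o23
      · exact o24)
  have haΩ : a ∈ commutator ↥(Cfsg.isometryGroup F ⇑Q) := by
    rw [ha]
    exact Cfsg.Agent.Lib.Helper7.refl_mul_refl_mem_commutator Q hQ hcardne _ _ n1 n2
      (by rw [e1, e2])
  have ha'Ω : a' ∈ commutator ↥(Cfsg.isometryGroup F ⇑Q) := by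
    rw [ha']
    exact Cfsg.Agent.Lib.Helper7.refl_mul_refl_mem_commutator Q hQ hcardne _ _ n3 n4
      (by rw [e3, e4])
  have hb0Ω : b0 ∈ commutator ↥(Cfsg.isometryGroup F ⇑Q) := by
    rw [hb0]
    exact Subgroup.mul_mem _ haΩ ha'Ω
  have haa : a * a = 1 := by
    apply isometry_ext
    apply matrix_ext_mulVec
    intro x
    show (mt(a) * mt(a)).mulVec x = (1 : Matrix ι ι F).mulVec x
    rw [← Matrix.mulVec_mulVec, Na.sq rs, Matrix.one_mulVec]
  have hbb0 : b0 * b0 = 1 := by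
    apply isometry_ext
    apply matrix_ext_mulVec
    intro x
    show (mt(b0) * mt(b0)).mulVec x = (1 : Matrix ι ι F).mulVec x
    rw [← Matrix.mulVec_mulVec, Nb.sq rs, Matrix.one_mulVec]
  have haM : a ∈ M := hH a haΩ (Na.rat rs)
  have hb0M : b0 ∈ M := hH b0 hb0Ω (Nb.rat rs)
  have Ia : RInv Q F₀ mt(a) := rinv_of (Na.rat rs) haa
  have Ib0 : RInv Q F₀ mt(b0) := rinv_of (Nb.rat rs) hbb0
  have ha1 : mt(a) ≠ 1 := Na.ne_one rs h2
  have hb01 : mt(b0) ≠ 1 := Nb.ne_one rs h2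
  have fa : Fintype.card ι ≤ finrank F₀ (fixR F₀ mt(a)) + 2 := by
    have := Na.finrank_fix rs
    rwa [Fintype.card_fin] at this
  have fb : Fintype.card ι ≤ finrank F₀ (fixR F₀ mt(b0)) + 4 := by
    have := Nb.finrank_fix rs
    rwa [Fintype.card_sum, Fintype.card_fin] at this
  have fbn : 4 ≤ finrank F₀ (fixR F₀ (-mt(b0))) := by
    have := Nb.finrank_neg rs h2
    rwa [Fintype.card_sum, Fintype.card_fin] at this
  have fan : finrank F₀ (fixR F₀ (-mt(a))) ≤ 2 := by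
    have := finrank_fixR_add_le h2 F₀ mt(a)
    omega
  intro m hm
  obtain ⟨b, hb⟩ : ∃ b : ↥(Cfsg.isometryGroup F ⇑Q), b = m * b0 * m⁻¹ := ⟨_, rfl⟩
  have hbb : b * b = 1 := by
    rw [hb]
    calc m * b0 * m⁻¹ * (m * b0 * m⁻¹) = m * (b0 * b0) * m⁻¹ := by group
      _ = 1 := by rw [hbb0]; group
  have hbM : b ∈ M := by
    rw [hb]
    exact M.mul_mem (M.mul_mem hm hb0M) (M.inv_mem hm)
  have hbΩ : b ∈ commutator ↥(Cfsg.isometryGroup F ⇑Q) := hM hbM
  have hmb : mt(m) * mt(b0) = mt(b) * mt(m) := by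
    have h : m * b0 = b * m := by rw [hb]; group
    have h' := congrArg (fun x : ↥(Cfsg.isometryGroup F ⇑Q) => mt(x)) h
    simpa using h'
  rcases Cfsg.Agent.Lib.Helper50.dihedral_alt a b haa hbb with ⟨g, hg⟩ | ⟨j, hz1, hzz, haz, hbz⟩
  · exfalso
    have h : (g⁻¹ * m) * b0 = a * (g⁻¹ * m) := by
      have h3 : m * b0 * m⁻¹ = g * a * g⁻¹ := by rw [← hb, hg]
      calc g⁻¹ * m * b0 = g⁻¹ * (m * b0 * m⁻¹) * m := by group
        _ = g⁻¹ * (g * a * g⁻¹) * m := by rw [h3]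
        _ = a * (g⁻¹ * m) := by group
    have h' := congrArg (fun x : ↥(Cfsg.isometryGroup F ⇑Q) => mt(x)) h
    have h'' : mt(g⁻¹ * m) * (-mt(b0)) = (-mt(a)) * mt(g⁻¹ * m) := by
      rw [mul_neg, neg_mul]
      exact congrArg Neg.neg h'
    have h5 := Ia.neg.finrank_conj h2 ((g⁻¹ * m : ↥(Cfsg.isometryGroup F ⇑Q)) :
      Matrix.GeneralLinearGroup ι F) h''
    omega
  · obtain ⟨z, hz⟩ : ∃ z : ↥(Cfsg.isometryGroup F ⇑Q), z = (a * b) ^ j := ⟨_, rfl⟩
    rw [← hz] at hz1 hzz haz hbz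
    have hzM : z ∈ M := by
      rw [hz]
      exact M.pow_mem (M.mul_mem haM hbM) j
    have hzΩ := hM hzM
    have hzrat : ∀ i j, mt(z) i j ∈ F₀ := by
      apply D.rat_of_comm hS h2 hodd hzM hzΩ hzz Ia ha1 (det_of_mem_commutator haΩ)
      have h' := congrArg (fun x : ↥(Cfsg.isometryGroup F ⇑Q) => mt(x)) haz.symm
      simpa using h'
    have Iz : RInv Q F₀ mt(z) := rinv_of hzrat hzz
    have hz1' : mt(z) ≠ 1 := by
      intro h
      apply hz1
      apply isometry_ext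
      rw [h]
      rfl
    have hbrat : ∀ i j, mt(b) i j ∈ F₀ := by
      apply D.rat_of_comm hS h2 hodd hbM hbΩ hbb Iz hz1' (det_of_mem_commutator hzΩ)
      have h' := congrArg (fun x : ↥(Cfsg.isometryGroup F ⇑Q) => mt(x)) hbz
      simpa using h'
    have Ib : RInv Q F₀ mt(b) := rinv_of hbrat hbb
    have hb1 : mt(b) ≠ 1 := by
      intro h
      apply hb01
      have hb' : b = 1 := by
        apply isometry_ext
        rw [h]
        rfl
      have h3 : b0 = 1 := by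
        have h4 : b0 = m⁻¹ * b * m := by rw [hb]; group
        rw [h4, hb']
        group
      rw [h3]
      rfl
    have h5 := Ib.finrank_conj h2 (m : Matrix.GeneralLinearGroup ι F) hmb
    exact DSet.main ⟨D, hS, h2, hm, Ib0, Ib, hmb, by omega, by omega, Ib.exists_neg h2 hb1⟩

/-- Maximality for the standard rational structure. -/
theorem os_max_aux (Q : QuadraticForm F (ι → F)) (hQ : (polarBilin Q).Nondegenerate)
    (h2 : (2 : F) ≠ 0) (hn : 13 ≤ Fintype.card ι) (hodd : Odd (Fintype.card ι))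
    (F₀ : Subfield F) (r : ℕ) (hr : r.Prime) (hcard : Fintype.card F = Nat.card F₀ ^ r)
    (hrat : ∀ x : ι → F₀, Q (cv x) ∈ F₀) :
    Cfsg.Geo.IsMaximalIn (Cfsg.Geo.omegaGL ⇑Q)
      (Cfsg.Agent.Lib.Helper50.H1 ι F₀ ⊓ Cfsg.Geo.omegaGL ⇑Q) := by
  classical
  refine ⟨lt_of_le_of_ne inf_le_right ?_, fun M hHM hMK => ?_⟩
  · intro heq
    let _ : Fintype F₀ := Fintype.ofFinite F₀
    obtain ⟨Q₀, hQ₀⟩ : ∃ Q₀ : QuadraticForm F₀ (ι → F₀), Q₀ = Q0 Q F₀ hrat := ⟨_, rfl⟩
    have rs : RS Q F₀ Q₀ :=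
      ⟨hQ, by rw [hQ₀]; exact Q0_nondeg Q hQ hrat, fun x => by rw [hQ₀, Q0_apply]⟩
    have hex : ∃ θ : F, θ ∉ F₀ := by
      by_contra hcon
      push Not at hcon
      have h1 : Nat.card F₀ = Fintype.card F := by
        rw [← Nat.card_eq_fintype_card]
        exact Nat.card_congr (Equiv.subtypeUnivEquiv hcon)
      have h4 : 1 < Nat.card F₀ := by rw [h1]; exact Fintype.one_lt_card
      rw [← h1] at hcard
      have h5 : Nat.card F₀ ^ 1 = Nat.card F₀ ^ r := by rw [pow_one]; exact hcard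
      have h6 := Nat.pow_right_injective h4 h5
      exact hr.one_lt.ne h6
    obtain ⟨θ, hθ⟩ := hex
    obtain ⟨u, u', hQu, hQu', huu', -, -⟩ := exists_hyp_pair Q₀ rs.nd₀ ∅ (by
      simp only [Finset.card_empty]
      omega)
    obtain ⟨w, w', hQw, hQw', hww', hwS, hw'S⟩ := exists_hyp_pair Q₀ rs.nd₀ {u, u'} (by
      have := Finset.card_le_two (a := u) (b := u')
      omega)
    have huw : polar ⇑Q₀ u w = 0 := hwS u (by simp)
    have hu'w : polar ⇑Q₀ u' w = 0 := hwS u' (by simp)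
    have hu0 : u ≠ 0 := by
      rintro rfl
      rw [polar_zero_left] at huu'
      exact zero_ne_one huu'
    have hw0 : w ≠ 0 := by
      rintro rfl
      rw [polar_zero_left] at hww'
      exact zero_ne_one hww'
    have hc : Q (cv u) = 0 := rs.sing hQu
    have ho : polar ⇑Q (cv u) (θ • cv w) = 0 := by
      rw [polar_smul_right, rs.orth huw, smul_zero]
    have hgΩ := eich_mem_commutator Q hQ (by omega) (cv u) (θ • cv w) hc ho
    have hgH : ((eich Q (cv u) (θ • cv w) hc ho : ↥(Cfsg.isometryGroup F ⇑Q)) :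
        Matrix.GeneralLinearGroup ι F) ∈ Cfsg.Agent.Lib.Helper50.H1 ι F₀ := by
      have h1 := coe_mem_omegaGL Q hgΩ
      rw [← heq] at h1
      exact h1.1
    obtain ⟨c, hc0, A, hA, hgA⟩ := Cfsg.Agent.Lib.Helper50.exists_of_mem_H1 F₀ _ hgH
    have e1 : mt(eich Q (cv u) (θ • cv w) hc ho).mulVec (cv u) = cv u := by
      rw [eich_apply, polar_smul_left, rs.orth' huw, Cfsg.Agent.Lib.Helper51.polar_self, hc]
      simp
    have e2 : mt(eich Q (cv u) (θ • cv w) hc ho).mulVec (cv u') = cv u' - θ • cv w := by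
      rw [eich_apply, polar_smul_left, rs.orth' hu'w, rs.one huu', QuadraticMap.map_smul,
        rs.sing hQw]
      simp
    obtain ⟨a₀, ha₀⟩ := exists_cv_mulVec hA u
    obtain ⟨a₁, ha₁⟩ := exists_cv_mulVec hA u'
    rw [hgA, Matrix.smul_mulVec, ← ha₀] at e1
    rw [hgA, Matrix.smul_mulVec, ← ha₁] at e2
    have ha₀0 : a₀ ≠ 0 := by
      rintro rfl
      rw [cv_zero, smul_zero] at e1
      exact cv_ne_zero hu0 e1.symm
    have hcF : c ∈ F₀ := coef_mem1 ha₀0 e1
    apply hθ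
    have h3 : θ • cv w = cv (u' - (⟨c, hcF⟩ : F₀) • a₁) := by
      rw [cv_sub, cv_smul]
      show θ • cv w = cv u' - c • cv a₁
      rw [e2]
      abel
    exact coef_mem1 hw0 h3
  · obtain ⟨M', hM'⟩ : ∃ M' : Subgroup ↥(Cfsg.isometryGroup F ⇑Q),
        M' = M.comap (Cfsg.isometryGroup F ⇑Q).subtype := ⟨_, rfl⟩
    have hH : ∀ h : ↥(Cfsg.isometryGroup F ⇑Q), h ∈ commutator ↥(Cfsg.isometryGroup F ⇑Q) →
        (∀ i j, mt(h) i j ∈ F₀) → h ∈ M' := by
      intro h hh hrat'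
      rw [hM', Subgroup.mem_comap]
      apply hHM
      exact ⟨Subgroup.mem_sup_left (mem_map_range_of_entries F₀ _ hrat'), coe_mem_omegaGL Q hh⟩
    have hMΩ : M' ≤ commutator ↥(Cfsg.isometryGroup F ⇑Q) := by
      intro g hg
      rw [hM', Subgroup.mem_comap] at hg
      obtain ⟨g', hg', hgg'⟩ := exists_of_mem_omegaGL Q (hMK hg)
      have h3 : g' = g := Subtype.ext hgg'
      rwa [← h3]
    rcases core hQ h2 hn hodd F₀ r hr hcard hrat M' hH hMΩ with h | h
    · right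
      apply le_antisymm hMK
      intro x hx
      obtain ⟨g, hg, rfl⟩ := exists_of_mem_omegaGL Q hx
      rw [← h, hM', Subgroup.mem_comap] at hg
      exact hg
    · left
      apply le_antisymm _ hHM
      intro x hx
      refine ⟨?_, hMK hx⟩
      obtain ⟨g, hg, rfl⟩ := exists_of_mem_omegaGL Q (hMK hx)
      have hgM : g ∈ M' := by
        rw [hM', Subgroup.mem_comap]
        exact hx
      obtain ⟨c, hc, hrat'⟩ := h g hgM
      exact Cfsg.Agent.Lib.Helper50.mem_H1_of F₀ _ c⁻¹ (inv_ne_zero hc) (c • mt(g))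
        (fun i j => by rw [Matrix.smul_apply, smul_eq_mul]; exact hrat' i j)
        (by rw [smul_smul, inv_mul_cancel₀ hc, one_smul])

/-! ### Change of rational structure -/

/-- The form `x ↦ Q (P x)`. -/
noncomputable def compForm (Q : QuadraticForm F (ι → F)) (P : Matrix ι ι F) :
    QuadraticForm F (ι → F) :=
  Q.comp (Matrix.toLin' P)

theorem compForm_apply (Q : QuadraticForm F (ι → F)) (P : Matrix ι ι F) (x : ι → F) :
    compForm Q P x = Q (P.mulVec x) := rfl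

theorem polar_compForm (Q : QuadraticForm F (ι → F)) (P : Matrix ι ι F) (x y : ι → F) :
    polar ⇑(compForm Q P) x y = polar ⇑Q (P.mulVec x) (P.mulVec y) := by
  simp only [polar, compForm_apply, Matrix.mulVec_add]

theorem compForm_nondeg (Q : QuadraticForm F (ι → F)) (hQ : (polarBilin Q).Nondegenerate)
    (P : Matrix.GeneralLinearGroup ι F) :
    (polarBilin (compForm Q (P : Matrix ι ι F))).Nondegenerate := by
  apply Cfsg.Agent.Lib.Helper7.polarBilin_nondegenerate_of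
  intro u hu
  have h3 : ∀ z : ι → F, ((P⁻¹ : Matrix.GeneralLinearGroup ι F) : Matrix ι ι F).mulVec
      ((P : Matrix ι ι F).mulVec z) = z := by
    intro z
    rw [Matrix.mulVec_mulVec, ← Units.val_mul, inv_mul_cancel, Units.val_one, Matrix.one_mulVec]
  have h4 : ∀ z : ι → F, (P : Matrix ι ι F).mulVec
      (((P⁻¹ : Matrix.GeneralLinearGroup ι F) : Matrix ι ι F).mulVec z) = z := by
    intro z
    rw [Matrix.mulVec_mulVec, ← Units.val_mul, mul_inv_cancel, Units.val_one, Matrix.one_mulVec]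
  by_contra hu0
  have hPu : (P : Matrix ι ι F).mulVec u ≠ 0 := by
    intro h
    apply hu0
    rw [← h3 u, h, Matrix.mulVec_zero]
  obtain ⟨y, hy⟩ := exists_polar_ne_zero Q hQ _ hPu
  apply hy
  have h5 := hu (((P⁻¹ : Matrix.GeneralLinearGroup ι F) : Matrix ι ι F).mulVec y)
  rw [polar_compForm, h4] at h5
  exact h5

theorem omegaGL_eq (Q : (ι → F) → F) :
    Cfsg.Geo.omegaGL Q = ⁅Cfsg.isometryGroup F Q, Cfsg.isometryGroup F Q⁆ := by
  unfold Cfsg.Geo.omegaGL
  exact Subgroup.map_subtype_commutator _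

theorem isometryGroup_map_conj (Q : QuadraticForm F (ι → F)) (P : Matrix.GeneralLinearGroup ι F) :
    (Cfsg.isometryGroup F ⇑(compForm Q (P : Matrix ι ι F))).map (MulAut.conj P).toMonoidHom
      = Cfsg.isometryGroup F ⇑Q := by
  have h3 : ∀ z : ι → F, ((P⁻¹ : Matrix.GeneralLinearGroup ι F) : Matrix ι ι F).mulVec
      ((P : Matrix ι ι F).mulVec z) = z := by
    intro z
    rw [Matrix.mulVec_mulVec, ← Units.val_mul, inv_mul_cancel, Units.val_one, Matrix.one_mulVec]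
  have h4 : ∀ z : ι → F, (P : Matrix ι ι F).mulVec
      (((P⁻¹ : Matrix.GeneralLinearGroup ι F) : Matrix ι ι F).mulVec z) = z := by
    intro z
    rw [Matrix.mulVec_mulVec, ← Units.val_mul, mul_inv_cancel, Units.val_one, Matrix.one_mulVec]
  apply le_antisymm
  · rintro _ ⟨y, hy, rfl⟩
    rw [SetLike.mem_coe, mem_isometryGroup_iff] at hy
    rw [mem_isometryGroup_iff]
    intro x
    show Q (((P * y * P⁻¹ : Matrix.GeneralLinearGroup ι F) : Matrix ι ι F).mulVec x) = Q x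
    have h5 := hy (((P⁻¹ : Matrix.GeneralLinearGroup ι F) : Matrix ι ι F).mulVec x)
    rw [compForm_apply, compForm_apply, h4] at h5
    rw [Units.val_mul, Units.val_mul, ← Matrix.mulVec_mulVec, ← Matrix.mulVec_mulVec]
    exact h5
  · intro x hx
    rw [mem_isometryGroup_iff] at hx
    refine ⟨P⁻¹ * x * P, ?_, ?_⟩
    · rw [SetLike.mem_coe, mem_isometryGroup_iff]
      intro v
      rw [compForm_apply, compForm_apply, Units.val_mul, Units.val_mul, ← Matrix.mulVec_mulVec,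
        ← Matrix.mulVec_mulVec, h4]
      exact hx _
    · show P * (P⁻¹ * x * P) * P⁻¹ = x
      group

theorem omegaGL_map_conj (Q : QuadraticForm F (ι → F)) (P : Matrix.GeneralLinearGroup ι F) :
    (Cfsg.Geo.omegaGL ⇑(compForm Q (P : Matrix ι ι F))).map (MulAut.conj P).toMonoidHom
      = Cfsg.Geo.omegaGL ⇑Q := by
  rw [omegaGL_eq, omegaGL_eq, Subgroup.map_commutator, isometryGroup_map_conj]

/-- The subfield subgroup of `Ω(Q)` for a rational structure `P`, in odd dimension at least 13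
and odd characteristic, for a subfield of prime degree, is maximal. -/
theorem os_max (Q : QuadraticForm F (ι → F)) (hQ : (polarBilin Q).Nondegenerate)
    (h2 : (2 : F) ≠ 0) (hn : 13 ≤ Fintype.card ι) (hodd : Odd (Fintype.card ι))
    (F₀ : Subfield F) (r : ℕ) (hr : r.Prime) (hcard : Fintype.card F = Nat.card F₀ ^ r)
    (P : Matrix.GeneralLinearGroup ι F)
    (hP : Cfsg.Geo.IsQuadFormRationalStructure ⇑Q F₀ P) :
    Cfsg.Geo.IsMaximalIn (Cfsg.Geo.omegaGL ⇑Q)
      (Cfsg.Geo.subfieldSubgroup F₀ P ⊓ Cfsg.Geo.omegaGL ⇑Q) := by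
  have hrat : ∀ x : ι → F₀, compForm Q (P : Matrix ι ι F) (cv x) ∈ F₀ := fun x => by
    rw [compForm_apply]
    exact hP (cv x) (fun i => (x i).2)
  have h := Cfsg.Agent.Lib.Helper50.isMaximalIn_map (MulAut.conj P)
    (os_max_aux (compForm Q (P : Matrix ι ι F)) (compForm_nondeg Q hQ P) h2 hn hodd F₀ r hr hcard
      hrat)
  rw [Subgroup.map_inf_eq _ _ _ (MulAut.conj P).injective, omegaGL_map_conj] at h
  exact h

end Dihedral

end Cfsg.Agent.Lib.Helper44.OS
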