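import Mathlib
import Cfsg.Agent.Lib.Helper44.OSDihedral

/-!
Rational structures of quadratic spaces (helper44), part 5: the dihedral argument in any
dimension at least 13 (odd characteristic), under the hypothesis that square roots of elements
of the subfield lie in the subfield (e.g. odd degree).
-/

set_option autoImplicit false
set_option linter.unusedSectionVars false
set_option linter.unusedVariables false

namespace Cfsg.Agent.Lib.Helper44.OS

open Module QuadraticMap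
open Cfsg.Agent.Lib.Helper51 Cfsg.Agent.Lib.Helper52 Cfsg.Agent.Lib.Helper44

section Even

variable {ι : Type} [Fintype ι] [DecidableEq ι] {F : Type*} [Field F]
variable {Q : QuadraticForm F (ι → F)} {F₀ : Subfield F} {Q₀ : QuadraticForm F₀ (ι → F₀)}
variable {M : Subgroup ↥(Cfsg.isometryGroup F ⇑Q)}

local notation "mt(" g ")" => ((g : Matrix.GeneralLinearGroup ι F) : Matrix ι ι F)

/-- An involution which is a scalar multiple of a rational matrix is rational, if square roots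
of rational scalars are rational. -/
theorem rat_of_scalar_sq [Nonempty ι] (hsq : ∀ c : F, c * c ∈ F₀ → c ∈ F₀)
    {g : ↥(Cfsg.isometryGroup F ⇑Q)} (hgg : g * g = 1) {c : F} (hc : c ≠ 0)
    (h : ∀ i j, c * mt(g) i j ∈ F₀) : ∀ i j, mt(g) i j ∈ F₀ := by
  classical
  obtain ⟨i₀⟩ := ‹Nonempty ι›
  have hsq' : mt(g) * mt(g) = 1 := coe_sq hgg
  have hcc : c * c ∈ F₀ := by
    have h1 : (mt(g) * mt(g)) i₀ i₀ = 1 := by rw [hsq', Matrix.one_apply_eq]
    rw [Matrix.mul_apply] at h1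
    have h3 : c * c = ∑ j, (c * mt(g) i₀ j) * (c * mt(g) j i₀) := by
      have h4 : ∑ j, (c * mt(g) i₀ j) * (c * mt(g) j i₀)
          = c * c * ∑ j, mt(g) i₀ j * mt(g) j i₀ := by
        rw [Finset.mul_sum]
        apply Finset.sum_congr rfl
        intro j _
        ring
      rw [h4, h1, mul_one]
    rw [h3]
    exact F₀.sum_mem (fun j _ => F₀.mul_mem (h _ _) (h _ _))
  have hcF : c ∈ F₀ := hsq c hcc
  intro i j
  have h1 : mt(g) i j = c⁻¹ * (c * mt(g) i j) := by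
    rw [← mul_assoc, inv_mul_cancel₀ hc, one_mul]
  rw [h1]
  exact F₀.mul_mem (F₀.inv_mem hcF) (h i j)

/-- Two matrices whose fixed spaces are large have a common non-zero fixed vector. -/
theorem exists_common_fix {A B : Matrix ι ι F}
    (h : Fintype.card ι < finrank F (fixF A) + finrank F (fixF B)) :
    ∃ x : ι → F, x ≠ 0 ∧ A.mulVec x = x ∧ B.mulVec x = x := by
  have h4 := Submodule.finrank_sup_add_finrank_inf_eq (fixF A) (fixF B)
  have h5 := Submodule.finrank_le (fixF A ⊔ fixF B)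
  rw [Module.finrank_fintype_fun_eq_card] at h5
  have h6 : 0 < finrank F ↥(fixF A ⊓ fixF B) := by omega
  obtain ⟨x, hx⟩ := Module.finrank_pos_iff_exists_ne_zero.mp h6
  refine ⟨(x : ι → F), fun h0 => hx (Subtype.ext h0), ?_, ?_⟩
  · exact mem_fixF.mp x.2.1
  · exact mem_fixF.mp x.2.2

variable [Fintype F]

/-- The dihedral argument in any dimension at least 13 and odd characteristic: if the parameter
ring of the overgroup `M` of the rational part of `Ω` is the subfield, and square roots of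
rational scalars are rational, then every element of `M` is a scalar multiple of a rational
matrix. -/
theorem OG.le_H1_of_sq (D : OG Q F₀ Q₀ M) (hS : ∀ c : F, SP M Q₀ c → c ∈ F₀)
    (h2 : (2 : F) ≠ 0) (hsq : ∀ c : F, c * c ∈ F₀ → c ∈ F₀) :
    ∀ m ∈ M, ∃ c : F, c ≠ 0 ∧ ∀ i j, c * mt(m) i j ∈ F₀ := by
  classical
  let _ : Fintype F₀ := Fintype.ofFinite F₀
  have rs := D.rs
  have hn := D.hn
  have hQ := rs.nd
  have hH := D.hH
  have hne : Nonempty ι := by
    rw [← Fintype.card_pos_iff]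
    omega
  have hcardne : Fintype.card F ≠ 2 ∨ Fintype.card ι ≠ 4 := Or.inr (by omega)
  obtain ⟨v₁, hv₁, -⟩ := exists_unit_perp Q₀ rs.nd₀ ∅ (by
    simp only [Finset.card_empty]
    omega)
  obtain ⟨v₂, hv₂, hS₂⟩ := exists_unit_perp Q₀ rs.nd₀ {v₁} (by
    rw [Finset.card_singleton]
    omega)
  obtain ⟨v₃, hv₃, hS₃⟩ := exists_unit_perp Q₀ rs.nd₀ {v₁, v₂} (by
    have := Finset.card_le_two (a := v₁) (b := v₂)
    omega)
  obtain ⟨v₄, hv₄, hS₄⟩ := exists_unit_perp Q₀ rs.nd₀ {v₁, v₂, v₃} (by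
    have := Finset.card_le_three (a := v₁) (b := v₂) (c := v₃)
    omega)
  have o12 : polar ⇑Q₀ v₁ v₂ = 0 := hS₂ v₁ (by simp)
  have o13 : polar ⇑Q₀ v₁ v₃ = 0 := hS₃ v₁ (by simp)
  have o23 : polar ⇑Q₀ v₂ v₃ = 0 := hS₃ v₂ (by simp)
  have o14 : polar ⇑Q₀ v₁ v₄ = 0 := hS₄ v₁ (by simp)
  have o24 : polar ⇑Q₀ v₂ v₄ = 0 := hS₄ v₂ (by simp)
  have o34 : polar ⇑Q₀ v₃ v₄ = 0 := hS₄ v₃ (by simp)
  have e1 : Q (cv v₁) = 1 := by rw [rs.val, hv₁]; rfl
  have e2 : Q (cv v₂) = 1 := by rw [rs.val, hv₂]; rfl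
  have e3 : Q (cv v₃) = 1 := by rw [rs.val, hv₃]; rfl
  have e4 : Q (cv v₄) = 1 := by rw [rs.val, hv₄]; rfl
  have n1 : Q (cv v₁) ≠ 0 := by rw [e1]; exact one_ne_zero
  have n2 : Q (cv v₂) ≠ 0 := by rw [e2]; exact one_ne_zero
  have n3 : Q (cv v₃) ≠ 0 := by rw [e3]; exact one_ne_zero
  have n4 : Q (cv v₄) ≠ 0 := by rw [e4]; exact one_ne_zero
  obtain ⟨a, ha⟩ : ∃ a : ↥(Cfsg.isometryGroup F ⇑Q),
      a = refl Q (cv v₁) n1 * refl Q (cv v₂) n2 := ⟨_, rfl⟩
  obtain ⟨a', ha'⟩ : ∃ a' : ↥(Cfsg.isometryGroup F ⇑Q),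
      a' = refl Q (cv v₃) n3 * refl Q (cv v₄) n4 := ⟨_, rfl⟩
  obtain ⟨b0, hb0⟩ : ∃ b0 : ↥(Cfsg.isometryGroup F ⇑Q), b0 = a * a' := ⟨_, rfl⟩
  have Na : IsNeg Q Q₀ ![v₁, v₂] mt(a) := by
    rw [ha]
    exact isNeg_pair rs hv₁ hv₂ o12 n1 n2
  have Na' : IsNeg Q Q₀ ![v₃, v₄] mt(a') := by
    rw [ha']
    exact isNeg_pair rs hv₃ hv₄ o34 n3 n4
  have Nb : IsNeg Q Q₀ (Sum.elim ![v₁, v₂] ![v₃, v₄]) mt(b0) := by
    rw [hb0]
    exact Na.mul Na' rs (by
      intro k l
      fin_cases k <;> fin_cases l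
      · exact o13
      · exact o14
      · exact o23
      · exact o24)
  have haΩ : a ∈ commutator ↥(Cfsg.isometryGroup F ⇑Q) := by
    rw [ha]
    exact Cfsg.Agent.Lib.Helper7.refl_mul_refl_mem_commutator Q hQ hcardne _ _ n1 n2
      (by rw [e1, e2])
  have ha'Ω : a' ∈ commutator ↥(Cfsg.isometryGroup F ⇑Q) := by
    rw [ha']
    exact Cfsg.Agent.Lib.Helper7.refl_mul_refl_mem_commutator Q hQ hcardne _ _ n3 n4
      (by rw [e3, e4])
  have hb0Ω : b0 ∈ commutator ↥(Cfsg.isometryGroup F ⇑Q) := by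
    rw [hb0]
    exact Subgroup.mul_mem _ haΩ ha'Ω
  have haa : a * a = 1 := by
    apply isometry_ext
    apply matrix_ext_mulVec
    intro x
    show (mt(a) * mt(a)).mulVec x = (1 : Matrix ι ι F).mulVec x
    rw [← Matrix.mulVec_mulVec, Na.sq rs, Matrix.one_mulVec]
  have hbb0 : b0 * b0 = 1 := by
    apply isometry_ext
    apply matrix_ext_mulVec
    intro x
    show (mt(b0) * mt(b0)).mulVec x = (1 : Matrix ι ι F).mulVec x
    rw [← Matrix.mulVec_mulVec, Nb.sq rs, Matrix.one_mulVec]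
  have haM : a ∈ M := hH a haΩ (Na.rat rs)
  have hb0M : b0 ∈ M := hH b0 hb0Ω (Nb.rat rs)
  have Ia : RInv Q F₀ mt(a) := rinv_of (Na.rat rs) haa
  have Ib0 : RInv Q F₀ mt(b0) := rinv_of (Nb.rat rs) hbb0
  have ha1 : mt(a) ≠ 1 := Na.ne_one rs h2
  have hb01 : mt(b0) ≠ 1 := Nb.ne_one rs h2
  have fa : Fintype.card ι ≤ finrank F₀ (fixR F₀ mt(a)) + 2 := by
    have := Na.finrank_fix rs
    rwa [Fintype.card_fin] at this
  have fb : Fintype.card ι ≤ finrank F₀ (fixR F₀ mt(b0)) + 4 := by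
    have := Nb.finrank_fix rs
    rwa [Fintype.card_sum, Fintype.card_fin] at this
  have fbn : 4 ≤ finrank F₀ (fixR F₀ (-mt(b0))) := by
    have := Nb.finrank_neg rs h2
    rwa [Fintype.card_sum, Fintype.card_fin] at this
  have fan : finrank F₀ (fixR F₀ (-mt(a))) ≤ 2 := by
    have := finrank_fixR_add_le h2 F₀ mt(a)
    omega
  intro m hm
  obtain ⟨b, hb⟩ : ∃ b : ↥(Cfsg.isometryGroup F ⇑Q), b = m * b0 * m⁻¹ := ⟨_, rfl⟩
  have hbb : b * b = 1 := by
    rw [hb]
    calc m * b0 * m⁻¹ * (m * b0 * m⁻¹) = m * (b0 * b0) * m⁻¹ := by group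
      _ = 1 := by rw [hbb0]; group
  have hbM : b ∈ M := by
    rw [hb]
    exact M.mul_mem (M.mul_mem hm hb0M) (M.inv_mem hm)
  have hmb : mt(m) * mt(b0) = mt(b) * mt(m) := by
    have h : m * b0 = b * m := by rw [hb]; group
    have h' := congrArg (fun x : ↥(Cfsg.isometryGroup F ⇑Q) => mt(x)) h
    simpa using h'
  rcases Cfsg.Agent.Lib.Helper50.dihedral_alt a b haa hbb with ⟨g, hg⟩ | ⟨j, hz1, hzz, haz, hbz⟩
  · exfalso
    have h : (g⁻¹ * m) * b0 = a * (g⁻¹ * m) := by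
      have h3 : m * b0 * m⁻¹ = g * a * g⁻¹ := by rw [← hb, hg]
      calc g⁻¹ * m * b0 = g⁻¹ * (m * b0 * m⁻¹) * m := by group
        _ = g⁻¹ * (g * a * g⁻¹) * m := by rw [h3]
        _ = a * (g⁻¹ * m) := by group
    have h' := congrArg (fun x : ↥(Cfsg.isometryGroup F ⇑Q) => mt(x)) h
    have h'' : mt(g⁻¹ * m) * (-mt(b0)) = (-mt(a)) * mt(g⁻¹ * m) := by
      rw [mul_neg, neg_mul]
      exact congrArg Neg.neg h'
    have h5 := Ia.neg.finrank_conj h2 ((g⁻¹ * m : ↥(Cfsg.isometryGroup F ⇑Q)) :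
      Matrix.GeneralLinearGroup ι F) h''
    omega
  · obtain ⟨z, hz⟩ : ∃ z : ↥(Cfsg.isometryGroup F ⇑Q), z = (a * b) ^ j := ⟨_, rfl⟩
    rw [← hz] at hz1 hzz haz hbz
    have hzneg : mt(z) ≠ -1 := by
      have f1 := finrank_fixR_le F₀ mt(a)
      have f2 := finrank_fixR_le F₀ mt(b0)
      have f3 := finrank_fixF_conj (m : Matrix.GeneralLinearGroup ι F) hmb
      obtain ⟨x, hx0, hax, hbx⟩ := exists_common_fix (A := mt(a)) (B := mt(b)) (by omega)
      have hzmat : mt(z) = (mt(a) * mt(b)) ^ j := by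
        rw [hz]
        simp
      have h1 : mt(z).mulVec x = x := by
        rw [hzmat]
        exact Cfsg.Agent.Lib.Helper50.pow_mulVec_fix _ x
          (by rw [← Matrix.mulVec_mulVec, hbx, hax]) j
      intro h
      rw [h, Matrix.neg_mulVec, Matrix.one_mulVec] at h1
      apply hx0
      have h5 : (2 : F) • x = 0 := by
        rw [two_smul]
        nth_rewrite 1 [← h1]
        abel
      exact (smul_eq_zero.mp h5).resolve_left h2
    have hzM : z ∈ M := by
      rw [hz]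
      exact M.pow_mem (M.mul_mem haM hbM) j
    have hzrat : ∀ i j, mt(z) i j ∈ F₀ := by
      have hcomm : mt(z) * mt(a) = mt(a) * mt(z) := by
        have h' := congrArg (fun x : ↥(Cfsg.isometryGroup F ⇑Q) => mt(x)) haz.symm
        simpa using h'
      obtain ⟨c, hc, h⟩ := DSet.main ⟨D, hS, h2, hzM, Ia, Ia, hcomm, by omega, by omega,
        Ia.exists_neg h2 ha1⟩
      exact rat_of_scalar_sq hsq hzz hc h
    have Iz : RInv Q F₀ mt(z) := rinv_of hzrat hzz
    have hz1' : mt(z) ≠ 1 := by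
      intro h
      apply hz1
      apply isometry_ext
      rw [h]
      rfl
    have hbrat : ∀ i j, mt(b) i j ∈ F₀ := by
      have hcomm : mt(b) * mt(z) = mt(z) * mt(b) := by
        have h' := congrArg (fun x : ↥(Cfsg.isometryGroup F ⇑Q) => mt(x)) hbz
        simpa using h'
      obtain ⟨c, hc, h⟩ := D.scalar_of_comm hS h2 hbM Iz hz1' hzneg hcomm
      exact rat_of_scalar_sq hsq hbb hc h
    have Ib : RInv Q F₀ mt(b) := rinv_of hbrat hbb
    have hb1 : mt(b) ≠ 1 := by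
      intro h
      apply hb01
      have hb' : b = 1 := by
        apply isometry_ext
        rw [h]
        rfl
      have h3 : b0 = 1 := by
        have h4 : b0 = m⁻¹ * b * m := by rw [hb]; group
        rw [h4, hb']
        group
      rw [h3]
      rfl
    have h5 := Ib.finrank_conj h2 (m : Matrix.GeneralLinearGroup ι F) hmb
    exact DSet.main ⟨D, hS, h2, hm, Ib0, Ib, hmb, by omega, by omega, Ib.exists_neg h2 hb1⟩

/-- The odd degree case: every element of the overgroup `M` is a scalar multiple of a rational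
matrix (any dimension at least 13, odd characteristic). -/
theorem OG.le_H1_of_odd (D : OG Q F₀ Q₀ M) (hS : ∀ c : F, SP M Q₀ c → c ∈ F₀)
    (h2 : (2 : F) ≠ 0) (r : ℕ) (hrodd : Odd r) (hcard : Fintype.card F = Nat.card F₀ ^ r) :
    ∀ m ∈ M, ∃ c : F, c ≠ 0 ∧ ∀ i j, c * mt(m) i j ∈ F₀ :=
  D.le_H1_of_sq hS h2 (fun c hc =>
    Cfsg.Agent.Lib.Helper50.mem_of_sq_mem F₀ r hcard (Or.inr hrodd) c (by rw [pow_two]; exact hc))

/-- The same, as membership in the group of scalar multiples of rational matrices. -/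
theorem OG.mem_H1_of_odd (D : OG Q F₀ Q₀ M) (hS : ∀ c : F, SP M Q₀ c → c ∈ F₀)
    (h2 : (2 : F) ≠ 0) (r : ℕ) (hrodd : Odd r) (hcard : Fintype.card F = Nat.card F₀ ^ r)
    {m : ↥(Cfsg.isometryGroup F ⇑Q)} (hm : m ∈ M) :
    (m : Matrix.GeneralLinearGroup ι F) ∈ Cfsg.Agent.Lib.Helper50.H1 ι F₀ := by
  obtain ⟨c, hc, hrat'⟩ := D.le_H1_of_odd hS h2 r hrodd hcard m hm
  exact Cfsg.Agent.Lib.Helper50.mem_H1_of F₀ _ c⁻¹ (inv_ne_zero hc) (c • mt(m))
    (fun i j => by rw [Matrix.smul_apply, smul_eq_mul]; exact hrat' i j)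
    (by rw [smul_smul, inv_mul_cancel₀ hc, one_smul])

end Even

end Cfsg.Agent.Lib.Helper44.OS
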