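import Cfsg.Agent.Lib.Helper47.FormConj
import Cfsg.Agent.S0750

/-!
# Semisimple isometries of odd order of a quadratic space over a finite field

Two linearly conjugate semisimple isometries `g`, `g'` of odd order of a quadratic form `Q` with
nondegenerate polar form are conjugate by an isometry of `Q`.  Route: `V = ker (g - 1) ⊕ range (g - 1)`;
on `W = range (g - 1)` the form `(x, y) ↦ β (g x) y - β x (g y)` is alternating, nondegenerate and
`g`-invariant, so the alternating case of `Helper47.exists_isometry_conj` gives an equivariant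
isometry of these forms between `W` and `W'`; it preserves `β` and `Q`; Witt's lemma (S0750)
extends it to `V`.
-/

set_option autoImplicit false

namespace Cfsg.Agent.Lib.Helper44.OrthConj

open Module Cfsg.Agent.Lib.Helper47

universe u

section One

variable {F : Type*} [Field F] {V : Type*} [AddCommGroup V] [Module F V]
  (Q : QuadraticForm F V) {g : Module.End F V}

lemma polar_apply (x y : V) : QuadraticMap.polarBilin Q x y = Q (x + y) - Q x - Q y := by
  rw [QuadraticMap.polarBilin_apply_apply]; rfl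

lemma polar_comm' (x y : V) : QuadraticMap.polarBilin Q x y = QuadraticMap.polarBilin Q y x := by
  rw [polar_apply, polar_apply, add_comm]; ring

lemma polar_self' (x : V) : QuadraticMap.polarBilin Q x x = 2 * Q x := by
  rw [QuadraticMap.polarBilin_apply_apply, QuadraticMap.polar_self, two_smul, two_mul]

lemma Q_sub (x y : V) : Q (x - y) = Q x + Q y - QuadraticMap.polarBilin Q x y := by
  have h1 := polar_apply Q (x - y) y
  rw [sub_add_cancel, map_sub, LinearMap.sub_apply, polar_self'] at h1
  linear_combination h1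

variable (hg : ∀ v, Q (g v) = Q v)
include hg

lemma polar_inv (x y : V) : QuadraticMap.polarBilin Q (g x) (g y) = QuadraticMap.polarBilin Q x y := by
  rw [polar_apply, polar_apply, ← map_add, hg, hg, hg]

omit hg in
lemma range_invt : LinearMap.range (g - 1) ∈ Module.End.invtSubmodule g := by
  rw [Module.End.mem_invtSubmodule_iff_forall_mem_of_mem]
  rintro _ ⟨z, rfl⟩
  refine ⟨g z, ?_⟩
  simp only [LinearMap.sub_apply, Module.End.one_apply, map_sub]

omit hg in
lemma ker_invt : LinearMap.ker (g - 1) ∈ Module.End.invtSubmodule g := by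
  rw [Module.End.mem_invtSubmodule_iff_forall_mem_of_mem]
  intro x hx
  rw [LinearMap.mem_ker] at hx ⊢
  have h1 : (g - 1) (g x) = g ((g - 1) x) := by
    simp only [LinearMap.sub_apply, Module.End.one_apply, map_sub]
  rw [h1, hx, map_zero]

omit hg in
lemma isCompl_ker_range [FiniteDimensional F V] (hgs : g.IsSemisimple) :
    IsCompl (LinearMap.ker (g - 1)) (LinearMap.range (g - 1)) := by
  obtain ⟨C, hC, hc⟩ := Module.End.isSemisimple_iff.mp hgs _ ker_invt
  rw [Module.End.mem_invtSubmodule_iff_forall_mem_of_mem] at hC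
  have hCT : ∀ x ∈ C, (g - 1) x ∈ C := fun x hx => by
    rw [LinearMap.sub_apply, Module.End.one_apply]; exact C.sub_mem (hC x hx) hx
  have hinj : ∀ x ∈ C, (g - 1) x = 0 → x = 0 := fun x hx h =>
    Submodule.disjoint_def.mp hc.disjoint x (LinearMap.mem_ker.mpr h) hx
  have hsurj := exists_preimage_of_injOn (g - 1) C hCT hinj
  have hR : LinearMap.range (g - 1) = C := by
    apply le_antisymm
    · rintro _ ⟨v, rfl⟩
      have hv : v ∈ LinearMap.ker (g - 1) ⊔ C := by rw [hc.sup_eq_top]; exact Submodule.mem_top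
      obtain ⟨a, ha, c, hc', rfl⟩ := Submodule.mem_sup.mp hv
      rw [map_add, LinearMap.mem_ker.mp ha, zero_add]
      exact hCT c hc'
    · intro c hc'
      obtain ⟨z, -, hz⟩ := hsurj c hc'
      exact ⟨z, hz⟩
  rw [hR]; exact hc

/-- `ker (g - 1)` is orthogonal to `range (g - 1)`. -/
lemma polar_ker_range {a w : V} (ha : a ∈ LinearMap.ker (g - 1))
    (hw : w ∈ LinearMap.range (g - 1)) : QuadraticMap.polarBilin Q a w = 0 := by
  obtain ⟨z, rfl⟩ := hw
  rw [LinearMap.mem_ker, LinearMap.sub_apply, Module.End.one_apply, sub_eq_zero] at ha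
  rw [LinearMap.sub_apply, Module.End.one_apply, map_sub]
  have h1 := polar_inv Q hg a z
  rw [ha] at h1
  rw [h1, sub_self]

/-- Vectors orthogonal to `range (g - 1)` are fixed by `g`. -/
lemma mem_ker_of_polar_range (hQ : (QuadraticMap.polarBilin Q).Nondegenerate)
    (hsurj : Function.Surjective g) {y : V}
    (hy : ∀ w ∈ LinearMap.range (g - 1), QuadraticMap.polarBilin Q y w = 0) :
    g y = y := by
  have h1 : g y - y = 0 := by
    apply hQ.1
    intro z'
    obtain ⟨z, rfl⟩ := hsurj z'
    have h2 := hy ((g - 1) z) ⟨z, rfl⟩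
    rw [LinearMap.sub_apply, Module.End.one_apply, map_sub] at h2
    rw [map_sub, LinearMap.sub_apply, polar_inv Q hg]
    linear_combination -h2
  exact sub_eq_zero.mp h1

omit hg in
lemma surjective_of_pow_eq_one {k : ℕ} (hk : k ≠ 0) (hgk : g ^ k = 1) : Function.Surjective g := by
  intro z
  refine ⟨(g ^ (k - 1)) z, ?_⟩
  rw [← Module.End.mul_apply, ← pow_succ', Nat.sub_add_cancel (Nat.pos_of_ne_zero hk), hgk,
    Module.End.one_apply]

omit hg in
lemma injective_of_pow_eq_one {k : ℕ} (hk : k ≠ 0) (hgk : g ^ k = 1) : Function.Injective g := by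
  intro x y hxy
  have h1 : (g ^ (k - 1)) (g x) = (g ^ (k - 1)) (g y) := by rw [hxy]
  rwa [← Module.End.mul_apply, ← Module.End.mul_apply, ← pow_succ,
    Nat.sub_add_cancel (Nat.pos_of_ne_zero hk), hgk, Module.End.one_apply,
    Module.End.one_apply] at h1

omit hg in
/-- For `g` of odd order, `1 - g ^ 2` is injective on `range (g - 1)`. -/
lemma eq_zero_of_sq_fix [FiniteDimensional F V] (hgs : g.IsSemisimple) {k : ℕ} (hk : Odd k)
    (hgk : g ^ k = 1) {w : V} (hw : w ∈ LinearMap.range (g - 1)) (h : w - g (g w) = 0) :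
    w = 0 := by
  have h2 : g (g w) = w := (sub_eq_zero.mp h).symm
  obtain ⟨m, rfl⟩ := hk
  have h3 : ∀ j : ℕ, (g ^ (2 * j)) w = w := by
    intro j
    induction j with
    | zero => simp
    | succ j ih =>
      rw [Nat.mul_succ, pow_add, Module.End.mul_apply, pow_two, Module.End.mul_apply, h2, ih]
  have h4 : g w = w := by
    have h5 : (g ^ (2 * m + 1)) w = w := by rw [hgk, Module.End.one_apply]
    rw [pow_succ', Module.End.mul_apply, h3] at h5
    exact h5
  have h6 : w ∈ LinearMap.ker (g - 1) := by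
    rw [LinearMap.mem_ker, LinearMap.sub_apply, Module.End.one_apply, h4, sub_self]
  exact Submodule.disjoint_def.mp (isCompl_ker_range hgs).disjoint w h6 hw

/-- The alternating form attached to `g` on an invariant subspace. -/
def altForm (Q : QuadraticForm F V) (g : Module.End F V) (W : Submodule F V) : W → W → F :=
  fun x y => QuadraticMap.polarBilin Q (g x) y - QuadraticMap.polarBilin Q x (g y)

omit hg in
lemma altForm_apply (W : Submodule F V) (x y : W) :
    altForm Q g W x y = QuadraticMap.polarBilin Q (g x) y - QuadraticMap.polarBilin Q x (g y) := rfl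

omit hg in
lemma altForm_isSForm (W : Submodule F V) : IsSForm (RingHom.id F) (-1) (altForm Q g W) where
  add_left x y z := by
    simp only [altForm_apply, Submodule.coe_add, map_add, LinearMap.add_apply]; ring
  smul_left c x y := by
    simp only [altForm_apply, Submodule.coe_smul, map_smul, LinearMap.smul_apply, smul_eq_mul]
    ring
  symm x y := by
    simp only [altForm_apply, RingHom.id_apply]
    rw [polar_comm' Q (g y) x, polar_comm' Q y (g x)]; ring

omit hg in
lemma altForm_self (W : Submodule F V) (x : W) : altForm Q g W x x = 0 := by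
  rw [altForm_apply, polar_comm' Q (g x) x, sub_self]

lemma altForm_inv (W : Submodule F V) (hW : W ∈ Module.End.invtSubmodule g) (x y : W) :
    altForm Q g W (resInv g hW x) (resInv g hW y) = altForm Q g W x y := by
  simp only [altForm_apply, resInv_apply]
  rw [polar_inv Q hg, polar_inv Q hg]

/-- `altForm x y₀ = β (g x) (y₀ - g (g y₀))`. -/
lemma altForm_eq (W : Submodule F V) (x y : W) :
    altForm Q g W x y = QuadraticMap.polarBilin Q (g x) ((y : V) - g (g y)) := by
  rw [altForm_apply, map_sub, polar_inv Q hg]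

end One

section Main

variable {F : Type*} [Field F] [Finite F] {V : Type u} [AddCommGroup V] [Module F V]
  [FiniteDimensional F V]

/-- Linearly conjugate semisimple isometries of odd order of a quadratic form with
nondegenerate polar form over a finite field are conjugate by an isometry. -/
theorem exists_quadratic_isometry_conj (Q : QuadraticForm F V)
    (hQ : (QuadraticMap.polarBilin Q).Nondegenerate)
    (g g' : Module.End F V) (hg : ∀ v, Q (g v) = Q v) (hg' : ∀ v, Q (g' v) = Q v)
    (hgs : g.IsSemisimple) (hgs' : g'.IsSemisimple)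
    (k : ℕ) (hk : Odd k) (hgk : g ^ k = 1) (hgk' : g' ^ k = 1)
    (c : V ≃ₗ[F] V) (hc : ∀ v, c (g v) = g' (c v)) :
    ∃ ψ : V ≃ₗ[F] V, (∀ v, Q (ψ v) = Q v) ∧ ∀ v, ψ (g v) = g' (ψ v) := by
  have hk0 : k ≠ 0 := fun h => by rw [h] at hk; exact absurd hk (by decide)
  have hW : LinearMap.range (g - 1) ∈ Module.End.invtSubmodule g := range_invt
  have hW' : LinearMap.range (g' - 1) ∈ Module.End.invtSubmodule g' := range_invt
  have hWm := (Module.End.mem_invtSubmodule_iff_forall_mem_of_mem g).mp hW
  have hWm' := (Module.End.mem_invtSubmodule_iff_forall_mem_of_mem g').mp hW'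
  have hcompl := isCompl_ker_range hgs
  have hcompl' := isCompl_ker_range hgs'
  have hgsurj := surjective_of_pow_eq_one hk0 hgk
  have hgsurj' := surjective_of_pow_eq_one hk0 hgk'
  have hginj := injective_of_pow_eq_one hk0 hgk
  have hginj' := injective_of_pow_eq_one hk0 hgk'
  -- surjectivity facts on `W`
  have s1 : ∀ w ∈ LinearMap.range (g - 1), ∃ x ∈ LinearMap.range (g - 1), g x = w :=
    exists_preimage_of_injOn g _ hWm (fun x _ hx => hginj (by rw [hx, map_zero]))
  have s2 : ∀ w ∈ LinearMap.range (g - 1), ∃ y ∈ LinearMap.range (g - 1), y - g (g y) = w := by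
    have := exists_preimage_of_injOn (1 - g * g) (LinearMap.range (g - 1))
      (fun x hx => by
        rw [LinearMap.sub_apply, Module.End.one_apply, Module.End.mul_apply]
        exact Submodule.sub_mem _ hx (hWm _ (hWm _ hx)))
      (fun x hx h => by
        rw [LinearMap.sub_apply, Module.End.one_apply, Module.End.mul_apply] at h
        exact eq_zero_of_sq_fix hgs hk hgk hx h)
    intro w hw
    obtain ⟨y, hy, hyw⟩ := this w hw
    exact ⟨y, hy, by rwa [LinearMap.sub_apply, Module.End.one_apply, Module.End.mul_apply] at hyw⟩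
  have s3 : ∀ w ∈ LinearMap.range (g - 1), ∃ u ∈ LinearMap.range (g - 1), g u - u = w := by
    have := exists_preimage_of_injOn (g - 1) (LinearMap.range (g - 1))
      (fun x hx => by
        rw [LinearMap.sub_apply, Module.End.one_apply]
        exact Submodule.sub_mem _ (hWm _ hx) hx)
      (fun x hx h => Submodule.disjoint_def.mp hcompl.disjoint x (LinearMap.mem_ker.mpr h) hx)
    intro w hw
    obtain ⟨y, hy, hyw⟩ := this w hw
    exact ⟨y, hy, by rwa [LinearMap.sub_apply, Module.End.one_apply] at hyw⟩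
  -- nondegeneracy of the alternating forms
  have hnd : Nondeg (altForm Q g (LinearMap.range (g - 1))) := by
    intro x hx
    have h1 : g (x : V) = 0 := by
      apply hQ.1
      intro z
      have hz : z ∈ LinearMap.ker (g - 1) ⊔ LinearMap.range (g - 1) := by
        rw [hcompl.sup_eq_top]; exact Submodule.mem_top
      obtain ⟨a, ha, w, hw, rfl⟩ := Submodule.mem_sup.mp hz
      rw [map_add, polar_comm' Q _ a, polar_ker_range Q hg ha (hWm _ x.2), zero_add]
      obtain ⟨y, hy, rfl⟩ := s2 w hw
      have := hx ⟨y, hy⟩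
      rwa [altForm_eq Q hg] at this
    exact Subtype.ext (hginj (by rw [h1]; simp))
  have hnd' : Nondeg (altForm Q g' (LinearMap.range (g' - 1))) := by
    have s2' : ∀ w ∈ LinearMap.range (g' - 1), ∃ y ∈ LinearMap.range (g' - 1),
        y - g' (g' y) = w := by
      have := exists_preimage_of_injOn (1 - g' * g') (LinearMap.range (g' - 1))
        (fun x hx => by
          rw [LinearMap.sub_apply, Module.End.one_apply, Module.End.mul_apply]
          exact Submodule.sub_mem _ hx (hWm' _ (hWm' _ hx)))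
        (fun x hx h => by
          rw [LinearMap.sub_apply, Module.End.one_apply, Module.End.mul_apply] at h
          exact eq_zero_of_sq_fix hgs' hk hgk' hx h)
      intro w hw
      obtain ⟨y, hy, hyw⟩ := this w hw
      exact ⟨y, hy, by
        rwa [LinearMap.sub_apply, Module.End.one_apply, Module.End.mul_apply] at hyw⟩
    intro x hx
    have h1 : g' (x : V) = 0 := by
      apply hQ.1
      intro z
      have hz : z ∈ LinearMap.ker (g' - 1) ⊔ LinearMap.range (g' - 1) := by
        rw [hcompl'.sup_eq_top]; exact Submodule.mem_top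
      obtain ⟨a, ha, w, hw, rfl⟩ := Submodule.mem_sup.mp hz
      rw [map_add, polar_comm' Q _ a, polar_ker_range Q hg' ha (hWm' _ x.2), zero_add]
      obtain ⟨y, hy, rfl⟩ := s2' w hw
      have := hx ⟨y, hy⟩
      rwa [altForm_eq Q hg'] at this
    exact Subtype.ext (hginj' (by rw [h1]; simp))
  -- the restriction of `c`
  have hcmap : Submodule.map (c : V →ₗ[F] V) (LinearMap.range (g - 1)) = LinearMap.range (g' - 1) := by
    apply le_antisymm
    · rintro _ ⟨_, ⟨z, rfl⟩, rfl⟩
      refine ⟨c z, ?_⟩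
      simp only [LinearMap.sub_apply, Module.End.one_apply, LinearEquiv.coe_coe, map_sub, hc]
    · rintro _ ⟨z, rfl⟩
      refine ⟨(g - 1) (c.symm z), ⟨_, rfl⟩, ?_⟩
      simp only [LinearMap.sub_apply, Module.End.one_apply, LinearEquiv.coe_coe, map_sub, hc,
        LinearEquiv.apply_symm_apply]
  let cW : ↥(LinearMap.range (g - 1)) ≃ₗ[F] ↥(LinearMap.range (g' - 1)) :=
    (c.submoduleMap (LinearMap.range (g - 1))).trans (LinearEquiv.ofEq _ _ hcmap)
  have hcW : ∀ x, (cW x : V) = c x := fun x => rfl
  have hcp : (resInv g hW).charpoly = (resInv g' hW').charpoly := by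
    rw [← LinearEquiv.charpoly_conj cW (resInv g hW)]
    congr 1
    apply LinearMap.ext
    intro x
    apply Subtype.ext
    rw [LinearEquiv.conj_apply_apply, hcW, resInv_apply, resInv_apply, hc, ← hcW,
      LinearEquiv.apply_symm_apply]
  obtain ⟨φ, hφe, hφi⟩ := exists_isometry_conj (σ := RingHom.id F) (ε := -1) (fun x => rfl)
    (Or.inl ⟨rfl, rfl⟩) _ ↥(LinearMap.range (g - 1)) ↥(LinearMap.range (g' - 1))
    (altForm Q g _) (altForm Q g' _) (resInv g hW) (resInv g' hW') rfl
    (altForm_isSForm Q _) (altForm_isSForm Q _) hnd hnd' (fun _ => altForm_self Q _)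
    (fun _ => altForm_self Q _) (isSemisimple_resInv hgs hW) (isSemisimple_resInv hgs' hW')
    (altForm_inv Q hg _ hW) (altForm_inv Q hg' _ hW') hcp
  have hφe' : ∀ x : ↥(LinearMap.range (g - 1)), ((φ (resInv g hW x) : ↥(LinearMap.range (g' - 1))) : V)
      = g' (φ x : V) := fun x => by rw [hφe]; rfl
  -- `φ` preserves the polar form
  have hβ : ∀ z y : ↥(LinearMap.range (g - 1)),
      QuadraticMap.polarBilin Q (φ z : V) (φ y : V) = QuadraticMap.polarBilin Q (z : V) (y : V) := by
    intro z y
    obtain ⟨x, hx, hxz⟩ := s1 z z.2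
    obtain ⟨y₀, hy₀, hy₀y⟩ := s2 y y.2
    have e1 := hφi ⟨x, hx⟩ ⟨y₀, hy₀⟩
    rw [altForm_eq Q hg, altForm_eq Q hg'] at e1
    have ez : z = resInv g hW ⟨x, hx⟩ := Subtype.ext hxz.symm
    have ey : y = ⟨y₀, hy₀⟩ - resInv g hW (resInv g hW ⟨y₀, hy₀⟩) := Subtype.ext hy₀y.symm
    have e2 : (φ z : V) = g' (φ ⟨x, hx⟩ : V) := by rw [ez, hφe']
    have e3 : (φ y : V) = (φ ⟨y₀, hy₀⟩ : V) - g' (g' (φ ⟨y₀, hy₀⟩ : V)) := by
      rw [ey, map_sub, Submodule.coe_sub, hφe', hφe']
    rw [e2, e3, e1, ← hxz, ← hy₀y]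
  -- `φ` preserves `Q`
  have hQφ : ∀ w : ↥(LinearMap.range (g - 1)), Q (φ w : V) = Q (w : V) := by
    intro w
    obtain ⟨u, hu, huw⟩ := s3 w w.2
    have ew : w = resInv g hW ⟨u, hu⟩ - ⟨u, hu⟩ := Subtype.ext huw.symm
    have e1 : (φ w : V) = g' (φ ⟨u, hu⟩ : V) - (φ ⟨u, hu⟩ : V) := by
      rw [ew, map_sub, Submodule.coe_sub, hφe']
    have e2 := hβ ⟨u, hu⟩ ⟨u, hu⟩
    have e3 := hβ (resInv g hW ⟨u, hu⟩) ⟨u, hu⟩
    rw [hφe', resInv_apply] at e3
    rw [polar_self', polar_self'] at e2
    rw [e1, ← huw, Q_sub, Q_sub, hg, hg', e3]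
    linear_combination e2
  obtain ⟨ψ, hψQ, hψφ⟩ := Cfsg.Agent.S0750.result Q hQ _ _ φ hQφ
  have hψβ : ∀ x y, QuadraticMap.polarBilin Q (ψ x) (ψ y) = QuadraticMap.polarBilin Q x y := by
    intro x y
    rw [polar_apply, polar_apply, ← map_add, hψQ, hψQ, hψQ]
  refine ⟨ψ, hψQ, fun v => ?_⟩
  have hv : v ∈ LinearMap.ker (g - 1) ⊔ LinearMap.range (g - 1) := by
    rw [hcompl.sup_eq_top]; exact Submodule.mem_top
  obtain ⟨a, ha, w, hw, rfl⟩ := Submodule.mem_sup.mp hv
  have hga : g a = a := by
    rwa [LinearMap.mem_ker, LinearMap.sub_apply, Module.End.one_apply, sub_eq_zero] at ha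
  have hψa : g' (ψ a) = ψ a := by
    apply mem_ker_of_polar_range Q hg' hQ hgsurj'
    intro w' hw'
    obtain ⟨w₀, hw₀⟩ := φ.surjective ⟨w', hw'⟩
    have e1 : w' = ψ (w₀ : V) := by rw [hψφ, hw₀]
    rw [e1, hψβ]
    exact polar_ker_range Q hg ha w₀.2
  have hψw : ψ (g w) = g' (ψ w) := by
    have h1 := hψφ (resInv g hW ⟨w, hw⟩)
    rw [hφe', ← hψφ] at h1
    exact h1
  rw [map_add g, map_add ψ, map_add ψ, map_add g', hga, hψa, hψw]

end Main

end Cfsg.Agent.Lib.Helper44.OrthConj
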