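import Mathlib
import Cfsg.Agent.Lib.Helper50.SubfW
import Cfsg.Agent.Lib.Helper57.DKRHO
import Cfsg.Agent.Lib.Helper77.DKSL2

/-!
# Subfield subgroups of `SL_n`, odd characteristic: no overgroup element is in general position

The Dickson route (helper44): replaces the dihedral argument of `Helper50.le_H1_odd` and works for every
`n ≥ 3`.
-/

set_option autoImplicit false

namespace Cfsg.Agent.Lib.Helper44.SubfDk

open Matrix Cfsg.Agent.Lib.Helper97 Cfsg.Agent.Lib.Helper50

theorem subfdk_upper {F : Type*} [Field F] (x : F) :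
    ∃ g : Matrix.SpecialLinearGroup (Fin 2) F, (g : Matrix (Fin 2) (Fin 2) F) = !![1, x; 0, 1] :=
  ⟨⟨!![1, x; 0, 1], by simp [Matrix.det_fin_two]⟩, rfl⟩

theorem subfdk_lower {F : Type*} [Field F] (y : F) :
    ∃ g : Matrix.SpecialLinearGroup (Fin 2) F, (g : Matrix (Fin 2) (Fin 2) F) = !![1, 0; y, 1] :=
  ⟨⟨!![1, 0; y, 1], by simp [Matrix.det_fin_two]⟩, rfl⟩

/-- The key fact: for `m ∈ M`, the products of the entries of column `0` of `m` and row `1` of `m⁻¹`
at distinct positions are rational. -/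
theorem subfdk_key {n : ℕ} {F : Type*} [Field F] [Fintype F] (hn : 3 ≤ n) {F₀ : Subfield F}
    {M : Subgroup (GL (Fin n) F)}
    (hHM : H1 (Fin n) F₀ ⊓ Cfsg.Geo.specialLinear (Fin n) F ≤ M)
    (hW : ∀ c : F, InW M c → c ∈ F₀)
    (hsq : ∀ c : F, c ^ 2 ∈ F₀ → c ∈ F₀) (h2 : (2 : F) ≠ 0) (m : GL (Fin n) F) (hm : m ∈ M)
    (i j : Fin n) (hij : i ≠ j) :
    ((m : Matrix (Fin n) (Fin n) F) *ᵥ Pi.single (⟨0, by omega⟩ : Fin n) 1) j
      * ((Pi.single (⟨1, by omega⟩ : Fin n) (1 : F)) ᵥ* ((m⁻¹ : GL (Fin n) F) : Matrix (Fin n) (Fin n) F)) i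
      ∈ F₀ := by
  classical
  have h3 : ∀ i j : Fin n, ∃ k, k ≠ i ∧ k ≠ j := by
    intro i j
    by_contra hcon
    push Not at hcon
    have hsub : (Finset.univ : Finset (Fin n)) ⊆ {i, j} := by
      intro k _
      by_cases hki : k = i
      · simp [hki]
      · simp [hcon k hki]
    have hc := Finset.card_le_card hsub
    have hc2 : ({i, j} : Finset (Fin n)).card ≤ 2 := Finset.card_insert_le _ _
    simp at hc
    omega
  set e0 : Fin n := ⟨0, by omega⟩ with he0
  set e1 : Fin n := ⟨1, by omega⟩ with he1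
  have h01 : e0 ≠ e1 := by rw [he0, he1]; simp
  set a : Fin n → F := (m : Matrix (Fin n) (Fin n) F) *ᵥ Pi.single e0 1 with ha
  set α : Fin n → F := (Pi.single e1 (1 : F)) ᵥ* ((m⁻¹ : GL (Fin n) F) : Matrix (Fin n) (Fin n) F) with hα
  -- the conjugate transvection
  have hT : TM M a α := by
    have h1 : TM M (Pi.single e0 (1 : F)) (Pi.single e1 (1 : F)) :=
      rat_TM hHM (ratV_single F₀ e0 F₀.one_mem) (ratV_single F₀ e1 F₀.one_mem)
        (single_dot_single_ne h01 1 1)
    have h2' := TM_conj h1 (M.inv_mem hm)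
    rw [inv_inv] at h2'
    exact h2'
  by_contra hμ
  set μ : F := a j * α i with hμdef
  have hμ0 : μ ≠ 0 := fun h => hμ (h ▸ F₀.zero_mem)
  have haj : a j ≠ 0 := left_ne_zero_of_mul hμ0
  have hαi : α i ≠ 0 := right_ne_zero_of_mul hμ0
  have hμ2 : μ ^ 2 ≠ -1 := fun h => hμ (hsq μ (h ▸ F₀.neg_mem F₀.one_mem))
  have hφu : (Pi.single j (1 : F) : Fin n → F) ⬝ᵥ Pi.single i 1 = 0 := single_dot_single_ne hij 1 1
  have hφa : (Pi.single j (1 : F) : Fin n → F) ⬝ᵥ a = a j := by
    rw [single_dotProduct, one_mul]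
  have hαu : α ⬝ᵥ Pi.single i 1 = α i := by
    rw [dotProduct_single, mul_one]
  obtain ⟨ρ, hρu, hρl⟩ := dk_rho (Pi.single i (1 : F)) a (Pi.single j (1 : F)) α hφu hT.1
    (by rw [hφa]; exact haj) (by rw [hαu]; exact hαi)
  have hup : ∀ g : Matrix.SpecialLinearGroup (Fin 2) F,
      (g : Matrix (Fin 2) (Fin 2) F) = !![1, 1; 0, 1] → g ∈ M.comap ρ := by
    intro g hg
    rw [Subgroup.mem_comap]
    have h1 : TM M (Pi.single i (1 : F)) (Pi.single j (1 : F)) :=
      rat_TM hHM (ratV_single F₀ i F₀.one_mem) (ratV_single F₀ j F₀.one_mem) hφu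
    exact h1.2 _ (by rw [hρu 1 g hg, one_smul])
  have hlo : ∀ g : Matrix.SpecialLinearGroup (Fin 2) F,
      (g : Matrix (Fin 2) (Fin 2) F) = !![1, 0; μ, 1] → g ∈ M.comap ρ := by
    intro g hg
    rw [Subgroup.mem_comap]
    refine hT.2 _ ?_
    rw [hρl μ g hg, hφa, hαu, ← hμdef, div_self hμ0, one_smul]
  have hfin := dk_sl2 h2 μ hμ0 hμ2 (M.comap ρ) hup hlo
  obtain ⟨g, hg⟩ := subfdk_upper μ
  have hgM := hfin g hg
  rw [Subgroup.mem_comap] at hgM
  have hTM : TM M (Pi.single i (1 : F)) (Pi.single j μ) := by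
    have h0 : (Pi.single j μ : Fin n → F) ⬝ᵥ Pi.single i 1 = 0 := single_dot_single_ne hij μ 1
    refine ⟨h0, fun t ht => ?_⟩
    have e : t = ρ g := by
      apply Units.ext
      rw [ht, hρu μ g hg]
      congr 1
      ext k
      simp [Pi.single_apply]
    rw [e]
    exact hgM
  exact hμ (hW μ (inW_of_one hHM h3 hij hTM))

/-- Odd characteristic, any `n ≥ 3`: an overgroup `M` of the subfield group without non-rational parameters
is contained in the subfield group. -/
theorem le_H1_odd_dk {n : ℕ} {F : Type*} [Field F] [Fintype F] (hn : 3 ≤ n) {F₀ : Subfield F}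
    {M : Subgroup (GL (Fin n) F)}
    (hHM : H1 (Fin n) F₀ ⊓ Cfsg.Geo.specialLinear (Fin n) F ≤ M)
    (hGPl : ∀ m ∈ M, ¬ GP F₀ m → m ∈ H1 (Fin n) F₀)
    (hW : ∀ c : F, InW M c → c ∈ F₀)
    (hsq : ∀ c : F, c ^ 2 ∈ F₀ → c ∈ F₀) (h2 : (2 : F) ≠ 0) : M ≤ H1 (Fin n) F₀ := by
  classical
  intro m hm
  apply hGPl m hm
  intro hGP
  have key := subfdk_key hn hHM hW hsq h2 m hm
  set e0 : Fin n := ⟨0, by omega⟩ with he0
  set e1 : Fin n := ⟨1, by omega⟩ with he1
  set a : Fin n → F := (m : Matrix (Fin n) (Fin n) F) *ᵥ Pi.single e0 1 with ha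
  set α : Fin n → F := (Pi.single e1 (1 : F)) ᵥ* ((m⁻¹ : GL (Fin n) F) : Matrix (Fin n) (Fin n) F) with hα
  -- α ≠ 0
  have hα0 : α ≠ 0 := by
    intro h
    have h1 : α ᵥ* (m : Matrix (Fin n) (Fin n) F) = Pi.single e1 (1 : F) := by
      rw [hα, Matrix.vecMul_vecMul, ← Units.val_mul, inv_mul_cancel, Units.val_one, Matrix.vecMul_one]
    rw [h, Matrix.zero_vecMul] at h1
    have h2' := congrFun h1 e1
    simp at h2'
  obtain ⟨i, hi⟩ := Function.ne_iff.mp hα0
  have hi' : α i ≠ 0 := by simpa using hi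
  -- two further indices
  obtain ⟨j, k, hji, hki, hjk⟩ : ∃ j k : Fin n, j ≠ i ∧ k ≠ i ∧ j ≠ k := by
    by_contra hcon
    push Not at hcon
    have hsub : (Finset.univ : Finset (Fin n)) ⊆ {i, ⟨0, by omega⟩, ⟨1, by omega⟩} := by
      intro x _
      by_contra hx
      simp only [Finset.mem_insert, Finset.mem_singleton, not_or] at hx
      by_cases h0 : (⟨0, by omega⟩ : Fin n) = i
      · by_cases h1 : (⟨1, by omega⟩ : Fin n) = i
        · rw [← h0] at h1
          simp at h1
        · exact hx.2.2 (hcon x ⟨1, by omega⟩ hx.1 h1)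
      · exact hx.2.1 (hcon x ⟨0, by omega⟩ hx.1 h0)
    have hc := Finset.card_le_card hsub
    have hc3 : ({i, ⟨0, by omega⟩, ⟨1, by omega⟩} : Finset (Fin n)).card ≤ 3 := Finset.card_le_three
    simp at hc
    have hxx : ∃ x : Fin n, x ≠ i ∧ x ≠ ⟨0, by omega⟩ ∧ x ≠ ⟨1, by omega⟩ ∨ True := ⟨i, Or.inr trivial⟩
    -- n ≤ 3, so n = 3: pick the two indices different from i by hand
    have hn3 : n = 3 := by omega
    subst hn3
    fin_cases i
    · exact absurd (hcon 1 2 (by decide) (by decide)) (by decide)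
    · exact absurd (hcon 0 2 (by decide) (by decide)) (by decide)
    · exact absurd (hcon 0 1 (by decide) (by decide)) (by decide)
  have hj := key i j (Ne.symm hji)
  have hk := key i k (Ne.symm hki)
  -- a k ≠ 0 by general position
  have hak : a k ≠ 0 := by
    have := hGP (Pi.single e0 1) (Pi.single k 1) (ratV_single F₀ e0 F₀.one_mem)
      (ratV_single F₀ k F₀.one_mem) (by
        intro h
        have := congrFun h e0
        simp at this) (by
        intro h
        have := congrFun h k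
        simp at this)
    rw [single_dotProduct, one_mul] at this
    exact this
  -- the ratio is rational
  have hc : a j / a k ∈ F₀ := by
    have e : a j / a k = (a j * α i) * (a k * α i)⁻¹ := by
      field_simp
    rw [e]
    exact F₀.mul_mem hj (F₀.inv_mem hk)
  -- a rational functional killing a
  have hφ : RatV F₀ (Pi.single j (1 : F) - Pi.single k (a j / a k) : Fin n → F) :=
    ratV_sub (ratV_single F₀ j F₀.one_mem) (ratV_single F₀ k hc)
  have hφ0 : (Pi.single j (1 : F) - Pi.single k (a j / a k) : Fin n → F) ≠ 0 := by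
    intro h
    have := congrFun h j
    simp [Pi.single_apply, hjk] at this
  have hv0 : (Pi.single e0 (1 : F) : Fin n → F) ≠ 0 := by
    intro h
    have := congrFun h e0
    simp at this
  refine hGP (Pi.single e0 1) _ (ratV_single F₀ e0 F₀.one_mem) hφ hv0 hφ0 ?_
  rw [← ha, sub_dotProduct, single_dotProduct, single_dotProduct, one_mul]
  field_simp
  ring

end Cfsg.Agent.Lib.Helper44.SubfDk
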