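import Mathlib
import Cfsg.Prelude.Def_GeometricClasses
import Cfsg.Prelude.Def_LieClassical
import Cfsg.Agent.Lib.Helper71.Asch0

/-! Project U9 (helper44), piece RG1: the first tensor factor of a group of isometries preserves
the first Gram matrix. -/

set_option autoImplicit false

namespace Cfsg.Agent.Lib.Helper44.U9

open Matrix Cfsg.Geo Cfsg.Agent.Lib.Helper71.Asch
open scoped Kronecker

variable {n : ℕ} {F : Type*} [Field F] [Fintype F] {q : ℕ}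

omit [Fintype F] in
/-- the form of a Kronecker product on pure tensors -/
theorem RG1_pure (G₁ G₂ : Matrix (Fin 3) (Fin 3) F) (u v w w' : Fin 3 → F) :
    formOfGram (fun c : F => c ^ q) (G₁ ⊗ₖ G₂) (fun p : Fin 3 × Fin 3 => u p.1 * w p.2)
      (fun p : Fin 3 × Fin 3 => v p.1 * w' p.2) =
      formOfGram (fun c : F => c ^ q) G₁ u v * formOfGram (fun c : F => c ^ q) G₂ w w' := by
  unfold formOfGram
  simp only [Fintype.sum_prod_type, Matrix.kroneckerMap_apply, mul_pow]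
  rw [Finset.sum_mul]
  refine Finset.sum_congr rfl (fun a _ => ?_)
  rw [Finset.mul_sum]
  refine Finset.sum_congr rfl (fun a' _ => ?_)
  rw [Finset.sum_mul_sum]
  refine Finset.sum_congr rfl (fun b _ => Finset.sum_congr rfl (fun b' _ => ?_))
  ring

omit [Fintype F] in
/-- `y ⊗ 1` on pure tensors -/
theorem RG1_kron (y : Matrix (Fin 3) (Fin 3) F) (u w : Fin 3 → F) :
    (y ⊗ₖ (1 : Matrix (Fin 3) (Fin 3) F)) *ᵥ (fun p : Fin 3 × Fin 3 => u p.1 * w p.2) =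
      fun p : Fin 3 × Fin 3 => (y *ᵥ u) p.1 * w p.2 := by
  funext ⟨i, j⟩
  simp only [Matrix.mulVec, dotProduct, Fintype.sum_prod_type, Matrix.kroneckerMap_apply,
    Matrix.one_apply]
  simp [Finset.sum_mul, mul_assoc]

theorem RG1 (hF : Fintype.card F = q ^ 2) (e : Fin n ≃ Fin 3 × Fin 3) (P : GL (Fin n) F)
    (G₁ G₂ : Matrix (Fin 3) (Fin 3) F) (hd2 : G₂.det ≠ 0)
    (hid : ∀ x y : Fin 3 × Fin 3 → F,
      Cfsg.hermForm n F q (P.1 *ᵥ (x ∘ e)) (P.1 *ᵥ (y ∘ e)) =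
        formOfGram (fun c : F => c ^ q) (G₁ ⊗ₖ G₂) x y)
    (N : Subgroup (GL (Fin n) F)) (hN : N ≤ Cfsg.GU n F q) (R : Subgroup (GL (Fin 3) F))
    (h2 : ∀ y ∈ R, ∃ x ∈ N, x.1 = tmat e P y.1 1) :
    ∀ y ∈ R, ∀ u v : Fin 3 → F,
      formOfGram (fun c : F => c ^ q) G₁ (y.1 *ᵥ u) (y.1 *ᵥ v) =
        formOfGram (fun c : F => c ^ q) G₁ u v := by
  classical
  intro y hy u v
  obtain ⟨x, hxN, hx⟩ := h2 y hy
  -- a pair with non-zero `G₂`-value
  have hG2 : G₂ ≠ 0 := by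
    rintro rfl
    apply hd2
    simp
  obtain ⟨a, b, hab⟩ : ∃ a b, G₂ a b ≠ 0 := by
    by_contra hcon
    apply hG2
    ext a b
    by_contra h
    exact hcon ⟨a, b, h⟩
  have hw : formOfGram (fun c : F => c ^ q) G₂ (Pi.single a 1) (Pi.single b 1) = G₂ a b := by
    unfold formOfGram
    rw [Finset.sum_eq_single a]
    · rw [Finset.sum_eq_single b]
      · simp
      · intro b' _ hb'
        have hq0 : q ≠ 0 := by
          rintro rfl
          have h1 : 1 < Fintype.card F := Fintype.one_lt_card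
          rw [hF] at h1
          simp at h1
        simp [Pi.single_eq_of_ne hb', hq0]
      · simp
    · intro a' _ ha'
      simp [Pi.single_eq_of_ne ha']
    · simp
  have hxGU := hN hxN
  -- the two pure tensors
  have key : ∀ (u₁ w₁ : Fin 3 → F),
      x.1 *ᵥ (P.1 *ᵥ ((fun p : Fin 3 × Fin 3 => u₁ p.1 * w₁ p.2) ∘ e)) =
        P.1 *ᵥ ((fun p : Fin 3 × Fin 3 => (y.1 *ᵥ u₁) p.1 * w₁ p.2) ∘ e) := by
    intro u₁ w₁
    rw [hx]
    unfold tmat
    rw [Matrix.mulVec_mulVec, Matrix.mul_assoc, Matrix.mul_assoc, ← Units.val_mul, inv_mul_cancel,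
      Units.val_one, Matrix.mul_one, ← Matrix.mulVec_mulVec, ← RG1_kron]
    congr 1
    rw [Matrix.reindex_apply, Equiv.symm_symm, Matrix.submatrix_mulVec_equiv]
    congr 2
    funext p
    simp
  have h := hxGU (P.1 *ᵥ ((fun p : Fin 3 × Fin 3 => u p.1 * (Pi.single a 1 : Fin 3 → F) p.2) ∘ e))
    (P.1 *ᵥ ((fun p : Fin 3 × Fin 3 => v p.1 * (Pi.single b 1 : Fin 3 → F) p.2) ∘ e))
  have h' : Cfsg.hermForm n F q
      (x.1 *ᵥ (P.1 *ᵥ ((fun p : Fin 3 × Fin 3 => u p.1 * (Pi.single a 1 : Fin 3 → F) p.2) ∘ e)))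
      (x.1 *ᵥ (P.1 *ᵥ ((fun p : Fin 3 × Fin 3 => v p.1 * (Pi.single b 1 : Fin 3 → F) p.2) ∘ e))) =
      Cfsg.hermForm n F q
      (P.1 *ᵥ ((fun p : Fin 3 × Fin 3 => u p.1 * (Pi.single a 1 : Fin 3 → F) p.2) ∘ e))
      (P.1 *ᵥ ((fun p : Fin 3 × Fin 3 => v p.1 * (Pi.single b 1 : Fin 3 → F) p.2) ∘ e)) := h
  rw [key, key, hid, hid, RG1_pure, RG1_pure, hw] at h'
  exact mul_right_cancel₀ hab h'

end Cfsg.Agent.Lib.Helper44.U9
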