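import Mathlib
import Cfsg.Prelude.Def_GeometricClasses
import Cfsg.Prelude.Def_LieClassical
import Cfsg.Agent.Lib.Helper71.Asch0
import Cfsg.Agent.Lib.Helper71.SLP0
import Cfsg.Agent.Lib.Helper46.SUPU8c
import Cfsg.Agent.Lib.Helper66.O9TPW

/-! Project U9 (helper44), piece SWAP: the swap element of a tensor product `3 ⊗ 3` with
hermitian forms. -/

set_option autoImplicit false

namespace Cfsg.Agent.Lib.Helper44.U9

open Matrix Cfsg.Geo Cfsg.Agent.Lib.Helper71.Asch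
open scoped Kronecker

variable {n : ℕ} {F : Type*} [Field F] [Fintype F] {q : ℕ}

omit [Fintype F] in
theorem SWAP_fog {κ : Type} [Fintype κ] (G : Matrix κ κ F) (x y : κ → F) :
    formOfGram (fun c : F => c ^ q) G x y = x ⬝ᵥ (G *ᵥ (fun b => (y b) ^ q)) := by
  unfold formOfGram
  simp only [dotProduct, mulVec, Finset.mul_sum, mul_assoc]

omit [Fintype F] in
theorem SWAP_conj {κ : Type} [Fintype κ] [DecidableEq κ] (σ : F →+* F) (hσ : ∀ x, σ x = x ^ q)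
    (G T : Matrix κ κ F) (x y : κ → F) :
    formOfGram (fun c : F => c ^ q) G (T *ᵥ x) (T *ᵥ y) =
      formOfGram (fun c : F => c ^ q) (Tᵀ * G * T.map σ) x y := by
  rw [SWAP_fog, SWAP_fog]
  have h1 : (fun b => ((T *ᵥ y) b) ^ q) = (T.map σ) *ᵥ (fun b => (y b) ^ q) := by
    funext b
    have h := RingHom.map_mulVec σ T y b
    rw [← hσ, h]
    congr 1
    funext j
    exact hσ _
  rw [h1]
  calc (T *ᵥ x) ⬝ᵥ (G *ᵥ (T.map σ *ᵥ fun b => y b ^ q))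
      = (x ᵥ* Tᵀ) ⬝ᵥ (G *ᵥ (T.map σ *ᵥ fun b => y b ^ q)) := by
        rw [Matrix.vecMul_transpose]
    _ = x ⬝ᵥ (Tᵀ *ᵥ (G *ᵥ (T.map σ *ᵥ fun b => y b ^ q))) :=
        (Matrix.dotProduct_mulVec x Tᵀ _).symm
    _ = x ⬝ᵥ ((Tᵀ * G * T.map σ) *ᵥ fun b => y b ^ q) := by
        rw [Matrix.mulVec_mulVec, Matrix.mulVec_mulVec]

/-- the matrix of `x ⊗ y ↦ A⁻¹ y ⊗ A x` -/
def SWAP_M (A : GL (Fin 3) F) : Matrix (Fin 3 × Fin 3) (Fin 3 × Fin 3) F :=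
  ((A⁻¹ : GL (Fin 3) F).1 ⊗ₖ A.1).submatrix id (Equiv.prodComm (Fin 3) (Fin 3))

omit [Fintype F] in
theorem SWAP_M_alt (A : GL (Fin 3) F) :
    SWAP_M A = (A.1 ⊗ₖ (A⁻¹ : GL (Fin 3) F).1).submatrix (Equiv.prodComm (Fin 3) (Fin 3)) id := by
  ext ⟨i, j⟩ ⟨k, l⟩
  simp [SWAP_M, Matrix.kroneckerMap_apply, mul_comm]

omit [Fintype F] in
theorem SWAP_M_sq (A : GL (Fin 3) F) : SWAP_M A * SWAP_M A = 1 := by
  have h : SWAP_M A * SWAP_M A =
      ((A⁻¹ : GL (Fin 3) F).1 ⊗ₖ A.1).submatrix id (Equiv.prodComm (Fin 3) (Fin 3)) *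
      (A.1 ⊗ₖ (A⁻¹ : GL (Fin 3) F).1).submatrix (Equiv.prodComm (Fin 3) (Fin 3)) id := by
    rw [← SWAP_M_alt]
    rfl
  rw [h, Matrix.submatrix_mul_equiv, ← Matrix.mul_kronecker_mul, ← Units.val_mul, ← Units.val_mul,
    inv_mul_cancel, mul_inv_cancel, Units.val_one, Matrix.one_kronecker_one, Matrix.submatrix_id_id]

omit [Fintype F] in
theorem SWAP_M_form (σ : F →+* F)
    (G₁ G₂ : Matrix (Fin 3) (Fin 3) F) (A : GL (Fin 3) F) (c : F) (hc : c ≠ 0)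
    (hA : A.1ᵀ * G₂ * A.1.map σ = c • G₁) :
    (SWAP_M A)ᵀ * (G₁ ⊗ₖ G₂) * (SWAP_M A).map σ = G₁ ⊗ₖ G₂ := by
  have hAi : ((A⁻¹ : GL (Fin 3) F).1)ᵀ * G₁ * (A⁻¹ : GL (Fin 3) F).1.map σ = c⁻¹ • G₂ := by
    have h1 : G₁ = c⁻¹ • (A.1ᵀ * G₂ * A.1.map σ) := by
      rw [hA, smul_smul, inv_mul_cancel₀ hc, one_smul]
    have h2 : ((A⁻¹ : GL (Fin 3) F).1)ᵀ * A.1ᵀ = 1 := by
      rw [← Matrix.transpose_mul, ← Units.val_mul, mul_inv_cancel, Units.val_one,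
        Matrix.transpose_one]
    have h3 : A.1.map σ * (A⁻¹ : GL (Fin 3) F).1.map σ = 1 := by
      rw [← Matrix.map_mul, ← Units.val_mul, mul_inv_cancel, Units.val_one]
      ext i j
      simp [Matrix.one_apply]
    calc ((A⁻¹ : GL (Fin 3) F).1)ᵀ * G₁ * (A⁻¹ : GL (Fin 3) F).1.map σ
        = ((A⁻¹ : GL (Fin 3) F).1)ᵀ * (c⁻¹ • (A.1ᵀ * G₂ * A.1.map σ)) *
            (A⁻¹ : GL (Fin 3) F).1.map σ := by rw [← h1]
      _ = c⁻¹ • ((((A⁻¹ : GL (Fin 3) F).1)ᵀ * A.1ᵀ) * G₂ *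
            (A.1.map σ * (A⁻¹ : GL (Fin 3) F).1.map σ)) := by
          simp only [Matrix.mul_smul, Matrix.smul_mul, Matrix.mul_assoc]
      _ = c⁻¹ • G₂ := by rw [h2, h3, one_mul, mul_one]
  have hT : (SWAP_M A)ᵀ =
      ((A.1 ⊗ₖ (A⁻¹ : GL (Fin 3) F).1)ᵀ).submatrix id (Equiv.prodComm (Fin 3) (Fin 3)) := by
    rw [SWAP_M_alt]
    rfl
  have hG : G₁ ⊗ₖ G₂ = (G₂ ⊗ₖ G₁).submatrix (Equiv.prodComm (Fin 3) (Fin 3))
      (Equiv.prodComm (Fin 3) (Fin 3)) := by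
    ext ⟨i, j⟩ ⟨k, l⟩
    simp [Matrix.kroneckerMap_apply, mul_comm]
  have hS : (SWAP_M A).map σ =
      ((A.1 ⊗ₖ (A⁻¹ : GL (Fin 3) F).1).map σ).submatrix (Equiv.prodComm (Fin 3) (Fin 3)) id := by
    rw [SWAP_M_alt]
    rfl
  have hKT : (A.1 ⊗ₖ (A⁻¹ : GL (Fin 3) F).1)ᵀ = A.1ᵀ ⊗ₖ ((A⁻¹ : GL (Fin 3) F).1)ᵀ := by
    ext ⟨i, j⟩ ⟨k, l⟩
    simp [Matrix.kroneckerMap_apply]
  have hKσ : (A.1 ⊗ₖ (A⁻¹ : GL (Fin 3) F).1).map σ =
      A.1.map σ ⊗ₖ (A⁻¹ : GL (Fin 3) F).1.map σ := by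
    ext ⟨i, j⟩ ⟨k, l⟩
    simp [Matrix.kroneckerMap_apply]
  have key : (SWAP_M A)ᵀ * (G₁ ⊗ₖ G₂) * (SWAP_M A).map σ =
      (A.1ᵀ * G₂ * A.1.map σ) ⊗ₖ
        (((A⁻¹ : GL (Fin 3) F).1)ᵀ * G₁ * (A⁻¹ : GL (Fin 3) F).1.map σ) := by
    rw [hT, hS]
    conv_lhs => rw [hG]
    rw [Matrix.submatrix_mul_equiv, Matrix.submatrix_mul_equiv, Matrix.submatrix_id_id, hKT, hKσ,
      ← Matrix.mul_kronecker_mul, ← Matrix.mul_kronecker_mul]
  rw [key, hA, hAi]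
  ext ⟨i, j⟩ ⟨k, l⟩
  simp only [Matrix.kroneckerMap_apply, Matrix.smul_apply, smul_eq_mul]
  field_simp

omit [Fintype F] in
/-- the swap matrix -/
theorem SWAP_S_alt : ((1 : Matrix (Fin 3 × Fin 3) (Fin 3 × Fin 3) F).submatrix id
      (Equiv.prodComm (Fin 3) (Fin 3))) =
    (1 : Matrix (Fin 3 × Fin 3) (Fin 3 × Fin 3) F).submatrix (Equiv.prodComm (Fin 3) (Fin 3)) id := by
  ext ⟨i, j⟩ ⟨k, l⟩
  simp only [Matrix.submatrix_apply, id, Equiv.prodComm_apply, Prod.swap_prod_mk, Matrix.one_apply,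
    Prod.mk.injEq]
  by_cases h1 : i = l <;> by_cases h2 : j = k <;> simp [h1, h2]

theorem SWAP (hF : Fintype.card F = q ^ 2) (e : Fin 9 ≃ Fin 3 × Fin 3) (P : GL (Fin 9) F)
    (G₁ G₂ : Matrix (Fin 3) (Fin 3) F)
    (hid : ∀ x y : Fin 3 × Fin 3 → F,
      Cfsg.hermForm 9 F q (P.1 *ᵥ (x ∘ e)) (P.1 *ᵥ (y ∘ e)) =
        formOfGram (fun c : F => c ^ q) (G₁ ⊗ₖ G₂) x y)
    (A : GL (Fin 3) F) (c : F) (hc : c ≠ 0)
    (hA : A.1ᵀ * G₂ * A.1.map (fun x : F => x ^ q) = c • G₁) :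
    ∃ s : GL (Fin 9) F, s ∈ Cfsg.GU 9 F q ⊓ specialLinear (Fin 9) F ∧
      s ∈ tensorWreathSubgroup 3 2 (e.trans (finTwoArrowEquiv (Fin 3)).symm) P ∧
      s ∉ tensorProductSubgroup 3 3 e P := by
  classical
  obtain ⟨σ, hσ⟩ : ∃ σ : F →+* F, ∀ x, σ x = x ^ q :=
    ⟨Cfsg.Agent.Lib.Helper46.SUPU8c.U8c_sig hF, fun _ => rfl⟩
  have hA' : A.1ᵀ * G₂ * A.1.map σ = c • G₁ := by
    rw [← hA]
    congr 2
    ext i
    simp [hσ]
  obtain ⟨M₀, hM₀⟩ : ∃ M₀ : Matrix (Fin 3 × Fin 3) (Fin 3 × Fin 3) F, M₀ = SWAP_M A := ⟨_, rfl⟩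
  have hsq : M₀ * M₀ = 1 := by rw [hM₀]; exact SWAP_M_sq A
  have hform : M₀ᵀ * (G₁ ⊗ₖ G₂) * M₀.map σ = G₁ ⊗ₖ G₂ := by
    rw [hM₀]; exact SWAP_M_form σ G₁ G₂ A c hc hA'
  obtain ⟨δ, hδ⟩ : ∃ δ : F, δ = M₀.det := ⟨_, rfl⟩
  have hδ2 : δ * δ = 1 := by rw [hδ, ← Matrix.det_mul, hsq, Matrix.det_one]
  have hδq : δ * σ δ = 1 := by
    have h1 : (δ - 1) * (δ + 1) = 0 := by linear_combination hδ2
    rcases mul_eq_zero.1 h1 with h | h
    · have h2 : δ = 1 := by linear_combination h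
      rw [h2, map_one, one_mul]
    · have h2 : δ = -1 := by linear_combination h
      rw [h2, map_neg, map_one]
      ring
  -- the swap as an invertible matrix
  obtain ⟨yS, hyS⟩ : ∃ y : GL (Fin 3 × Fin 3) F, y.1 =
      (1 : Matrix (Fin 3 × Fin 3) (Fin 3 × Fin 3) F).submatrix id (Equiv.prodComm (Fin 3) (Fin 3)) := by
    have hSS : (1 : Matrix (Fin 3 × Fin 3) (Fin 3 × Fin 3) F).submatrix id
        (Equiv.prodComm (Fin 3) (Fin 3)) *
        (1 : Matrix (Fin 3 × Fin 3) (Fin 3 × Fin 3) F).submatrix id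
        (Equiv.prodComm (Fin 3) (Fin 3)) = 1 := by
      have h : (1 : Matrix (Fin 3 × Fin 3) (Fin 3 × Fin 3) F).submatrix id
          (Equiv.prodComm (Fin 3) (Fin 3)) *
          (1 : Matrix (Fin 3 × Fin 3) (Fin 3 × Fin 3) F).submatrix id
          (Equiv.prodComm (Fin 3) (Fin 3)) =
          (1 : Matrix (Fin 3 × Fin 3) (Fin 3 × Fin 3) F).submatrix id
          (Equiv.prodComm (Fin 3) (Fin 3)) *
          (1 : Matrix (Fin 3 × Fin 3) (Fin 3 × Fin 3) F).submatrix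
          (Equiv.prodComm (Fin 3) (Fin 3)) id := by
        rw [← SWAP_S_alt]
      rw [h, Matrix.submatrix_mul_equiv, mul_one, Matrix.submatrix_id_id]
    exact ⟨⟨_, _, hSS, hSS⟩, rfl⟩
  -- `δ • A⁻¹` as an invertible matrix
  obtain ⟨a, ha⟩ : ∃ a : GL (Fin 3) F, a.1 = δ • (A⁻¹ : GL (Fin 3) F).1 := by
    refine ⟨⟨δ • (A⁻¹ : GL (Fin 3) F).1, δ • A.1, ?_, ?_⟩, rfl⟩
    · rw [Matrix.smul_mul, Matrix.mul_smul, smul_smul, hδ2, one_smul, ← Units.val_mul,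
        inv_mul_cancel, Units.val_one]
    · rw [Matrix.smul_mul, Matrix.mul_smul, smul_smul, hδ2, one_smul, ← Units.val_mul,
        mul_inv_cancel, Units.val_one]
  obtain ⟨yT, hyT⟩ : ∃ y : GL (Fin 3 × Fin 3) F, y.1 = a.1 ⊗ₖ A.1 := by
    refine ⟨⟨a.1 ⊗ₖ A.1, (a⁻¹ : GL (Fin 3) F).1 ⊗ₖ (A⁻¹ : GL (Fin 3) F).1, ?_, ?_⟩, rfl⟩
    · rw [← Matrix.mul_kronecker_mul, ← Units.val_mul, ← Units.val_mul, mul_inv_cancel,
        mul_inv_cancel, Units.val_one, Matrix.one_kronecker_one]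
    · rw [← Matrix.mul_kronecker_mul, ← Units.val_mul, ← Units.val_mul, inv_mul_cancel,
        inv_mul_cancel, Units.val_one, Matrix.one_kronecker_one]
  have hTS : (yT * yS).1 = δ • M₀ := by
    rw [Units.val_mul, hyT, hyS, ha, hM₀]
    ext ⟨i, j⟩ ⟨k, l⟩
    simp [SWAP_M, Matrix.mul_apply, Matrix.one_apply, Matrix.kroneckerMap_apply, mul_assoc]
  obtain ⟨sT, hsT⟩ : ∃ g : GL (Fin 9) F, g = P * glReindex e.symm yT * P⁻¹ := ⟨_, rfl⟩
  obtain ⟨sS, hsS⟩ : ∃ g : GL (Fin 9) F, g = P * glReindex e.symm yS * P⁻¹ := ⟨_, rfl⟩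
  have hreidx : ∀ y : GL (Fin 3 × Fin 3) F,
      ((glReindex e.symm y : GL (Fin 9) F) : Matrix (Fin 9) (Fin 9) F) =
        Matrix.reindex e.symm e.symm y.1 := fun y => rfl
  have hsTmem : sT ∈ tensorProductSubgroup 3 3 e P := by
    rw [mem_tensorProductSubgroup_iff]
    refine ⟨a, A, ?_⟩
    rw [hsT, Units.val_mul, Units.val_mul, hreidx, hyT]
    rfl
  have hsSmem : sS ∈ tensorWreathSubgroup 3 2 (e.trans (finTwoArrowEquiv (Fin 3)).symm) P := by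
    obtain ⟨ε, hε⟩ : ∃ ε : Fin 3 × Fin 3 ≃ (Fin 2 → Fin 3), ε = (finTwoArrowEquiv (Fin 3)).symm :=
      ⟨_, rfl⟩
    rw [← hε]
    have hεs : ∀ u : Fin 2 → Fin 3, ε.symm u = (u 0, u 1) := by
      intro u
      rw [hε]
      rfl
    have hx : glReindex ε yS ∈ tensorWreathStandard 3 2 F := by
      apply Subgroup.subset_closure
      right
      refine ⟨Equiv.swap 0 1, fun u v => ?_⟩
      show (Matrix.reindexAlgEquiv F F ε yS.1) u v = _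
      rw [hyS, Matrix.coe_reindexAlgEquiv, Matrix.reindex_apply, Matrix.submatrix_apply, hεs, hεs]
      simp only [Matrix.submatrix_apply, id, Equiv.prodComm_apply, Prod.swap_prod_mk,
        Matrix.one_apply, Prod.mk.injEq]
      have hiff : (u 0 = v 1 ∧ u 1 = v 0) ↔ v = u ∘ ⇑(Equiv.swap (0 : Fin 2) 1) := by
        constructor
        · rintro ⟨h0, h1⟩
          funext i
          fin_cases i
          · simp [h1]
          · simp [h0]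
        · intro h
          subst h
          simp
      rw [if_congr hiff rfl rfl]
    unfold tensorWreathSubgroup
    refine ⟨glReindex (e.trans ε).symm (glReindex ε yS), ⟨glReindex ε yS, hx, rfl⟩, ?_⟩
    rw [hsS]
    have h2 : glReindex (e.trans ε).symm (glReindex ε yS) = glReindex e.symm yS := by
      apply Units.ext
      show Matrix.reindexAlgEquiv F F (e.trans ε).symm (Matrix.reindexAlgEquiv F F ε yS.1) =
        Matrix.reindexAlgEquiv F F e.symm yS.1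
      ext i j
      simp [Matrix.coe_reindexAlgEquiv, Matrix.reindex_apply, Matrix.submatrix_apply]
    rw [← h2]
    rfl
  have hval : (sT * sS).1 = P.1 * (δ • M₀).submatrix e e * (P⁻¹ : GL (Fin 9) F).1 := by
    have h1 : sT * sS = P * glReindex e.symm (yT * yS) * P⁻¹ := by
      rw [hsT, hsS, map_mul]
      group
    rw [h1, Units.val_mul, Units.val_mul, hreidx, hTS]
    rfl
  refine ⟨sT * sS, Subgroup.mem_inf.2 ⟨?_, ?_⟩,
    Subgroup.mul_mem _ (Cfsg.Agent.Lib.Helper44.O9.TPW e P hsTmem) hsSmem, ?_⟩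
  · -- unitary
    have key : ∀ u : Fin 9 → F, (sT * sS).1 *ᵥ u =
        P.1 *ᵥ (((δ • M₀) *ᵥ (((P⁻¹ : GL (Fin 9) F).1 *ᵥ u) ∘ e.symm)) ∘ e) := by
      intro u
      rw [hval, ← Matrix.mulVec_mulVec, ← Matrix.mulVec_mulVec, Matrix.submatrix_mulVec_equiv]
    have hu : ∀ u : Fin 9 → F,
        P.1 *ᵥ ((((P⁻¹ : GL (Fin 9) F).1 *ᵥ u) ∘ e.symm) ∘ e) = u := by
      intro u
      have h1 : (((P⁻¹ : GL (Fin 9) F).1 *ᵥ u) ∘ e.symm) ∘ e = (P⁻¹ : GL (Fin 9) F).1 *ᵥ u := by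
        funext i
        simp
      rw [h1, Matrix.mulVec_mulVec, ← Units.val_mul, mul_inv_cancel, Units.val_one,
        Matrix.one_mulVec]
    have hmat : (δ • M₀)ᵀ * (G₁ ⊗ₖ G₂) * (δ • M₀).map σ = G₁ ⊗ₖ G₂ := by
      have h1 : (δ • M₀).map σ = σ δ • M₀.map σ := by
        ext i j
        simp
      rw [h1, Matrix.transpose_smul, Matrix.smul_mul, Matrix.smul_mul, Matrix.mul_smul, smul_smul,
        hform, hδq, one_smul]
    show ∀ u v : Fin 9 → F, Cfsg.hermForm 9 F q ((sT * sS).1 *ᵥ u) ((sT * sS).1 *ᵥ v) =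
      Cfsg.hermForm 9 F q u v
    intro u v
    rw [key u, key v, hid, SWAP_conj σ hσ, hmat, ← hid, hu, hu]
  · -- determinant one
    rw [Cfsg.Agent.Lib.Helper71.SLP.mem_specialLinear_iff, hval, Matrix.det_mul, Matrix.det_mul,
      Matrix.det_submatrix_equiv_self, Matrix.det_smul, ← hδ]
    have hP : P.1.det * (P⁻¹ : GL (Fin 9) F).1.det = 1 := by
      rw [← Matrix.det_mul, ← Units.val_mul, mul_inv_cancel, Units.val_one, Matrix.det_one]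
    have h9 : Fintype.card (Fin 3 × Fin 3) = 9 := by simp
    rw [h9]
    have h10 : δ ^ 9 * δ = 1 := by
      calc δ ^ 9 * δ = (δ * δ) ^ 5 := by ring
        _ = 1 := by rw [hδ2, one_pow]
    calc P.1.det * (δ ^ 9 * δ) * (P⁻¹ : GL (Fin 9) F).1.det
        = (δ ^ 9 * δ) * (P.1.det * (P⁻¹ : GL (Fin 9) F).1.det) := by ring
      _ = 1 := by rw [h10, hP, one_mul]
  · -- not a tensor product
    intro hs
    have hS : sS ∈ tensorProductSubgroup 3 3 e P := by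
      have h := (tensorProductSubgroup 3 3 e P).mul_mem
        ((tensorProductSubgroup 3 3 e P).inv_mem hsTmem) hs
      rwa [inv_mul_cancel_left] at h
    rw [mem_tensorProductSubgroup_iff] at hS
    obtain ⟨a', b', hab⟩ := hS
    rw [hsS, Units.val_mul, Units.val_mul, hreidx, hyS] at hab
    unfold tmat at hab
    have hPi : (P⁻¹ : GL (Fin 9) F).1 * P.1 = 1 := by
      rw [← Units.val_mul, inv_mul_cancel, Units.val_one]
    have hcan : ∀ X : Matrix (Fin 9) (Fin 9) F,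
        (P⁻¹ : GL (Fin 9) F).1 * (P.1 * X * (P⁻¹ : GL (Fin 9) F).1) * P.1 = X := by
      intro X
      calc (P⁻¹ : GL (Fin 9) F).1 * (P.1 * X * (P⁻¹ : GL (Fin 9) F).1) * P.1
          = ((P⁻¹ : GL (Fin 9) F).1 * P.1) * X * ((P⁻¹ : GL (Fin 9) F).1 * P.1) := by
            simp only [Matrix.mul_assoc]
        _ = X := by rw [hPi, one_mul, mul_one]
    have h1 := congrArg (fun X => (P⁻¹ : GL (Fin 9) F).1 * X * P.1) hab
    simp only [hcan] at h1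
    have h2 := (Matrix.reindex e.symm e.symm).injective h1
    have e00 := congrFun (congrFun h2 (0, 0)) (0, 0)
    have e01 := congrFun (congrFun h2 (0, 1)) (1, 0)
    have ez := congrFun (congrFun h2 (0, 1)) (0, 0)
    simp only [Matrix.submatrix_apply, id, Equiv.prodComm_apply, Prod.swap_prod_mk,
      Matrix.one_apply, Matrix.kroneckerMap_apply] at e00 e01 ez
    simp at e00 e01 ez
    rcases ez with h | h
    · rw [h] at e00
      simp at e00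
    · rw [h] at e01
      simp at e01

end Cfsg.Agent.Lib.Helper44.U9
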