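import Mathlib
import Cfsg.Prelude.Def_GeometricClasses
import Cfsg.Prelude.Def_LieClassical
import Cfsg.Agent.Lib.Helper71.SUPMain
import Cfsg.Agent.Lib.Helper50.SUQMain
import Cfsg.Agent.Lib.Helper38.O9B8X
import Cfsg.Agent.Lib.Helper82.O9TIR
import Cfsg.Agent.Lib.Helper66.O9TPW
import Cfsg.Agent.Lib.Helper94.O9TWS
import Cfsg.Agent.Lib.Helper76.O9NO7L
import Cfsg.Agent.Lib.Helper44.U9RG1
import Cfsg.Agent.Lib.Helper44.U9SWAP
import Cfsg.Agent.Lib.Helper46.U9TSQU
import Cfsg.Agent.Lib.Helper58.U9SOLG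
import Cfsg.Agent.Lib.Helper72.U9Q2K
import Cfsg.Agent.Lib.Helper83.U9EICHU
import Cfsg.Agent.Lib.Helper87.U9AR9
import Cfsg.Agent.Lib.Helper9.U9SY9
import Cfsg.Agent.Lib.Helper91.U9SOL3
import Cfsg.Agent.Lib.Helper97.U9NF3U

/-! Project U9 (helper44): the maximal subgroups of `SU_9(q)` (statement S5832):
assembly of the pieces into `finalU9`, on top of helper71's SUP engine, helper50's SUQ pieces
and the O9 pieces. -/

set_option autoImplicit false

namespace Cfsg.Agent.Lib.Helper44.U9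

open Matrix Cfsg.Geo Cfsg.Agent.Lib.Helper71.Asch
open scoped Kronecker
open Cfsg.Agent.Lib.Helper82.ASCOREB (coreB)
open Cfsg.Agent.Lib.Helper21.ASCOREC (coreC)
open Cfsg.Agent.Lib.Helper46.ASB3s (B3s B3a)
open Cfsg.Agent.Lib.Helper61.ASB6 (B6)
open Cfsg.Agent.Lib.Helper46.ASB7core (B7core)
open Cfsg.Agent.Lib.Helper73.SLPC2 (C2)
open Cfsg.Agent.Lib.Helper16.SLPC3 (C3)
open Cfsg.Agent.Lib.Helper1.SUPU3 (U3_even)
open Cfsg.Agent.Lib.Helper21.SUPU1 (U1)
open Cfsg.Agent.Lib.Helper19.SUPU7 (U7)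
open Cfsg.Agent.Lib.Helper34.SUPU9 (U9)
open Cfsg.Agent.Lib.Helper39.SUPNU1 (NU1)
open Cfsg.Agent.Lib.Helper39.SUPNU2 (NU2)
open Cfsg.Agent.Lib.Helper28.SUPNU3 (NU3)
open Cfsg.Agent.Lib.Helper79.SUPNU5 (NU5)
open Cfsg.Agent.Lib.Helper65.SUPNU6 (NU6)
open Cfsg.Agent.Lib.Helper86.SPPCAP (CAP)
open Cfsg.Agent.Lib.Helper83.SPPHOMP (HOMP)
open Cfsg.Agent.Lib.Helper10.SPPUNIQ (UNIQ)
open Cfsg.Agent.Lib.Helper93.SUQPAIRa (PAIRa)
open Cfsg.Agent.Lib.Helper61.SUQPAIRb (PAIRb)
open Cfsg.Agent.Lib.Helper68.SUQADJ (ADJ)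
open Cfsg.Agent.Lib.Helper60.SUQTF (TF)
open Cfsg.Agent.Lib.Helper34.SUQNU2Q (NU2Q)
open Cfsg.Agent.Lib.Helper3.SUQNU4Q (NU4Q)
open Cfsg.Agent.Lib.Helper71.SUPMain (eq_inf_of_max not_ts_top GU_le_sim)
open Cfsg.Agent.Lib.Helper50.SUQMain (exists_minNS)
open Cfsg.Agent.Lib.Helper44.O9 (B8X TIR TPW TWS NO7L)

variable {F : Type*} [Field F] [Fintype F] {q : ℕ}

/-- FINAL: the maximal subgroups of `SU_9(q)`. -/
theorem finalU9 (hF : Fintype.card F = q ^ 2) (H : Subgroup (GL (Fin 9) F))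
    (hH : IsMaximalIn (Cfsg.GU 9 F q ⊓ specialLinear (Fin 9) F) H) :
    (∃ W : Submodule F (Fin 9 → F), W ≠ ⊥ ∧ IsTotallySingularFor (Cfsg.hermForm 9 F q) W ∧
      H = subspaceStabilizer W ⊓ (Cfsg.GU 9 F q ⊓ specialLinear (Fin 9) F)) ∨
    (∃ W : Submodule F (Fin 9 → F), W ≠ ⊥ ∧ IsNondegenerateOn (Cfsg.hermForm 9 F q) W ∧
      2 * Module.finrank F W < 9 ∧
      H = subspaceStabilizer W ⊓ (Cfsg.GU 9 F q ⊓ specialLinear (Fin 9) F)) ∨
    (∃ D : Fin 9 → Submodule F (Fin 9 → F),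
      IsNondegenerateMDecomposition (Cfsg.hermForm 9 F q) 1 D ∧
      H = decompositionStabilizer D ⊓ (Cfsg.GU 9 F q ⊓ specialLinear (Fin 9) F)) ∨
    (∃ D : Fin 3 → Submodule F (Fin 9 → F),
      IsNondegenerateMDecomposition (Cfsg.hermForm 9 F q) 3 D ∧
      H = decompositionStabilizer D ⊓ (Cfsg.GU 9 F q ⊓ specialLinear (Fin 9) F)) ∨
    (∃ K : Subalgebra F (Matrix (Fin 9) (Fin 9) F), IsFieldSubalgebra 3 K ∧
      IsAdjointClosedFor (Cfsg.hermForm 9 F q) K ∧
      H = subalgebraNormalizer K ⊓ (Cfsg.GU 9 F q ⊓ specialLinear (Fin 9) F)) ∨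
    (∃ (F₀ : Subfield F) (r : ℕ) (P : GL (Fin 9) F), r.Prime ∧ Odd r ∧
      Fintype.card F = Nat.card F₀ ^ r ∧ IsFormRationalStructure (Cfsg.hermForm 9 F q) F₀ 1 P ∧
      H = subfieldSubgroup F₀ P ⊓ (Cfsg.GU 9 F q ⊓ specialLinear (Fin 9) F)) ∨
    (Odd q ∧ ∃ (F₀ : Subfield F) (P : GL (Fin 9) F), Fintype.card F = Nat.card F₀ ^ 2 ∧
      IsFormRationalStructure (Cfsg.hermForm 9 F q) F₀ 1 P ∧
      H = subfieldSubgroup F₀ P ⊓ (Cfsg.GU 9 F q ⊓ specialLinear (Fin 9) F)) ∨
    (∃ (p : ℕ) (R : Subgroup (GL (Fin 9) F)), p.Prime ∧ q = p ∧ p % 3 = 2 ∧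
      IsSymplecticTypeGroup 3 R ∧ ActsAbsolutelyIrreducibly (matrixSet R) ∧
      R ≤ similarityGroup (Cfsg.hermForm 9 F q) ∧ Nat.card R = 243 ∧
      Nat.card (Subgroup.center R) = 3 ∧
      H = subgroupNormalizer R ⊓ (Cfsg.GU 9 F q ⊓ specialLinear (Fin 9) F)) ∨
    (3 ≤ q ∧ ∃ (e : Fin 9 ≃ (Fin 2 → Fin 3)) (P : GL (Fin 9) F)
      (f₁ : (Fin 3 → F) → (Fin 3 → F) → F), IsUnitaryFormPow q f₁ ∧
      IsTensorPowerFormStructure (fun x : F => x ^ q) (Cfsg.hermForm 9 F q) f₁ e P ∧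
      H = tensorWreathSubgroup 3 2 e P ⊓ (Cfsg.GU 9 F q ⊓ specialLinear (Fin 9) F)) ∨
    InUnitaryResidualClass H := by
  classical
  have hHS : H ≤ Cfsg.GU 9 F q ⊓ specialLinear (Fin 9) F := hH.1.le
  have hHGU : H ≤ Cfsg.GU 9 F q := hHS.trans inf_le_left
  have hodd : Odd 9 := by decide
  have hq2 : 2 ≤ q := by
    have h1 : 1 < Fintype.card F := Fintype.one_lt_card
    rw [hF] at h1
    by_contra hlt
    have h01 : q = 0 ∨ q = 1 := by omega
    rcases h01 with rfl | rfl <;> simp at h1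
  -- the subfield alternative
  have sub : ∀ L : Subgroup (GL (Fin 9) F), L ≤ H → Nrm H L →
      ActsAbsolutelyIrreducibly (matrixSet L) → ∀ F₀ : Subfield F, F₀ ≠ ⊤ →
      RealisableOver F₀ (matrixSet L) →
      (∃ (F₀ : Subfield F) (r : ℕ) (P : GL (Fin 9) F), r.Prime ∧ Odd r ∧
        Fintype.card F = Nat.card F₀ ^ r ∧
        IsFormRationalStructure (Cfsg.hermForm 9 F q) F₀ 1 P ∧
        H = subfieldSubgroup F₀ P ⊓ (Cfsg.GU 9 F q ⊓ specialLinear (Fin 9) F)) ∨
      (Odd q ∧ ∃ (F₀ : Subfield F) (P : GL (Fin 9) F), Fintype.card F = Nat.card F₀ ^ 2 ∧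
        IsFormRationalStructure (Cfsg.hermForm 9 F q) F₀ 1 P ∧
        H = subfieldSubgroup F₀ P ⊓ (Cfsg.GU 9 F q ⊓ specialLinear (Fin 9) F)) := by
    intro L hLH hN hLa F₀ hF₀ hreal
    have hne : ∀ (F₁ : Subfield F) (r : ℕ), r.Prime → Fintype.card F = Nat.card F₁ ^ r →
        F₁ ≠ ⊤ := by
      intro F₁ r hr hcard htop
      rw [htop] at hcard
      have h1 : Nat.card (⊤ : Subfield F) = Fintype.card F := by
        rw [← Nat.card_eq_fintype_card]
        exact Nat.card_congr Subfield.topEquiv.toEquiv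
      rw [h1] at hcard
      have h2 : 1 < Fintype.card F := Fintype.one_lt_card
      have h3 : Fintype.card F ^ 1 < Fintype.card F ^ r :=
        Nat.pow_lt_pow_right h2 hr.one_lt
      rw [pow_one] at h3
      omega
    rcases Cfsg.Agent.Lib.Helper71.SUPMain.U8 hF hodd (by norm_num) H L hHGU hLH hN hLa F₀ hF₀
      hreal with ⟨F₁, r, P, hr, hro, hcard, hrat, hle⟩ | ⟨hq, F₁, P, hcard, hrat, hle⟩
    · left
      exact ⟨F₁, r, P, hr, hro, hcard, hrat,
        eq_inf_of_max hH hle (NU5 hF (by norm_num) F₁ (hne F₁ r hr hcard) P)⟩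
    · right
      exact ⟨hq, F₁, P, hcard, hrat,
        eq_inf_of_max hH hle (NU5 hF (by norm_num) F₁ (hne F₁ 2 Nat.prime_two hcard) P)⟩
  -- `SU_9(q)` is not contained in the stabiliser of a tensor square
  obtain ⟨g₀, hg₀S, hg₀1, hg₀rk, p₀, hp₀, hg₀p⟩ := EICHU (q := q) hF
  have nu7 : ∀ (e : Fin 9 ≃ (Fin 2 → Fin 3)) (P : GL (Fin 9) F),
      ¬ Cfsg.GU 9 F q ⊓ specialLinear (Fin 9) F ≤ tensorWreathSubgroup 3 2 e P := by
    intro e P hle
    exact NO7L e P g₀ hg₀1 hg₀rk p₀ hp₀ hg₀p (hle hg₀S) (fun s hs => TWS s hs)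
  by_cases h1 : ActsIrreducibly (matrixSet H)
  swap
  · rcases U1 hF H hHGU h1 with ⟨W, h0, hts, hle⟩ | ⟨W, h0, hnd, hdim, hle⟩
    · have htop : W ≠ ⊤ := by
        rintro rfl
        exact not_ts_top (by norm_num) hts
      exact Or.inl ⟨W, h0, hts, eq_inf_of_max hH hle (NU1 hF (by norm_num) W h0 htop)⟩
    · have hlt : 2 * Module.finrank F W < 9 := by omega
      have htop : W ≠ ⊤ := by
        rintro rfl
        rw [finrank_top, Module.finrank_fin_fun] at hlt
        omega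
      exact Or.inr (Or.inl ⟨W, h0, hnd, hlt,
        eq_inf_of_max hH hle (NU1 hF (by norm_num) W h0 htop)⟩)
  obtain ⟨L, hL⟩ := exists_minNS (by norm_num) H h1
  have hLGU : L ≤ Cfsg.GU 9 F q := hL.le.trans hHGU
  rcases CAP (by norm_num) H L h1 hL.le hL.nrm with
    ⟨t, m, D, hD, hHD, hiso, hinv, hfull⟩ | ⟨d, k, e, P, R, hR, hR1, hR2⟩
  · -- inhomogeneous
    have htm : t * m = 9 := C2 D hD
    have ht2 := hD.two_le
    obtain ⟨τ, hτ, horth, hno⟩ := PAIRa hF L hLGU D hD hiso hinv hfull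
    rcases PAIRb hF H hHGU h1 D hD hHD τ hτ horth hno with hND | ⟨hfp, -⟩
    swap
    · exfalso
      have hev : Even t := by
        have := U3_even τ hτ hfp
        simpa using this
      have h29 : 2 ∣ 9 := by
        rw [← htm]
        exact Dvd.dvd.mul_right hev.two_dvd m
      omega
    have hcases : (t = 9 ∧ m = 1) ∨ (t = 3 ∧ m = 3) := by
      have ht9 : t ∣ 9 := ⟨m, htm.symm⟩
      have hle : t ≤ 9 := Nat.le_of_dvd (by norm_num) ht9
      interval_cases t <;> omega
    rcases hcases with ⟨rfl, rfl⟩ | ⟨rfl, rfl⟩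
    · exact Or.inr (Or.inr (Or.inl ⟨D, hND,
        eq_inf_of_max hH hHD (NU2 hF (by norm_num) D hND)⟩))
    · exact Or.inr (Or.inr (Or.inr (Or.inl ⟨D, hND,
        eq_inf_of_max hH hHD (NU2Q hF (by norm_num) D hND.decomp (by norm_num))⟩)))
  · -- homogeneous
    have hcard : 9 = d * k := by
      have := Fintype.card_congr e
      simpa using this
    have hd1 : d ≠ 1 := by
      rintro rfl
      exact hL.ns (B3s e P R L hR1)
    by_cases hRa : ActsAbsolutelyIrreducibly (matrixSet R)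
    swap
    · obtain ⟨r, K, hr, hK, hHK, hKc⟩ :=
        coreB (by norm_num) H L hL.le hL.nrm e P R hR hR1 hR2 hRa
      have hhom := HOMP e P R L hR hR1 hR2
      have hadj := ADJ hF (by norm_num) L hLGU hhom
        (fun Z hc hi r K K' hK hK' h1 h2 => UNIQ (by norm_num) Z hc hi r K K' hK hK' h1 h2)
        r K hK hKc
      have hrn : r ∣ 9 := C3 (by norm_num) r K hK
      have hr3 : r = 3 := by
        have h3 : r ∣ 3 ^ 2 := by
          norm_num
          exact hrn
        exact (Nat.prime_dvd_prime_iff_eq hr Nat.prime_three).1 (hr.dvd_of_dvd_pow h3)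
      subst hr3
      exact Or.inr (Or.inr (Or.inr (Or.inr (Or.inl ⟨K, hK, hadj,
        eq_inf_of_max hH hHK (NU3 hF (by norm_num) 3 (by norm_num) K hK)⟩))))
    · have hHT : H ≤ tensorProductSubgroup d k e P := fun h hh =>
        (coreC e P R L hRa hR1 hR2).2 h (fun x hx => hL.nrm h hh x hx)
      have hdk : (d = 3 ∧ k = 3) ∨ (d = 9 ∧ k = 1) := by
        have hd9 : d ∣ 9 := ⟨k, hcard⟩
        have hle : d ≤ 9 := Nat.le_of_dvd (by norm_num) hd9
        interval_cases d <;> omega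
      rcases hdk with ⟨rfl, rfl⟩ | ⟨rfl, rfl⟩
      · -- a tensor product `3 ⊗ 3`: never maximal (swap the factors)
        exfalso
        obtain ⟨G₁, G₂, hd1', hd2', hh1, hh2, hid⟩ := TF hF e P R L hLGU hRa hR1 hR2
        obtain ⟨A, c, hc, hA⟩ := NF3U hF G₁ G₂ hh1 hh2 hd1' hd2'
        obtain ⟨s, hsS, hsW, hsT⟩ := SWAP hF e P G₁ G₂ hid A c hc hA
        have hHT' : H ≤ tensorWreathSubgroup 3 2 (e.trans (finTwoArrowEquiv (Fin 3)).symm) P ⊓
            (Cfsg.GU 9 F q ⊓ specialLinear (Fin 9) F) := le_inf (hHT.trans (TPW e P)) hHS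
        rcases hH.2 _ hHT' inf_le_right with h | h
        · have hsH : s ∈ H := by
            rw [← h]
            exact ⟨hsW, hsS⟩
          exact hsT (hHT hsH)
        · exact nu7 _ P (h ▸ inf_le_left)
      · have hLa := B3a e P R L hRa hR2
        rcases hL.min ⁅L, L⁆ (commutator_le_self L) hL.nrm.commutator with hc | hc
        · -- symplectic type
          have hsym : SymT H L := ⟨hL, hLa, hc⟩
          rcases SY9 H L hsym with ⟨F₁, hF₁, hreal⟩ | ⟨p, e', hst, hnp, hmin, hcardL, hcen⟩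
          · rcases sub L hL.le hL.nrm hLa F₁ hF₁ hreal with h | h
            · exact Or.inr (Or.inr (Or.inr (Or.inr (Or.inr (Or.inl h)))))
            · exact Or.inr (Or.inr (Or.inr (Or.inr (Or.inr (Or.inr (Or.inl h))))))
          · obtain ⟨hqp, hp3⟩ := AR9 hF p e' hmin
            refine Or.inr (Or.inr (Or.inr (Or.inr (Or.inr (Or.inr (Or.inr (Or.inl
              ⟨p, L, hmin.1, hqp, hp3, hst, hLa, hLGU.trans GU_le_sim, hcardL, hcen, ?_⟩)))))))
            have hu := U9 L 3 p hst.pGroup hmin.1 Nat.prime_three hmin.2.1 hnp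
            refine eq_inf_of_max hH ?_ (NU6 hF (by norm_num) L hLGU hc hL.ns hu)
            intro h hh
            unfold subgroupNormalizer
            rw [Subgroup.mem_normalizer_iff]
            intro x
            constructor
            · intro hx
              exact hL.nrm h hh x hx
            · intro hx
              have := hL.nrm h⁻¹ (H.inv_mem hh) _ hx
              have h3 : h⁻¹ * (h * x * h⁻¹) * h⁻¹⁻¹ = x := by group
              rwa [h3] at this
        · rcases B6 H L hL hc with ⟨hs, hna⟩ | ⟨k', Ps, hk', hns, hcomm, hsup, hperm, htrans⟩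
          · by_cases hsubf : ∃ F₀ : Subfield F, F₀ ≠ ⊤ ∧ RealisableOver F₀ (matrixSet L)
            · obtain ⟨F₀, hF₀, hreal⟩ := hsubf
              rcases sub L hL.le hL.nrm hLa F₀ hF₀ hreal with h | h
              · exact Or.inr (Or.inr (Or.inr (Or.inr (Or.inr (Or.inl h)))))
              · exact Or.inr (Or.inr (Or.inr (Or.inr (Or.inr (Or.inr (Or.inl h))))))
            · refine Or.inr (Or.inr (Or.inr (Or.inr (Or.inr (Or.inr (Or.inr (Or.inr (Or.inr
                ⟨L, B7core H L hL.le hL.nrm hLa hc hs hna ?_, ?_, ?_⟩))))))))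
              · intro F₀ hF₀ hreal
                exact hsubf ⟨F₀, hF₀, hreal⟩
              · rintro ⟨Q, hQ, hQfix⟩
                apply hsubf
                refine U7 hF (by norm_num) L hLGU hLa (QuadraticMap.polar Q) hQ.polar_bilinear
                  hQ.nondegenerate ?_
                intro s hs u v
                unfold QuadraticMap.polar
                rw [← Matrix.mulVec_add, hQfix s hs, hQfix s hs, hQfix s hs]
              · rintro ⟨f, hf, hffix⟩
                exact hsubf (U7 hF (by norm_num) L hLGU hLa f hf.bilinear hf.nondegenerate hffix)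
          · -- tensor-induced
            obtain ⟨m', e', P', hm', hHW, hspan⟩ :=
              B8X (by norm_num) H L hLa k' Ps hk' hns hcomm hsup hperm htrans
            have hmk : m' ^ k' = 9 := by
              have := Fintype.card_congr e'
              simpa using this.symm
            have hm3 : m' ≤ 3 := by
              by_contra hcon
              have h4 : 4 ≤ m' := by omega
              have : 4 ^ 2 ≤ m' ^ k' :=
                le_trans (Nat.pow_le_pow_left h4 2) (Nat.pow_le_pow_right (by omega) hk')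
              omega
            have hk3 : k' ≤ 3 := by
              by_contra hcon
              have h4 : 4 ≤ k' := by omega
              have : 2 ^ 4 ≤ m' ^ k' :=
                le_trans (Nat.pow_le_pow_right (by norm_num) h4) (Nat.pow_le_pow_left hm' k')
              omega
            have hmk' : m' = 3 ∧ k' = 2 := by
              interval_cases m' <;> interval_cases k' <;>
                first | exact ⟨rfl, rfl⟩ | (exfalso; norm_num at hmk)
            obtain ⟨rfl, rfl⟩ := hmk'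
            obtain ⟨e₂, R₀, he, hR₀a, hR₀1, hR₀2⟩ := TIR e' P' (Ps 0) (hspan 0)
            subst he
            have hP0L : Ps 0 ≤ L := by
              rw [hsup]
              exact le_iSup Ps 0
            have hP0GU : Ps 0 ≤ Cfsg.GU 9 F q := hP0L.trans hLGU
            obtain ⟨G₁, G₂, hd1', hd2', hh1, hh2, hid⟩ :=
              TF hF e₂ P' R₀ (Ps 0) hP0GU hR₀a hR₀1 hR₀2
            by_cases hq : 3 ≤ q
            · obtain ⟨A, c, hc', hA⟩ := NF3U hF G₁ G₂ hh1 hh2 hd1' hd2'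
              obtain ⟨P'', f₁, hf₁, ht, heq⟩ :=
                TSQU hF (Cfsg.hermForm 9 F q) e₂ P' G₁ G₂ hh1 hd1' hid A c hc' hA
              exact Or.inr (Or.inr (Or.inr (Or.inr (Or.inr (Or.inr (Or.inr (Or.inr (Or.inl
                ⟨hq, _, P'', f₁, hf₁, ht,
                  eq_inf_of_max hH (heq ▸ hHW) (nu7 _ P'')⟩))))))))
            · exfalso
              have hq2' : q = 2 := by omega
              have hF4 : Fintype.card F = 4 := by
                rw [hF, hq2']
                norm_num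
              have hsol3 : Group.IsSolvable ↥(Cfsg.GU 3 F 2) := SOL3 hF4
              have h1herm : ∀ a b : Fin 3, (1 : Matrix (Fin 3) (Fin 3) F) a b =
                  ((1 : Matrix (Fin 3) (Fin 3) F) b a) ^ q := by
                intro a b
                by_cases hab : a = b
                · subst hab
                  simp
                · have hba : b ≠ a := fun h => hab h.symm
                  rw [Matrix.one_apply_ne hab, Matrix.one_apply_ne hba, zero_pow (by omega)]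
              obtain ⟨A, c, hc', hA⟩ := NF3U hF (1 : Matrix (Fin 3) (Fin 3) F) G₁ h1herm hh1
                (by simp) hd1'
              have hRG := RG1 hF e₂ P' G₁ G₂ hd2' hid (Ps 0) hP0GU R₀ hR₀2
              have hsolR : Group.IsSolvable ↥R₀ := SOLG hF hq2' hsol3 G₁ A c hc' hA R₀ hRG
              obtain ⟨h, -, hh⟩ := htrans 0 1
              exact Q2K L hc Ps hcomm hsup ⟨h, hh⟩ (hns 0) e₂ P' R₀ hsolR hR₀1

end Cfsg.Agent.Lib.Helper44.U9
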