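import Mathlib
import Cfsg.Agent.Lib.Helper44.UDDefs

/-!
# S5655 piece H1A (helper44): a non-monomial element with a column of weight one.
Also a small kit about quasi-reflections (`udk_*`).
-/

set_option autoImplicit false
set_option linter.unusedSectionVars false
set_option linter.unusedVariables false

namespace Cfsg.Agent.Lib.Helper44.UD

open Matrix Cfsg.Agent.Lib.Helper93 Cfsg.Agent.Lib.Helper18 Cfsg.Agent.Lib.Helper7

section
variable {F : Type*} [Field F] [Fintype F] {q n : ℕ}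

theorem udk_col (M : Matrix (Fin n) (Fin n) F) (c i : Fin n) :
    (M *ᵥ Pi.single c 1) i = M i c := by
  rw [Matrix.mulVec_single_one]
  rfl

/-- conjugating a quasi-reflection by an isometry -/
theorem udk_qrefl_conj {P : Matrix (Fin n) (Fin n) F} (hP : suPres q n P) (w : Fin n → F)
    (s : F) : P * qrefl q n w s = qrefl q n (P *ᵥ w) s * P := by
  apply Matrix.mulVec_injective
  funext x
  rw [← Matrix.mulVec_mulVec, ← Matrix.mulVec_mulVec, qrefl_mulVec, qrefl_mulVec, hP,
    Matrix.mulVec_add, Matrix.mulVec_smul]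

theorem udk_qrefl_smul (w : Fin n → F) (l s : F) (hl : l ^ (q + 1) = 1) :
    qrefl q n (l • w) s = qrefl q n w s := by
  apply Matrix.mulVec_injective
  funext x
  rw [qrefl_mulVec, qrefl_mulVec, hf_smul_right, smul_smul]
  have h1 : l ^ q * l = 1 := by rw [← pow_succ]; exact hl
  have h2 : (s - 1) * (l ^ q * Cfsg.hermForm n F q x w) * l = (s - 1) * Cfsg.hermForm n F q x w := by
    linear_combination ((s - 1) * Cfsg.hermForm n F q x w) * h1
  rw [h2]

theorem udk_qrefl_single_mulVec (hF : Fintype.card F = q ^ 2) (j c : Fin n) (t : F) :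
    qrefl q n (Pi.single j (1 : F)) t *ᵥ Pi.single c 1 =
      (if c = j then t else 1) • Pi.single c (1 : F) := by
  rw [qrefl_mulVec, hf_single_right hF]
  by_cases hcj : c = j
  · subst hcj
    rw [if_pos rfl, Pi.single_eq_same, mul_one]
    module
  · rw [if_neg hcj, Pi.single_eq_of_ne (Ne.symm hcj), mul_zero, zero_smul, add_zero, one_smul]

theorem udk_isMono_of_diag {M : Matrix (Fin n) (Fin n) F}
    (h : ∀ c, ∃ a : F, M *ᵥ Pi.single c 1 = a • Pi.single c (1 : F)) : IsMono M := by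
  intro c
  obtain ⟨a, ha⟩ := h c
  refine ⟨c, fun i' hi' => ?_⟩
  by_contra hne
  apply hi'
  have h1 := udk_col M c i'
  rw [ha, Pi.smul_apply, Pi.single_eq_of_ne hne, smul_zero] at h1
  exact h1.symm

/-- the diagonal element `r_{e_j,t} r_{e_k,1/t}` lies in a subgroup containing the monomial
matrices of `SU` -/
theorem udk_dg_mem (hF : Fintype.card F = q ^ 2) {X : Subgroup (GL (Fin n) F)}
    (hM : MonSU q X) (j k : Fin n) (hjk : j ≠ k) (t : F) (ht : t ^ (q + 1) = 1) :
    MIn X (qrefl q n (Pi.single j (1 : F)) t * qrefl q n (Pi.single k (1 : F)) t⁻¹) := by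
  have ht0 : t ≠ 0 := by
    rintro rfl
    rw [zero_pow (Nat.succ_ne_zero q)] at ht
    exact zero_ne_one ht
  have hti : t⁻¹ ^ (q + 1) = 1 := by rw [inv_pow, ht, inv_one]
  have hej : Cfsg.hermForm n F q (Pi.single j (1 : F)) (Pi.single j 1) = 1 := by
    rw [hf_single_right hF, Pi.single_eq_same]
  have hek : Cfsg.hermForm n F q (Pi.single k (1 : F)) (Pi.single k 1) = 1 := by
    rw [hf_single_right hF, Pi.single_eq_same]
  have hpres : suPres q n (qrefl q n (Pi.single j (1 : F)) t *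
      qrefl q n (Pi.single k (1 : F)) t⁻¹) :=
    suPres_mul (fun x y => qrefl_preserves hF n _ t hej ht x y)
      (fun x y => qrefl_preserves hF n _ t⁻¹ hek hti x y)
  have hdet : (qrefl q n (Pi.single j (1 : F)) t * qrefl q n (Pi.single k (1 : F)) t⁻¹).det = 1 := by
    rw [Matrix.det_mul, qrefl_det n _ t hej, qrefl_det n _ t⁻¹ hek, mul_inv_cancel₀ ht0]
  obtain ⟨g, hg, hgS⟩ := exists_gl_of_pres hpres hdet
  refine ⟨g, hM g hgS.1 ((mem_sl_iff g).mp hgS.2) ?_, hg⟩
  rw [hg]
  apply udk_isMono_of_diag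
  intro c
  rw [← Matrix.mulVec_mulVec, udk_qrefl_single_mulVec hF, Matrix.mulVec_smul,
    udk_qrefl_single_mulVec hF, smul_smul]
  exact ⟨_, rfl⟩

end

theorem ud_h1a {F : Type*} [Field F] [Fintype F] (q : ℕ) (h1 : TRXStmt F q) (h2 : CW1Stmt F q) : H1AStmt F q := by
  intro hF hq n hn X hX hM x hxX hxm hk
  obtain ⟨k, k', hk'⟩ := hk
  have hXG : X ≤ Cfsg.GU n F q := hX.trans inf_le_left
  have hpres : suPres q n (x : Matrix (Fin n) (Fin n) F) := hXG hxX
  -- a column with two nonzero entries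
  have hex : ∃ j' a b : Fin n, a ≠ b ∧ (x : Matrix (Fin n) (Fin n) F) a j' ≠ 0 ∧
      (x : Matrix (Fin n) (Fin n) F) b j' ≠ 0 := by
    unfold IsMono at hxm
    push Not at hxm
    obtain ⟨j', hj'⟩ := hxm
    obtain ⟨a, ha, -⟩ := hj' ⟨0, by omega⟩
    obtain ⟨b, hb, hba⟩ := hj' a
    exact ⟨j', a, b, Ne.symm hba, ha, hb⟩
  obtain ⟨j', a, b, hab, hxa, hxb⟩ := hex
  have hj'k : j' ≠ k := by
    rintro rfl
    exact hab ((hk' a hxa).trans (hk' b hxb).symm)
  -- the column `k`
  obtain ⟨lam, hlam⟩ : ∃ lam : F, (x : Matrix (Fin n) (Fin n) F) *ᵥ Pi.single k 1 =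
      lam • Pi.single k' (1 : F) := by
    refine ⟨(x : Matrix (Fin n) (Fin n) F) k' k, ?_⟩
    funext i
    rw [udk_col, Pi.smul_apply, smul_eq_mul]
    by_cases hi : i = k'
    · rw [hi, Pi.single_eq_same, mul_one]
    · rw [Pi.single_eq_of_ne hi, mul_zero]
      by_contra hne
      exact hi (hk' i hne)
  have hlamN : lam ^ (q + 1) = 1 := by
    have h3 := hpres (Pi.single k 1) (Pi.single k 1)
    rw [hlam, hf_smul_left, hf_smul_right, hf_single_right hF, hf_single_right hF,
      Pi.single_eq_same, Pi.single_eq_same] at h3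
    rw [pow_succ, mul_comm]
    linear_combination h3
  have hlam0 : lam ≠ 0 := by
    rintro rfl
    rw [zero_pow (Nat.succ_ne_zero q)] at hlamN
    exact zero_ne_one hlamN
  -- the vector `u`
  obtain ⟨u, hu⟩ : ∃ u : Fin n → F, u = (x : Matrix (Fin n) (Fin n) F) *ᵥ Pi.single j' 1 :=
    ⟨_, rfl⟩
  have hui : ∀ i, u i = (x : Matrix (Fin n) (Fin n) F) i j' := fun i => by rw [hu, udk_col]
  have huu : Cfsg.hermForm n F q u u = 1 := by
    rw [hu, hpres, hf_single_right hF, Pi.single_eq_same]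
  have huk' : u k' = 0 := by
    have h3 := hpres (Pi.single j' 1) (Pi.single k 1)
    rw [← hu, hlam, hf_smul_right, hf_single_right hF, hf_single_right hF,
      Pi.single_eq_of_ne (Ne.symm hj'k)] at h3
    rcases mul_eq_zero.mp h3 with h4 | h4
    · exact absurd (pow_eq_zero_iff (herm_q_ne_zero hF) |>.mp h4) hlam0
    · exact h4
  have hsupp : ∀ j, u j ≠ 0 → (Pi.single k' (1 : F) : Fin n → F) j = 0 := by
    intro j hj
    apply Pi.single_eq_of_ne
    rintro rfl
    exact hj huk'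
  have hee : Cfsg.hermForm n F q (Pi.single k' (1 : F)) (Pi.single k' 1) = 1 := by
    rw [hf_single_right hF, Pi.single_eq_same]
  have hr1 : ∀ j, u j ≠ 0 → ∀ t : F, t ^ (q + 1) = 1 →
      MIn X (qrefl q n (Pi.single j 1) t * qrefl q n (Pi.single k' (1 : F)) t⁻¹) := by
    intro j hj t ht
    refine udk_dg_mem hF hM j k' ?_ t ht
    rintro rfl
    exact hj huk'
  have hr2 : ∀ t : F, t ^ (q + 1) = 1 →
      MIn X (qrefl q n u t * qrefl q n (Pi.single k' (1 : F)) t⁻¹) := by
    intro t ht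
    have hD := udk_dg_mem hF hM j' k hj'k t ht
    refine MIn.conj (P := (x : Matrix (Fin n) (Fin n) F)) ⟨x, hxX, rfl⟩ hD ?_
    rw [← Matrix.mul_assoc, udk_qrefl_conj hpres, Matrix.mul_assoc, udk_qrefl_conj hpres,
      ← Matrix.mul_assoc, ← hu, hlam, udk_qrefl_smul _ _ _ hlamN]
  obtain ⟨w, hw0, hwC, hwz⟩ := h1 hF hq n X hXG u (Pi.single k' 1) huu (Or.inr hee) hsupp
    ⟨a, b, hab, by rw [hui]; exact hxa, by rw [hui]; exact hxb⟩ hr1 hr2
  exact h2 hF hq n hn X hXG hM w hwC hw0 ⟨k', hwz k' huk'⟩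

end Cfsg.Agent.Lib.Helper44.UD
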