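import Mathlib
import Cfsg.Agent.Lib.Helper44.UDDefs
import Cfsg.Agent.Lib.Helper44.UDH1A

/-!
# S5655 (helper44): small kit (`udk_*`): centres for subgroups of `GU`, coordinate reflections.
-/

set_option autoImplicit false
set_option linter.unusedSectionVars false
set_option linter.unusedVariables false

namespace Cfsg.Agent.Lib.Helper44.UD

open Matrix Cfsg.Agent.Lib.Helper93 Cfsg.Agent.Lib.Helper18 Cfsg.Agent.Lib.Helper7

section
variable {F : Type*} [Field F] [Fintype F] {q n : ℕ}

theorem udk_qrefl_zero (s : F) : qrefl q n (0 : Fin n → F) s = 1 := by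
  apply Matrix.mulVec_injective
  funext x
  rw [qrefl_mulVec, smul_zero, add_zero, Matrix.one_mulVec]

theorem udk_MIn_pres {Y : Subgroup (GL (Fin n) F)} (hY : Y ≤ Cfsg.GU n F q)
    {P : Matrix (Fin n) (Fin n) F} (hP : MIn Y P) : suPres q n P := by
  obtain ⟨t, ht, rfl⟩ := hP
  exact hY ht

/-- `Cen` is invariant under a subgroup of `GU` -/
theorem udk_cen_map {Y : Subgroup (GL (Fin n) F)} (hY : Y ≤ Cfsg.GU n F q) {v : Fin n → F}
    (hv : Cen q Y v) {P : Matrix (Fin n) (Fin n) F} (hP : MIn Y P) : Cen q Y (P *ᵥ v) := by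
  have hpres := udk_MIn_pres hY hP
  refine ⟨by rw [hpres]; exact hv.1, fun c hc => ?_⟩
  exact MIn.conj hP (hv.2 c hc) (conj_transvection P hpres v c)

/-- the third-point rule -/
theorem udk_cen_hyp {Y : Subgroup (GL (Fin n) F)} (hY : Y ≤ Cfsg.GU n F q) {v₁ v₂ : Fin n → F}
    (h₁ : Cen q Y v₁) (h₂ : Cen q Y v₂) (c : F) (hc : c + c ^ q = 0) :
    Cen q Y (v₂ + (c * Cfsg.hermForm n F q v₂ v₁) • v₁) := by
  have := udk_cen_map hY h₂ (h₁.2 c hc)
  rwa [unitaryTransvection_mulVec] at this

theorem udk_cen_zero (Y : Subgroup (GL (Fin n) F)) : Cen q Y (0 : Fin n → F) := by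
  refine ⟨hf_zero_left n 0, fun c _ => ?_⟩
  have : Cfsg.unitaryTransvection n q (0 : Fin n → F) c = 1 := by
    apply Matrix.mulVec_injective
    funext x
    rw [unitaryTransvection_mulVec, smul_zero, add_zero, Matrix.one_mulVec]
  rw [this]
  exact MIn.one Y

/-- a nonzero isotropic vector has two nonzero coordinates -/
theorem udk_two_nonzero (hF : Fintype.card F = q ^ 2) (w : Fin n → F)
    (hww : Cfsg.hermForm n F q w w = 0) (hw : w ≠ 0) :
    ∃ a b : Fin n, a ≠ b ∧ w a ≠ 0 ∧ w b ≠ 0 := by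
  obtain ⟨a, ha⟩ : ∃ a, w a ≠ 0 := by
    by_contra hcon
    push Not at hcon
    exact hw (funext hcon)
  by_contra hcon
  push Not at hcon
  have h1 : w = w a • Pi.single a (1 : F) := by
    funext i
    by_cases hi : i = a
    · rw [hi, Pi.smul_apply, Pi.single_eq_same, smul_eq_mul, mul_one]
    · rw [Pi.smul_apply, Pi.single_eq_of_ne hi, smul_zero]
      by_contra hne
      exact hne (hcon a i (Ne.symm hi) ha)
  rw [h1, hf_smul_left, hf_smul_right, hf_single_right hF, Pi.single_eq_same, mul_one] at hww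
  rcases mul_eq_zero.mp hww with h2 | h2
  · exact ha h2
  · exact ha (pow_eq_zero_iff (herm_q_ne_zero hF) |>.mp h2)

/-- coordinate reflections lie in a subgroup containing the monomial matrices of `GU` -/
theorem udk_refl_mem (hF : Fintype.card F = q ^ 2) {Y : Subgroup (GL (Fin n) F)}
    (hM : MonGU q Y) (j : Fin n) (t : F) (ht : t ^ (q + 1) = 1) :
    MIn Y (qrefl q n (Pi.single j (1 : F)) t) := by
  have ht0 : t ≠ 0 := by
    rintro rfl
    rw [zero_pow (Nat.succ_ne_zero q)] at ht
    exact zero_ne_one ht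
  have hej : Cfsg.hermForm n F q (Pi.single j (1 : F)) (Pi.single j 1) = 1 := by
    rw [hf_single_right hF, Pi.single_eq_same]
  have hdet : (qrefl q n (Pi.single j (1 : F)) t).det ≠ 0 := by
    rw [qrefl_det n _ t hej]
    exact ht0
  refine ⟨Matrix.GeneralLinearGroup.mkOfDetNeZero _ hdet, hM _ ?_ ?_, rfl⟩
  · exact fun x y => qrefl_preserves hF n _ t hej ht x y
  · apply udk_isMono_of_diag
    intro c
    exact ⟨_, udk_qrefl_single_mulVec hF j c t⟩

/-- the action of a coordinate reflection -/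
theorem udk_refl_single_apply (hF : Fintype.card F = q ^ 2) (j : Fin n) (t : F) (w : Fin n → F) :
    qrefl q n (Pi.single j (1 : F)) t *ᵥ w = w + ((t - 1) * w j) • Pi.single j (1 : F) := by
  rw [qrefl_mulVec, hf_single_right hF]

end

end Cfsg.Agent.Lib.Helper44.UD
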