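import Mathlib
import Cfsg.Agent.Lib.Helper44.UDDefs
import Cfsg.Agent.Lib.Helper44.UDKit

/-!
# S5655 (helper44): kit, part 2 (`udk_*`): elements of order `q+1`, diagonal isometries,
inverse of an isometry.
-/

set_option autoImplicit false
set_option linter.unusedSectionVars false
set_option linter.unusedVariables false

namespace Cfsg.Agent.Lib.Helper44.UD

open Matrix Cfsg.Agent.Lib.Helper93 Cfsg.Agent.Lib.Helper18 Cfsg.Agent.Lib.Helper7

section
variable {F : Type*} [Field F] [Fintype F] {q n : ℕ}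

/-- a unit of order `q + 1` -/
theorem udk_exists_order (hF : Fintype.card F = q ^ 2) : ∃ ζ : Fˣ, orderOf ζ = q + 1 := by
  have hq := herm_two_le hF
  obtain ⟨g, hg⟩ := IsCyclic.exists_generator (α := Fˣ)
  have h1 : orderOf g = (q - 1) * (q + 1) := by
    rw [orderOf_eq_card_of_forall_mem_zpowers hg, herm_card_units hF]
  refine ⟨g ^ (q - 1), ?_⟩
  rw [orderOf_pow' g (by omega), h1, Nat.gcd_mul_right_left]
  exact Nat.mul_div_cancel_left _ (by omega)

theorem udk_order_pow (ζ : Fˣ) (hζ : orderOf ζ = q + 1) : (ζ : F) ^ (q + 1) = 1 := by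
  rw [← Units.val_pow_eq_pow_val, ← hζ, pow_orderOf_eq_one, Units.val_one]

theorem udk_order_ne (ζ : Fˣ) (hζ : orderOf ζ = q + 1) (m : ℕ) (hm0 : 0 < m) (hm : m < q + 1) :
    (ζ : F) ^ m ≠ 1 := by
  intro h
  have h1 : ζ ^ m = 1 := by
    apply Units.ext
    rw [Units.val_pow_eq_pow_val, h, Units.val_one]
  have h2 := orderOf_dvd_of_pow_eq_one h1
  rw [hζ] at h2
  have := Nat.le_of_dvd hm0 h2
  omega

/-- diagonal matrices with entries of norm one are isometries -/
theorem udk_diag_pres (d : Fin n → F) (hd : ∀ i, d i ^ (q + 1) = 1) :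
    suPres q n (Matrix.diagonal d) := by
  intro x y
  unfold Cfsg.hermForm
  refine Finset.sum_congr rfl fun i _ => ?_
  rw [Matrix.mulVec_diagonal, Matrix.mulVec_diagonal, mul_pow]
  have := hd i
  rw [pow_succ] at this
  linear_combination (x i * y i ^ q) * this

/-- `d_ab(t)` lies in a subgroup containing the monomial matrices of `SU` -/
theorem udk_dg_mem' {X : Subgroup (GL (Fin n) F)} (hM : MonSU q X) (a b : Fin n) (hab : a ≠ b)
    (t : Fˣ) (ht : (t : F) ^ (q + 1) = 1) : Cfsg.Agent.Lib.Helper65.Mono.dg a b t ∈ X := by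
  refine hM _ ?_ (Cfsg.Agent.Lib.Helper65.Mono.det_dg hab t)
    (Cfsg.Agent.Lib.Helper65.Mono.isMono_diagU _)
  show suPres q n ((Cfsg.Agent.Lib.Helper65.Mono.diagU
    (Cfsg.Agent.Lib.Helper65.Mono.dgv a b t) : GL (Fin n) F) : Matrix (Fin n) (Fin n) F)
  rw [Cfsg.Agent.Lib.Helper65.Mono.diagU_val]
  apply udk_diag_pres
  intro i
  unfold Cfsg.Agent.Lib.Helper65.Mono.dgv
  split_ifs
  · exact ht
  · rw [Units.val_inv_eq_inv_val, inv_pow, ht, inv_one]
  · rw [Units.val_one, one_pow]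

theorem udk_dg_mulVec (a b : Fin n) (t : Fˣ) (v : Fin n → F) (i : Fin n) :
    ((Cfsg.Agent.Lib.Helper65.Mono.dg a b t : GL (Fin n) F) : Matrix (Fin n) (Fin n) F).mulVec v i
      = (if i = a then (t : F) else if i = b then ((t⁻¹ : Fˣ) : F) else 1) * v i := by
  rw [Cfsg.Agent.Lib.Helper65.Mono.dg, Cfsg.Agent.Lib.Helper65.Mono.diagU_val,
    Matrix.mulVec_diagonal]
  unfold Cfsg.Agent.Lib.Helper65.Mono.dgv
  split_ifs <;> simp

theorem udk_inv_mulVec (x : GL (Fin n) F) (v : Fin n → F) :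
    ((x⁻¹ : GL (Fin n) F) : Matrix (Fin n) (Fin n) F) *ᵥ
      ((x : Matrix (Fin n) (Fin n) F) *ᵥ v) = v := by
  rw [Matrix.mulVec_mulVec, ← Units.val_mul, inv_mul_cancel, Units.val_one, Matrix.one_mulVec]

theorem udk_mulVec_inv (x : GL (Fin n) F) (v : Fin n → F) :
    (x : Matrix (Fin n) (Fin n) F) *ᵥ
      (((x⁻¹ : GL (Fin n) F) : Matrix (Fin n) (Fin n) F) *ᵥ v) = v := by
  rw [Matrix.mulVec_mulVec, ← Units.val_mul, mul_inv_cancel, Units.val_one, Matrix.one_mulVec]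

/-- the inverse of an isometry is its conjugate transpose -/
theorem udk_inv_apply (hF : Fintype.card F = q ^ 2) (x : GL (Fin n) F)
    (hx : suPres q n (x : Matrix (Fin n) (Fin n) F)) (i j : Fin n) :
    ((x⁻¹ : GL (Fin n) F) : Matrix (Fin n) (Fin n) F) i j =
      (x : Matrix (Fin n) (Fin n) F) j i ^ q := by
  have h1 := hx (((x⁻¹ : GL (Fin n) F) : Matrix (Fin n) (Fin n) F) *ᵥ Pi.single j 1)
    (Pi.single i 1)
  rw [udk_mulVec_inv, hf_single_right hF, udk_col, hf_single_left, udk_col] at h1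
  exact h1.symm

theorem udk_inv_pres (x : GL (Fin n) F) (hx : suPres q n (x : Matrix (Fin n) (Fin n) F)) :
    suPres q n ((x⁻¹ : GL (Fin n) F) : Matrix (Fin n) (Fin n) F) := by
  intro u v
  have h1 := hx (((x⁻¹ : GL (Fin n) F) : Matrix (Fin n) (Fin n) F) *ᵥ u)
    (((x⁻¹ : GL (Fin n) F) : Matrix (Fin n) (Fin n) F) *ᵥ v)
  rw [udk_mulVec_inv, udk_mulVec_inv] at h1
  exact h1.symm

end

end Cfsg.Agent.Lib.Helper44.UD
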