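import Mathlib
import Cfsg.Agent.Lib.Helper44.UDDefs
import Cfsg.Agent.Lib.Helper44.UDKit2

/-!
# S5655 piece CONJ (helper44): in an adapted unitary basis the stabiliser of an orthogonal
decomposition is the group of block-permuting matrices.
-/

set_option autoImplicit false
set_option linter.unusedSectionVars false
set_option linter.unusedVariables false

namespace Cfsg.Agent.Lib.Helper44.UD

open Matrix Cfsg.Agent.Lib.Helper93 Cfsg.Agent.Lib.Helper18 Cfsg.Agent.Lib.Helper7

theorem ud_conj {F : Type*} [Field F] [Fintype F] (q : ℕ) : ConjStmt F q := by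
  classical
  intro hF n t k D hD e P hPG hPD g
  have hpres : suPres q n (P : Matrix (Fin n) (Fin n) F) := hPG
  -- membership criterion
  have hmem : ∀ (c : Fin t) (u : Fin n → F), u ∈ D c ↔
      ∀ j, blkOf e j ≠ c →
        (((P⁻¹ : GL (Fin n) F) : Matrix (Fin n) (Fin n) F) *ᵥ u) j = 0 := by
    intro c u
    constructor
    · intro hu j hj
      have h1 := hpres (((P⁻¹ : GL (Fin n) F) : Matrix (Fin n) (Fin n) F) *ᵥ u) (Pi.single j 1)
      rw [udk_mulVec_inv, hf_single_right hF] at h1
      rw [← h1]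
      exact hD.orthogonal c (blkOf e j) (Ne.symm hj) u hu _ (hPD j)
    · intro hu
      have h2 : u = ∑ j, (((P⁻¹ : GL (Fin n) F) : Matrix (Fin n) (Fin n) F) *ᵥ u) j •
          ((P : Matrix (Fin n) (Fin n) F) *ᵥ Pi.single j 1) := by
        conv_lhs => rw [← udk_mulVec_inv P u]
        funext i
        rw [Finset.sum_apply]
        simp only [Pi.smul_apply, udk_col, smul_eq_mul]
        rw [Matrix.mulVec, dotProduct]
        exact Finset.sum_congr rfl fun j _ => mul_comm _ _
      rw [h2]
      refine Submodule.sum_mem _ fun j _ => ?_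
      by_cases hj : blkOf e j = c
      · rw [← hj]
        exact Submodule.smul_mem _ _ (hPD j)
      · rw [hu j hj, zero_smul]
        exact Submodule.zero_mem _
  have hentry : ∀ i j, ((P⁻¹ * g * P : GL (Fin n) F) : Matrix (Fin n) (Fin n) F) i j =
      (((P⁻¹ : GL (Fin n) F) : Matrix (Fin n) (Fin n) F) *ᵥ
        ((g : Matrix (Fin n) (Fin n) F) *ᵥ
          ((P : Matrix (Fin n) (Fin n) F) *ᵥ Pi.single j 1))) i := by
    intro i j
    rw [← udk_col ((P⁻¹ * g * P : GL (Fin n) F) : Matrix (Fin n) (Fin n) F) j i, Units.val_mul,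
      Units.val_mul, ← Matrix.mulVec_mulVec, ← Matrix.mulVec_mulVec]
  constructor
  · rintro ⟨σ, hσ⟩
    refine ⟨σ, fun i j hij => ?_⟩
    by_contra hne
    apply hij
    rw [hentry]
    have h1 : (g : Matrix (Fin n) (Fin n) F) *ᵥ
        ((P : Matrix (Fin n) (Fin n) F) *ᵥ Pi.single j 1) ∈ D (σ (blkOf e j)) := by
      rw [← hσ, ← Matrix.toLin'_apply]
      exact Submodule.mem_map_of_mem (hPD j)
    exact (hmem _ _).mp h1 i hne
  · rintro ⟨σ, hσ⟩
    refine ⟨σ, fun c => ?_⟩
    have hle : (D c).map (Matrix.toLin' (g : Matrix (Fin n) (Fin n) F)) ≤ D (σ c) := by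
      rintro _ ⟨u, hu, rfl⟩
      rw [Matrix.toLin'_apply, hmem]
      intro j hj
      have hu' := (hmem c u).mp hu
      have h3 : ((P⁻¹ : GL (Fin n) F) : Matrix (Fin n) (Fin n) F) *ᵥ
          ((g : Matrix (Fin n) (Fin n) F) *ᵥ u) =
          ((P⁻¹ * g * P : GL (Fin n) F) : Matrix (Fin n) (Fin n) F) *ᵥ
            (((P⁻¹ : GL (Fin n) F) : Matrix (Fin n) (Fin n) F) *ᵥ u) := by
        rw [Units.val_mul, Units.val_mul, ← Matrix.mulVec_mulVec, ← Matrix.mulVec_mulVec,
          udk_mulVec_inv]
      rw [h3, Matrix.mulVec, dotProduct]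
      refine Finset.sum_eq_zero fun i _ => ?_
      by_cases hi : blkOf e i = c
      · by_cases h0 : ((P⁻¹ * g * P : GL (Fin n) F) : Matrix (Fin n) (Fin n) F) j i = 0
        · rw [h0, zero_mul]
        · exfalso
          apply hj
          rw [hσ j i h0, hi]
      · rw [hu' i hi, mul_zero]
    have hinj : Function.Injective (Matrix.toLin' (g : Matrix (Fin n) (Fin n) F)) := by
      intro x y hxy
      rw [Matrix.toLin'_apply, Matrix.toLin'_apply] at hxy
      rw [← udk_inv_mulVec g x, hxy, udk_inv_mulVec]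
    have hfr : Module.finrank F ((D c).map (Matrix.toLin' (g : Matrix (Fin n) (Fin n) F))) =
        Module.finrank F (D (σ c)) := by
      rw [hD.decomp.finrank_eq, ← hD.decomp.finrank_eq c]
      exact (Submodule.equivMapOfInjective _ hinj (D c)).finrank_eq.symm
    exact Submodule.eq_of_le_of_finrank_eq hle hfr

end Cfsg.Agent.Lib.Helper44.UD
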