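import Mathlib
import Cfsg.Agent.Lib.Helper44.UDDefs

/-!
# S5655 (helper44): glue `MQ2`, `K1` and the final assembly `ud_final`
(maximality of the stabiliser of an orthogonal decomposition from the block theorems
`K1Stmt`, `K2Stmt`, `BlkProperStmt` and the adapted basis `AdaptStmt`, `ConjStmt`).
-/

set_option autoImplicit false
set_option linter.unusedSectionVars false
set_option linter.unusedVariables false

namespace Cfsg.Agent.Lib.Helper44.UD

open Matrix Cfsg.Agent.Lib.Helper93 Cfsg.Agent.Lib.Helper18 Cfsg.Agent.Lib.Helper7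

theorem ud_mq2 {F : Type*} [Field F] [Fintype F] (q : ℕ) (h1 : Q2AStmt F) (h2 : Q2BStmt F)
    (h3 : Q2CStmt F) : MQ2Stmt F := by
  intro hF n hn X hX hM hx
  obtain ⟨w, hw, hw4⟩ := h1 hF n (by omega) X hX hM hx
  obtain ⟨w', hw', hs⟩ := h2 hF n hn X hX hM w hw hw4
  exact h3 hF n (by omega) X hX hM ⟨w', hw', hs⟩

theorem ud_q_ge_two {F : Type*} [Field F] [Fintype F] {q : ℕ} (hF : Fintype.card F = q ^ 2) :
    2 ≤ q := by
  have h1 : 1 < Fintype.card F := Fintype.one_lt_card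
  rw [hF] at h1
  by_contra hcon
  have hq : q = 0 ∨ q = 1 := by omega
  rcases hq with rfl | rfl <;> simp at h1

theorem ud_k1 {F : Type*} [Field F] [Fintype F] (q : ℕ) (h1 : K1EqStmt F) (h2 : MQ3Stmt F q)
    (h3 : MQ2Stmt F) : K1Stmt F q := by
  intro hF n t e hn X hX hB hne
  have hM : MonSU q X := fun g hg hd hm => hB g hg hd ((h1 n t e g).mpr hm)
  have hx : ∃ x ∈ X, ¬ IsMono (x : Matrix (Fin n) (Fin n) F) := by
    obtain ⟨g, hg, hgb⟩ := hne
    exact ⟨g, hg, fun hm => hgb ((h1 n t e g).mpr hm)⟩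
  have hq := ud_q_ge_two hF
  by_cases hq2 : q = 2
  · subst hq2
    exact h3 hF n (by omega) X (hX.trans inf_le_left) hM hx
  · exact h2 hF (by omega) n hn X hX hM hx

theorem ud_final {F : Type*} [Field F] [Fintype F] (hA : ∀ q : ℕ, AdaptStmt F q)
    (hC : ∀ q : ℕ, ConjStmt F q) (hK1 : ∀ q : ℕ, K1Stmt F q) (hK2 : ∀ q : ℕ, K2Stmt F q)
    (hP : ∀ q : ℕ, BlkProperStmt F q)
    (n q : ℕ) (hF : Fintype.card F = q ^ 2) (hn : 13 ≤ n) {t : ℕ} (k : ℕ)
    (D : Fin t → Submodule F (Fin n → F))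
    (hD : Cfsg.Geo.IsNondegenerateMDecomposition (Cfsg.hermForm n F q) k D)
    (hex : ¬ (k = 2 ∧ q = 2)) :
    Cfsg.Geo.IsMaximalIn (Cfsg.GU n F q ⊓ Cfsg.Geo.specialLinear (Fin n) F)
      (Cfsg.Geo.decompositionStabilizer D ⊓
        (Cfsg.GU n F q ⊓ Cfsg.Geo.specialLinear (Fin n) F)) := by
  obtain ⟨e, P, hPG, hPD⟩ := hA q hF n t k D hD
  have hconj := hC q hF n t k D hD e P hPG hPD
  have ht : 2 ≤ t := hD.decomp.two_le
  have hk : 0 < k := hD.decomp.pos
  have hnorm : (Cfsg.Geo.specialLinear (Fin n) F).Normal := by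
    unfold Cfsg.Geo.specialLinear
    infer_instance
  have hSU1 : ∀ g : GL (Fin n) F, g ∈ SUg n F q → P * g * P⁻¹ ∈ SUg n F q := by
    intro g hg
    exact Subgroup.mem_inf.mpr ⟨Subgroup.mul_mem _ (Subgroup.mul_mem _ hPG hg.1)
      (Subgroup.inv_mem _ hPG), hnorm.conj_mem g hg.2 P⟩
  have hSU2 : ∀ g : GL (Fin n) F, g ∈ SUg n F q → P⁻¹ * g * P ∈ SUg n F q := by
    intro g hg
    have h1 := hnorm.conj_mem g hg.2 P⁻¹
    rw [inv_inv] at h1
    exact Subgroup.mem_inf.mpr ⟨Subgroup.mul_mem _ (Subgroup.mul_mem _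
      (Subgroup.inv_mem _ hPG) hg.1) hPG, h1⟩
  have hc1 : ∀ g : GL (Fin n) F, P⁻¹ * (P * g * P⁻¹) * P = g := fun g => by group
  have hc2 : ∀ g : GL (Fin n) F, P * (P⁻¹ * g * P) * P⁻¹ = g := fun g => by group
  refine ⟨?_, ?_⟩
  · -- properness
    obtain ⟨g0, hg0, hnb⟩ := hP q hF n t k e hn ht
    refine lt_of_le_of_ne inf_le_right ?_
    intro heq
    have h1 : P * g0 * P⁻¹ ∈ Cfsg.Geo.decompositionStabilizer D ⊓
        (Cfsg.GU n F q ⊓ Cfsg.Geo.specialLinear (Fin n) F) := by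
      rw [heq]
      exact hSU1 g0 hg0
    have h2 := (hconj (P * g0 * P⁻¹)).mp h1.1
    rw [hc1] at h2
    exact hnb h2
  · intro M hHM hMSU
    -- the conjugate subgroup
    obtain ⟨X, hXdef⟩ : ∃ X : Subgroup (GL (Fin n) F), ∀ g, g ∈ X ↔ P * g * P⁻¹ ∈ M :=
      ⟨M.comap (MulAut.conj P).toMonoidHom, fun g => by
        rw [Subgroup.mem_comap]
        rfl⟩
    have hXle : X ≤ SUg n F q := by
      intro g hg
      have h1 := hSU2 _ (hMSU ((hXdef g).mp hg))
      rwa [hc1] at h1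
    have hBlk : BlkIn q (blkOf e) X := by
      intro g hgG hgd hgb
      rw [hXdef]
      apply hHM
      have hgS : g ∈ SUg n F q := Subgroup.mem_inf.mpr ⟨hgG, (mem_sl_iff g).mpr hgd⟩
      refine Subgroup.mem_inf.mpr ⟨?_, hSU1 g hgS⟩
      rw [hconj, hc1]
      exact hgb
    by_cases hne : ∃ g ∈ X, ¬ IsBlk (blkOf e) (g : Matrix (Fin n) (Fin n) F)
    · right
      have hXbig : SUg n F q ≤ X := by
        by_cases hk1 : k = 1
        · subst hk1
          exact hK1 q hF n t e hn X hXle hBlk hne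
        · exact hK2 q hF n t k e hn ht (by omega) hex X hXle hBlk hne
      refine le_antisymm hMSU ?_
      intro g hg
      have h1 := (hXdef _).mp (hXbig (hSU2 g hg))
      rwa [hc2] at h1
    · left
      push Not at hne
      refine le_antisymm ?_ hHM
      intro g hg
      refine Subgroup.mem_inf.mpr ⟨?_, hMSU hg⟩
      rw [hconj]
      apply hne
      rw [hXdef, hc2]
      exact hg

end Cfsg.Agent.Lib.Helper44.UD
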