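import Mathlib
import Cfsg.Agent.Lib.Helper44.UDDefs
import Cfsg.Agent.Lib.Helper44.UDKit2

/-!
# S5655 piece H1B (helper44): a non-monomial element mapping a coordinate plane into a
coordinate plane (glue from H1A and RKU).
-/

set_option autoImplicit false
set_option linter.unusedSectionVars false
set_option linter.unusedVariables false

namespace Cfsg.Agent.Lib.Helper44.UD

open Matrix Cfsg.Agent.Lib.Helper93 Cfsg.Agent.Lib.Helper18 Cfsg.Agent.Lib.Helper7
open Cfsg.Agent.Lib.Helper65.Mono (dg gl_inv_mul_apply)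

theorem ud_h1b {F : Type*} [Field F] [Fintype F] (q : ℕ) (h1 : H1AStmt F q) (h2 : RKUStmt F q) : H1BStmt F q := by
  classical
  intro hF hq n hn X hX hM x hxX hxm hex
  obtain ⟨i, j, i', j', hij, hsup⟩ := hex
  by_contra hWin
  have hXG : X ≤ Cfsg.GU n F q := hX.trans inf_le_left
  have hpres : suPres q n (x : Matrix (Fin n) (Fin n) F) := hXG hxX
  have hNC : ∀ k, ¬ Col1 (x : Matrix (Fin n) (Fin n) F) k := fun k hk =>
    hWin (h1 hF hq n (by omega) X hX hM x hxX hxm ⟨k, hk⟩)
  have hi'j' : i' ≠ j' := by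
    rintro rfl
    exact hNC i ⟨i', fun r hr => by
      by_contra hne
      exact hr (hsup r hne hne).1⟩
  -- the form on the columns `i`, `j`
  have hform : ∀ c d : Fin n, (c = i ∨ c = j) →
      Cfsg.hermForm n F q ((x : Matrix (Fin n) (Fin n) F) *ᵥ Pi.single c 1)
        ((x : Matrix (Fin n) (Fin n) F) *ᵥ Pi.single d 1) =
      (x : Matrix (Fin n) (Fin n) F) i' c * (x : Matrix (Fin n) (Fin n) F) i' d ^ q +
        (x : Matrix (Fin n) (Fin n) F) j' c * (x : Matrix (Fin n) (Fin n) F) j' d ^ q := by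
    intro c d hc
    unfold Cfsg.hermForm
    rw [Finset.sum_eq_add i' j' hi'j']
    · simp only [udk_col]
    · intro r _ hr
      rw [udk_col]
      rcases hc with rfl | rfl
      · rw [(hsup r hr.1 hr.2).1, zero_mul]
      · rw [(hsup r hr.1 hr.2).2, zero_mul]
    · intro h; exact absurd (Finset.mem_univ _) h
    · intro h; exact absurd (Finset.mem_univ _) h
  have hfii := hform i i (Or.inl rfl)
  have hfjj := hform j j (Or.inr rfl)
  have hfij := hform i j (Or.inl rfl)
  rw [hpres, hf_single_right hF, Pi.single_eq_same] at hfii hfjj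
  rw [hpres, hf_single_right hF, Pi.single_eq_of_ne (Ne.symm hij)] at hfij
  obtain ⟨p, hp⟩ : ∃ p : F, p = (x : Matrix (Fin n) (Fin n) F) i' i := ⟨_, rfl⟩
  obtain ⟨r, hr⟩ : ∃ r : F, r = (x : Matrix (Fin n) (Fin n) F) j' i := ⟨_, rfl⟩
  obtain ⟨s, hs⟩ : ∃ s : F, s = (x : Matrix (Fin n) (Fin n) F) i' j := ⟨_, rfl⟩
  obtain ⟨u', hu'⟩ : ∃ u' : F, u' = (x : Matrix (Fin n) (Fin n) F) j' j := ⟨_, rfl⟩
  rw [← hp, ← hr] at hfii
  rw [← hs, ← hu'] at hfjj
  rw [← hp, ← hr, ← hs, ← hu'] at hfij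
  have hq0 := herm_q_ne_zero hF
  have hΔ : p * u' - r * s ≠ 0 := by
    intro hΔ
    have hr0 : r = 0 := by linear_combination u' * hfij.symm - s ^ q * hΔ - r * hfjj.symm
    rw [hr0] at hfii hfij hΔ
    have hp0 : p ≠ 0 := by
      rintro rfl
      simp [hq0] at hfii
    have hu0 : u' = 0 := by
      rcases mul_eq_zero.mp (by linear_combination hΔ : p * u' = 0) with h | h
      · exact absurd h hp0
      · exact h
    have hs0 : s = 0 := by
      have h3 : p * s ^ q = 0 := by linear_combination -hfij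
      rcases mul_eq_zero.mp h3 with h | h
      · exact absurd h hp0
      · exact pow_eq_zero_iff hq0 |>.mp h
    rw [hu0, hs0] at hfjj
    simp [hq0] at hfjj
  -- rows of `x⁻¹` outside `i`, `j` vanish at `i'`
  have hinv : ∀ c : Fin n, c ≠ i → c ≠ j →
      ((x⁻¹ : GL (Fin n) F) : Matrix (Fin n) (Fin n) F) c i' = 0 := by
    intro c hci hcj
    have e1 := gl_inv_mul_apply x c i
    have e2 := gl_inv_mul_apply x c j
    rw [if_neg hci, Finset.sum_eq_add i' j' hi'j'
      (fun k _ hk => by rw [(hsup k hk.1 hk.2).1, mul_zero])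
      (fun h => absurd (Finset.mem_univ _) h) (fun h => absurd (Finset.mem_univ _) h)] at e1
    rw [if_neg hcj, Finset.sum_eq_add i' j' hi'j'
      (fun k _ hk => by rw [(hsup k hk.1 hk.2).2, mul_zero])
      (fun h => absurd (Finset.mem_univ _) h) (fun h => absurd (Finset.mem_univ _) h)] at e2
    rw [← hp, ← hr] at e1
    rw [← hs, ← hu'] at e2
    have h3 : ((x⁻¹ : GL (Fin n) F) : Matrix (Fin n) (Fin n) F) c i' * (p * u' - r * s) = 0 := by
      linear_combination u' * e1 - r * e2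
    rcases mul_eq_zero.mp h3 with h | h
    · exact h
    · exact absurd h hΔ
  -- the torus element
  obtain ⟨t, hζ⟩ := udk_exists_order (F := F) hF
  have ht : (t : F) ^ (q + 1) = 1 := udk_order_pow t hζ
  have ht2 : (t : F) ^ 2 ≠ 1 := udk_order_ne t hζ 2 (by omega) (by omega)
  have ht3 : (t : F) ^ 3 ≠ 1 := udk_order_ne t hζ 3 (by omega) (by omega)
  have key : ∀ a b : Fin n, a ≠ b → a ≠ i → a ≠ j → b ≠ i → b ≠ j →
      IsMono ((x * dg a b t * x⁻¹ : GL (Fin n) F) : Matrix (Fin n) (Fin n) F) := by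
    intro a b hab hai haj hbi hbj
    by_contra hzm
    have hzX : x * dg a b t * x⁻¹ ∈ X :=
      X.mul_mem (X.mul_mem hxX (udk_dg_mem' hM a b hab t ht)) (X.inv_mem hxX)
    apply hWin
    refine h1 hF hq n (by omega) X hX hM _ hzX hzm ⟨i', i', fun k hk => ?_⟩
    have hz : ((x * dg a b t * x⁻¹ : GL (Fin n) F) : Matrix (Fin n) (Fin n) F) *ᵥ
        Pi.single i' 1 = Pi.single i' 1 := by
      rw [Units.val_mul, Units.val_mul, ← Matrix.mulVec_mulVec, ← Matrix.mulVec_mulVec]
      have hfix : ((dg a b t : GL (Fin n) F) : Matrix (Fin n) (Fin n) F) *ᵥ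
          (((x⁻¹ : GL (Fin n) F) : Matrix (Fin n) (Fin n) F) *ᵥ Pi.single i' 1) =
          ((x⁻¹ : GL (Fin n) F) : Matrix (Fin n) (Fin n) F) *ᵥ Pi.single i' 1 := by
        funext c
        rw [udk_dg_mulVec, udk_col]
        by_cases hca : c = a
        · rw [hca, hinv a hai haj, mul_zero]
        · by_cases hcb : c = b
          · rw [hcb, hinv b hbi hbj, mul_zero]
          · rw [if_neg hca, if_neg hcb, one_mul]
      rw [hfix, udk_mulVec_inv]
    by_contra hne
    apply hk
    have h9 := udk_col ((x * dg a b t * x⁻¹ : GL (Fin n) F) : Matrix (Fin n) (Fin n) F) i' k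
    rw [hz, Pi.single_eq_of_ne hne] at h9
    exact h9.symm
  -- three indices outside `{i, j}`
  have hcard : 2 < (Finset.univ \ ({i, j} : Finset (Fin n))).card := by
    have h3 := Finset.le_card_sdiff ({i, j} : Finset (Fin n)) Finset.univ
    have h4 : ({i, j} : Finset (Fin n)).card ≤ 2 := Finset.card_le_two
    rw [Finset.card_univ, Fintype.card_fin] at h3
    omega
  obtain ⟨a, b, b', ha, hb, hb', hab, hab', hbb'⟩ := Finset.two_lt_card_iff.mp hcard
  simp only [Finset.mem_sdiff, Finset.mem_univ, true_and, Finset.mem_insert,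
    Finset.mem_singleton, not_or] at ha hb hb'
  exact hNC a (h2 hF n x (hXG hxX) a b b' hab hab' hbb' t ht ht2 ht3
    (key a b hab ha.1 ha.2 hb.1 hb.2) (key a b' hab' ha.1 ha.2 hb'.1 hb'.2))

end Cfsg.Agent.Lib.Helper44.UD
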