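import Mathlib
import Cfsg.Agent.Lib.Helper44.UDDefs
import Cfsg.Agent.Lib.Helper44.UDKit2

/-!
# S5655 piece K2 (helper44): blocks of dimension `k ≥ 2` (glue).
-/

set_option autoImplicit false
set_option linter.unusedSectionVars false
set_option linter.unusedVariables false

namespace Cfsg.Agent.Lib.Helper44.UD

open Matrix Cfsg.Agent.Lib.Helper93 Cfsg.Agent.Lib.Helper18 Cfsg.Agent.Lib.Helper7

theorem ud_k2 {F : Type*} [Field F] [Fintype F] (q : ℕ) (h1 : K2MixedStmt F q) (h2 : K2ReduceStmt F q) (h3 : K2OrbStmt F q) (h4 : T2Stmt F q) (h5 : Q2GenStmt F) (h6 : K2NonMonoStmt F) (h7 : MQ2Stmt F) : K2Stmt F q := by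
  intro hF n t k e hn ht hk hkq X hX hB hex
  have hXG : X ≤ Cfsg.GU n F q := hX.trans inf_le_left
  obtain ⟨w, hw, hab⟩ := h1 hF n t k e hk X hX hB hex
  have hred := h2 hF n t k e (by omega) hk X hX hB w hw hab
  have hall := h3 hF n t k e (by omega) hk X hX hB hred
  have hq2 : 2 ≤ q := herm_two_le hF
  rcases Nat.lt_or_ge q 3 with hq | hq
  · have hq' : q = 2 := by omega
    subst hq'
    have hk3 : 3 ≤ k := by
      by_contra hcon
      exact hkq ⟨by omega, rfl⟩
    have hMon : MonSU 2 X := h5 hF n (by omega) X hXG hall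
    obtain ⟨g, hgU, hdet, hblk, hnm⟩ := h6 hF n t k e hk3 ht
    exact h7 hF n (by omega) X hXG hMon ⟨g, hB g hgU hdet hblk, hnm⟩
  · exact h4 hF hq n (by omega) X hXG hall

end Cfsg.Agent.Lib.Helper44.UD
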