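import Mathlib
import Cfsg.Agent.Lib.Helper44.UDDefs

/-!
# S5655 piece MQ3 (helper44): the monomial group is maximal in `SU_n(q)`, `q ≥ 3` (glue).
-/

set_option autoImplicit false
set_option linter.unusedSectionVars false
set_option linter.unusedVariables false

namespace Cfsg.Agent.Lib.Helper44.UD

open Matrix Cfsg.Agent.Lib.Helper93 Cfsg.Agent.Lib.Helper18 Cfsg.Agent.Lib.Helper7

theorem ud_mq3 {F : Type*} [Field F] [Fintype F] (q : ℕ) (h1 : H1AStmt F q) (h2 : P3Stmt F q) (h3 : ZeroStmt F q) (h4 : Step4Stmt F q) (h5 : Step5OddStmt F q) (h6 : Step5EvenStmt F q) : MQ3Stmt F q := by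
  intro hF hq n hn X hX hM hx
  by_contra hWin
  have hNC : NoCol1 X := fun x hxX hxm k hk =>
    hWin (h1 hF hq n (by omega) X hX hM x hxX hxm ⟨k, hk⟩)
  obtain ⟨hCZ, hRZ⟩ := h2 hF hq n (by omega) X hX hM hWin
  obtain ⟨y, hyX, hym, hyz⟩ := h3 hF n (by omega) X hX hM hCZ hx
  have hqn := h4 hF n (by omega) X hX hM hNC hRZ y hyX hym hyz
  by_cases h2F : (2 : F) = 0
  · have hq4 : 4 ≤ q := by
      by_contra hlt
      have hq3 : q = 3 := by omega
      subst hq3
      have h9 : ((3 ^ 2 : ℕ) : F) = 0 := by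
        rw [← hF]
        exact FiniteField.cast_card_eq_zero F
      push_cast at h9
      have h10 : (1 : F) = 0 := by linear_combination h9 - 4 * h2F
      exact one_ne_zero h10
    obtain ⟨N, rfl⟩ : ∃ N, n = N + 2 := ⟨n - 2, by omega⟩
    exact h6 hF h2F hq4 N (by omega) hqn X hX hM hNC hCZ hRZ y hyX hym hyz
  · exact h5 hF h2F n (by omega) hqn X hX hM hNC hCZ hRZ y hyX hym hyz

end Cfsg.Agent.Lib.Helper44.UD
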