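import Mathlib
import Cfsg.Agent.Lib.Helper44.UDDefs
import Cfsg.Agent.Lib.Helper44.UDKit

/-!
# S5655 pieces ORB, CW1, THMG (helper44).
-/

set_option autoImplicit false
set_option linter.unusedSectionVars false
set_option linter.unusedVariables false

namespace Cfsg.Agent.Lib.Helper44.UD

open Matrix Cfsg.Agent.Lib.Helper93 Cfsg.Agent.Lib.Helper18 Cfsg.Agent.Lib.Helper7

theorem ud_orb {F : Type*} [Field F] [Fintype F] (q : ℕ) (h1 : MonoExStmt F q) : OrbStmt F q := by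
  intro hF n hn X hX hM a b ε hab hε hC c d ε' hcd hε'
  have hε0 : ε ≠ 0 := by
    rintro rfl
    rw [zero_pow (Nat.succ_ne_zero q)] at hε
    exact one_ne_zero (neg_eq_zero.mp hε.symm)
  obtain ⟨g, hgG, hgd, hgm, hga, hgb⟩ := h1 hF n hn a b c d 1 (ε' / ε) hab hcd (one_pow _)
    (by rw [div_pow, hε, hε']; exact div_self (neg_ne_zero.mpr one_ne_zero))
  have hgX : g ∈ X := hM g hgG hgd hgm
  have h3 := udk_cen_map hX hC ⟨g, hgX, rfl⟩
  rw [Matrix.mulVec_add, Matrix.mulVec_smul, hga, hgb, one_smul, smul_smul,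
    mul_div_cancel₀ _ hε0] at h3
  exact h3

theorem ud_cw1 {F : Type*} [Field F] [Fintype F] (q : ℕ) (h1 : T2AStmt F q) (h2 : OrbStmt F q) (h3 : T2Stmt F q) : CW1Stmt F q := by
  intro hF hq n hn X hX hM w hwC hw0 hc
  obtain ⟨c, hc⟩ := hc
  obtain ⟨a, b, hab, hwa, hwb⟩ := udk_two_nonzero hF w hwC.1 hw0
  have hca : c ≠ a := by
    rintro rfl
    exact hwa hc
  have hcb : c ≠ b := by
    rintro rfl
    exact hwb hc
  have hd : ∀ ρa ρb : F, ρa ^ (q + 1) = 1 → ρb ^ (q + 1) = 1 →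
      (w a ^ (q + 1) + w b ^ (q + 1) = 0 → ρa * ρb = 1) →
      ∃ d : Matrix (Fin n) (Fin n) F, MIn X d ∧
        d *ᵥ w = w + ((ρa - 1) * w a) • Pi.single a 1 + ((ρb - 1) * w b) • Pi.single b 1 := by
    intro ρa ρb hρa hρb _
    refine ⟨_, (udk_dg_mem hF hM a c (Ne.symm hca) ρa hρa).mul
      (udk_dg_mem hF hM b c (Ne.symm hcb) ρb hρb), ?_⟩
    have hB : (qrefl q n (Pi.single b (1 : F)) ρb * qrefl q n (Pi.single c (1 : F)) ρb⁻¹) *ᵥ w =
        w + ((ρb - 1) * w b) • Pi.single b (1 : F) := by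
      rw [← Matrix.mulVec_mulVec, udk_refl_single_apply hF c, hc, mul_zero, zero_smul, add_zero,
        udk_refl_single_apply hF b]
    rw [← Matrix.mulVec_mulVec, hB, ← Matrix.mulVec_mulVec, udk_refl_single_apply hF c,
      udk_refl_single_apply hF a]
    simp only [Pi.add_apply, Pi.smul_apply, Pi.zero_apply, smul_eq_mul, hc,
      Pi.single_eq_of_ne hcb, Pi.single_eq_of_ne hab, mul_zero, add_zero, zero_smul]
    abel
  obtain ⟨ε, hε, hCε⟩ := h1 hF n X hX w hwC a b hab hwa hwb hd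
  exact h3 hF hq n hn X hX
    (fun i j ε' hij hε' => h2 hF n (by omega) X hX hM a b ε hab hε hCε i j ε' hij hε')

theorem ud_thmg {F : Type*} [Field F] [Fintype F] (q : ℕ) (h1 : TRXStmt F q) (h2 : T2AStmt F q) : ThmGStmt F q := by
  intro hF hq N hN Y hY hM hg
  obtain ⟨g, hgY, hgm⟩ := hg
  have hpres : suPres q N (g : Matrix (Fin N) (Fin N) F) := hY hgY
  have hex : ∃ j' a b : Fin N, a ≠ b ∧ (g : Matrix (Fin N) (Fin N) F) a j' ≠ 0 ∧
      (g : Matrix (Fin N) (Fin N) F) b j' ≠ 0 := by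
    unfold IsMono at hgm
    push Not at hgm
    obtain ⟨j', hj'⟩ := hgm
    obtain ⟨a, ha, -⟩ := hj' ⟨0, by omega⟩
    obtain ⟨b, hb, hba⟩ := hj' a
    exact ⟨j', a, b, Ne.symm hba, ha, hb⟩
  obtain ⟨j', a, b, hab, hxa, hxb⟩ := hex
  obtain ⟨u, hu⟩ : ∃ u : Fin N → F, u = (g : Matrix (Fin N) (Fin N) F) *ᵥ Pi.single j' 1 :=
    ⟨_, rfl⟩
  have hui : ∀ i, u i = (g : Matrix (Fin N) (Fin N) F) i j' := fun i => by rw [hu, udk_col]
  have huu : Cfsg.hermForm N F q u u = 1 := by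
    rw [hu, hpres, hf_single_right hF, Pi.single_eq_same]
  have hr1 : ∀ j, u j ≠ 0 → ∀ t : F, t ^ (q + 1) = 1 →
      MIn Y (qrefl q N (Pi.single j 1) t * qrefl q N (0 : Fin N → F) t⁻¹) := by
    intro j _ t ht
    rw [udk_qrefl_zero, mul_one]
    exact udk_refl_mem hF hM j t ht
  have hr2 : ∀ t : F, t ^ (q + 1) = 1 →
      MIn Y (qrefl q N u t * qrefl q N (0 : Fin N → F) t⁻¹) := by
    intro t ht
    rw [udk_qrefl_zero, mul_one]
    refine MIn.conj (P := (g : Matrix (Fin N) (Fin N) F)) ⟨g, hgY, rfl⟩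
      (udk_refl_mem hF hM j' t ht) ?_
    rw [udk_qrefl_conj hpres, ← hu]
  obtain ⟨w, hw0, hwC, -⟩ := h1 hF hq N Y hY u 0 huu (Or.inl rfl) (fun j _ => rfl)
    ⟨a, b, hab, by rw [hui]; exact hxa, by rw [hui]; exact hxb⟩ hr1 hr2
  obtain ⟨a', b', hab', hwa', hwb'⟩ := udk_two_nonzero hF w hwC.1 hw0
  have hd : ∀ ρa ρb : F, ρa ^ (q + 1) = 1 → ρb ^ (q + 1) = 1 →
      (w a' ^ (q + 1) + w b' ^ (q + 1) = 0 → ρa * ρb = 1) →
      ∃ d : Matrix (Fin N) (Fin N) F, MIn Y d ∧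
        d *ᵥ w = w + ((ρa - 1) * w a') • Pi.single a' 1 + ((ρb - 1) * w b') • Pi.single b' 1 := by
    intro ρa ρb hρa hρb _
    refine ⟨_, (udk_refl_mem hF hM a' ρa hρa).mul (udk_refl_mem hF hM b' ρb hρb), ?_⟩
    rw [← Matrix.mulVec_mulVec, udk_refl_single_apply hF b', udk_refl_single_apply hF a']
    simp only [Pi.add_apply, Pi.smul_apply, Pi.zero_apply, smul_eq_mul, Pi.single_eq_of_ne hab',
      mul_zero, add_zero]
    abel
  obtain ⟨ε, hε, hCε⟩ := h2 hF N Y hY w hwC a' b' hab' hwa' hwb' hd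
  exact ⟨a', b', ε, hab', hε, hCε⟩

end Cfsg.Agent.Lib.Helper44.UD
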