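import Mathlib
import Cfsg.Agent.Lib.Helper44.UDDefs
import Cfsg.Agent.Lib.Helper44.UDKit2

/-!
# S5655 piece P3 (helper44): non-monomial elements of a proper overgroup of the monomial
group have at most one zero in each row and column (glue from H1A and H1B).
-/

set_option autoImplicit false
set_option linter.unusedSectionVars false
set_option linter.unusedVariables false

namespace Cfsg.Agent.Lib.Helper44.UD

open Matrix Cfsg.Agent.Lib.Helper93 Cfsg.Agent.Lib.Helper18 Cfsg.Agent.Lib.Helper7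
open Cfsg.Agent.Lib.Helper65.Mono (dg gl_inv_mul_apply gl_mul_inv_apply isMono_inv_iff)

section

variable {F : Type*} [Field F] [Fintype F] {n q : ℕ}

/-- the coefficient vector of `d_ab(s)` -/
def udp3Coef (a b : Fin n) (s : Fˣ) (i : Fin n) : F :=
  if i = a then (s : F) else if i = b then ((s⁻¹ : Fˣ) : F) else 1

theorem udp3_conj_col (x : GL (Fin n) F) (a b : Fin n) (s : Fˣ) (c r : Fin n) :
    ((x⁻¹ * dg a b s * x : GL (Fin n) F) : Matrix (Fin n) (Fin n) F) r c =
      (((x⁻¹ : GL (Fin n) F) : Matrix (Fin n) (Fin n) F) *ᵥ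
        (fun i => udp3Coef a b s i * (x : Matrix (Fin n) (Fin n) F) i c)) r := by
  rw [← udk_col ((x⁻¹ * dg a b s * x : GL (Fin n) F) : Matrix (Fin n) (Fin n) F) c r,
    Units.val_mul, Units.val_mul, ← Matrix.mulVec_mulVec, ← Matrix.mulVec_mulVec]
  congr 2
  funext i
  rw [udk_dg_mulVec, udk_col]
  rfl

/-- `x * (x⁻¹ d x) = d * x`, entrywise -/
theorem udp3_mul_conj (x : GL (Fin n) F) (a b : Fin n) (s : Fˣ) (c r : Fin n) :
    ∑ j, (x : Matrix (Fin n) (Fin n) F) r j *
      ((x⁻¹ * dg a b s * x : GL (Fin n) F) : Matrix (Fin n) (Fin n) F) j c =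
      udp3Coef a b s r * (x : Matrix (Fin n) (Fin n) F) r c := by
  have h1 : (x : Matrix (Fin n) (Fin n) F) *
      ((x⁻¹ * dg a b s * x : GL (Fin n) F) : Matrix (Fin n) (Fin n) F) =
      ((dg a b s : GL (Fin n) F) : Matrix (Fin n) (Fin n) F) * (x : Matrix (Fin n) (Fin n) F) := by
    rw [← Units.val_mul, ← Units.val_mul]
    congr 1
    group
  have h2 := congrFun (congrFun h1 r) c
  rw [Matrix.mul_apply] at h2
  rw [h2, ← udk_col (((dg a b s : GL (Fin n) F) : Matrix (Fin n) (Fin n) F) *
    (x : Matrix (Fin n) (Fin n) F)) c r, ← Matrix.mulVec_mulVec, udk_dg_mulVec, udk_col]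
  rfl

/-- a column fixed up to a scalar by a torus conjugate is good -/
theorem udp3_good (x : GL (Fin n) F) (a b : Fin n) (s : Fˣ) (hs : (s : F) ≠ 1) (c : Fin n)
    (hz : IsMono ((x⁻¹ * dg a b s * x : GL (Fin n) F) : Matrix (Fin n) (Fin n) F))
    (hcc : ((x⁻¹ * dg a b s * x : GL (Fin n) F) : Matrix (Fin n) (Fin n) F) c c ≠ 0) :
    ((x : Matrix (Fin n) (Fin n) F) a c = 0 ∧ (x : Matrix (Fin n) (Fin n) F) b c = 0) ∨
      ∀ r, r ≠ a → r ≠ b → (x : Matrix (Fin n) (Fin n) F) r c = 0 := by
  classical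
  obtain ⟨i₀, hi₀⟩ := hz c
  have hi₀c : c = i₀ := hi₀ c hcc
  subst hi₀c
  have hsum : ∀ r, (x : Matrix (Fin n) (Fin n) F) r c *
      ((x⁻¹ * dg a b s * x : GL (Fin n) F) : Matrix (Fin n) (Fin n) F) c c =
      udp3Coef a b s r * (x : Matrix (Fin n) (Fin n) F) r c := by
    intro r
    rw [← udp3_mul_conj x a b s c r]
    symm
    apply Finset.sum_eq_single c
    · intro j _ hj
      by_cases h0 : ((x⁻¹ * dg a b s * x : GL (Fin n) F) : Matrix (Fin n) (Fin n) F) j c = 0
      · rw [h0, mul_zero]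
      · exact absurd (hi₀ j h0) hj
    · intro h; exact absurd (Finset.mem_univ _) h
  by_cases hab : a = b
  · subst hab
    by_cases hall : ∀ r, r ≠ a → r ≠ a → (x : Matrix (Fin n) (Fin n) F) r c = 0
    · exact Or.inr hall
    · push Not at hall
      obtain ⟨r, hra, -, hr0⟩ := hall
      have e1 := hsum r
      rw [udp3Coef, if_neg hra, if_neg hra, one_mul] at e1
      have hμ : ((x⁻¹ * dg a a s * x : GL (Fin n) F) : Matrix (Fin n) (Fin n) F) c c = 1 := by
        have := mul_left_cancel₀ hr0 (e1.trans (mul_one _).symm)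
        exact this
      have e2 := hsum a
      rw [hμ, udp3Coef, if_pos rfl, mul_one] at e2
      have hxa : (x : Matrix (Fin n) (Fin n) F) a c = 0 := by
        have h3 : ((s : F) - 1) * (x : Matrix (Fin n) (Fin n) F) a c = 0 := by
          linear_combination -e2
        rcases mul_eq_zero.mp h3 with h | h
        · exact absurd (sub_eq_zero.mp h) hs
        · exact h
      exact Or.inl ⟨hxa, hxa⟩
  by_cases hall : ∀ r, r ≠ a → r ≠ b → (x : Matrix (Fin n) (Fin n) F) r c = 0
  · exact Or.inr hall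
  · push Not at hall
    obtain ⟨r, hra, hrb, hr0⟩ := hall
    left
    have e1 := hsum r
    rw [udp3Coef, if_neg hra, if_neg hrb, one_mul] at e1
    have hμ : ((x⁻¹ * dg a b s * x : GL (Fin n) F) : Matrix (Fin n) (Fin n) F) c c = 1 :=
      mul_left_cancel₀ hr0 (e1.trans (mul_one _).symm)
    have e2 := hsum a
    rw [hμ, udp3Coef, if_pos rfl, mul_one] at e2
    have e3 := hsum b
    rw [hμ, udp3Coef, if_neg (Ne.symm hab), if_pos rfl, mul_one] at e3
    have hs' : ((s⁻¹ : Fˣ) : F) ≠ 1 := by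
      intro h
      apply hs
      have h4 : s⁻¹ = 1 := Units.ext (by rw [h, Units.val_one])
      rw [inv_eq_one] at h4
      rw [h4, Units.val_one]
    constructor
    · have h3 : ((s : F) - 1) * (x : Matrix (Fin n) (Fin n) F) a c = 0 := by
        linear_combination -e2
      rcases mul_eq_zero.mp h3 with h | h
      · exact absurd (sub_eq_zero.mp h) hs
      · exact h
    · have h3 : (((s⁻¹ : Fˣ) : F) - 1) * (x : Matrix (Fin n) (Fin n) F) b c = 0 := by
        linear_combination -e3
      rcases mul_eq_zero.mp h3 with h | h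
      · exact absurd (sub_eq_zero.mp h) hs'
      · exact h

/-- the cubic relation between the torus conjugates `t`, `t²`, `t³` -/
theorem udp3_cubic (x : GL (Fin n) F) (a b : Fin n) (hab : a ≠ b) (t : Fˣ) (c : Fin n) :
    ((x⁻¹ * dg a b (t ^ 3) * x : GL (Fin n) F) : Matrix (Fin n) (Fin n) F) c c =
      1 - (1 + (t : F) + ((t⁻¹ : Fˣ) : F)) *
          ((x⁻¹ * dg a b t * x : GL (Fin n) F) : Matrix (Fin n) (Fin n) F) c c +
        (1 + (t : F) + ((t⁻¹ : Fˣ) : F)) *
          ((x⁻¹ * dg a b (t ^ 2) * x : GL (Fin n) F) : Matrix (Fin n) (Fin n) F) c c := by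
  rw [udp3_conj_col, udp3_conj_col, udp3_conj_col]
  have ht0 : (t : F) ≠ 0 := t.ne_zero
  have hw : (fun i => udp3Coef a b (t ^ 3) i * (x : Matrix (Fin n) (Fin n) F) i c) =
      (x : Matrix (Fin n) (Fin n) F) *ᵥ Pi.single c 1 -
        (1 + (t : F) + ((t⁻¹ : Fˣ) : F)) •
          (fun i => udp3Coef a b t i * (x : Matrix (Fin n) (Fin n) F) i c) +
        (1 + (t : F) + ((t⁻¹ : Fˣ) : F)) •
          (fun i => udp3Coef a b (t ^ 2) i * (x : Matrix (Fin n) (Fin n) F) i c) := by
    funext i
    rw [Pi.add_apply, Pi.sub_apply, Pi.smul_apply, Pi.smul_apply, udk_col, smul_eq_mul,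
      smul_eq_mul]
    unfold udp3Coef
    by_cases hia : i = a
    · rw [if_pos hia, if_pos hia, if_pos hia, Units.val_pow_eq_pow_val, Units.val_pow_eq_pow_val,
        Units.val_inv_eq_inv_val]
      field_simp
      ring
    · by_cases hib : i = b
      · rw [if_neg hia, if_neg hia, if_neg hia, if_pos hib, if_pos hib, if_pos hib,
          Units.val_inv_eq_inv_val, Units.val_inv_eq_inv_val, Units.val_inv_eq_inv_val,
          Units.val_pow_eq_pow_val, Units.val_pow_eq_pow_val]
        field_simp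
        ring
      · rw [if_neg hia, if_neg hia, if_neg hia, if_neg hib, if_neg hib, if_neg hib]
        ring
  rw [hw, Matrix.mulVec_add, Matrix.mulVec_sub, Matrix.mulVec_smul, Matrix.mulVec_smul,
    udk_inv_mulVec, Pi.add_apply, Pi.sub_apply, Pi.smul_apply, Pi.smul_apply,
    Pi.single_eq_same, smul_eq_mul, smul_eq_mul]

end

theorem ud_p3 {F : Type*} [Field F] [Fintype F] (q : ℕ) (h1 : H1AStmt F q) (h2 : H1BStmt F q) : P3Stmt F q := by
  classical
  intro hF hq n hn X hX hM hWin
  have hXG : X ≤ Cfsg.GU n F q := hX.trans inf_le_left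
  have hcol : ColZ X := by
    rintro x hxX hxm k a b hab ⟨hak, hbk⟩
    obtain ⟨t, hζ⟩ := udk_exists_order (F := F) hF
    have ht : (t : F) ^ (q + 1) = 1 := udk_order_pow t hζ
    have hzmono : ∀ s : Fˣ, (s : F) ^ (q + 1) = 1 →
        IsMono ((x⁻¹ * dg a b s * x : GL (Fin n) F) : Matrix (Fin n) (Fin n) F) := by
      intro s hs
      by_contra hzm
      apply hWin
      have hzX : x⁻¹ * dg a b s * x ∈ X :=
        X.mul_mem (X.mul_mem (X.inv_mem hxX) (udk_dg_mem' hM a b hab s hs)) hxX
      refine h1 hF hq n (by omega) X hX hM _ hzX hzm ⟨k, k, fun r hr => ?_⟩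
      by_contra hne
      apply hr
      rw [udp3_conj_col]
      have hfix : (fun i => udp3Coef a b s i * (x : Matrix (Fin n) (Fin n) F) i k) =
          (x : Matrix (Fin n) (Fin n) F) *ᵥ Pi.single k 1 := by
        funext i
        rw [udk_col]
        unfold udp3Coef
        by_cases hia : i = a
        · rw [hia, hak, mul_zero]
        · by_cases hib : i = b
          · rw [hib, hbk, mul_zero]
          · rw [if_neg hia, if_neg hib, one_mul]
      rw [hfix, udk_inv_mulVec, Pi.single_eq_of_ne hne]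
    -- every column is good
    have hgood : ∀ c : Fin n,
        ((x : Matrix (Fin n) (Fin n) F) a c = 0 ∧ (x : Matrix (Fin n) (Fin n) F) b c = 0) ∨
          ∀ r, r ≠ a → r ≠ b → (x : Matrix (Fin n) (Fin n) F) r c = 0 := by
      intro c
      have hpw : ∀ m : ℕ, ((t ^ m : Fˣ) : F) ^ (q + 1) = 1 := by
        intro m
        rw [Units.val_pow_eq_pow_val, ← pow_mul, mul_comm, pow_mul, ht, one_pow]
      have hne : ∀ m : ℕ, 0 < m → m < q + 1 → ((t ^ m : Fˣ) : F) ≠ 1 := by
        intro m hm0 hm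
        rw [Units.val_pow_eq_pow_val]
        exact udk_order_ne t hζ m hm0 hm
      by_cases hz1 : ((x⁻¹ * dg a b t * x : GL (Fin n) F) : Matrix (Fin n) (Fin n) F) c c = 0
      · by_cases hz2 :
            ((x⁻¹ * dg a b (t ^ 2) * x : GL (Fin n) F) : Matrix (Fin n) (Fin n) F) c c = 0
        · have hz3 := udp3_cubic x a b hab t c
          rw [hz1, hz2, mul_zero, sub_zero, add_zero] at hz3
          exact udp3_good x a b (t ^ 3) (hne 3 (by omega) (by omega)) c (hzmono _ (hpw 3))
            (by rw [hz3]; exact one_ne_zero)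
        · exact udp3_good x a b (t ^ 2) (hne 2 (by omega) (by omega)) c (hzmono _ (hpw 2)) hz2
      · have h1' := hne 1 (by omega) (by omega)
        rw [pow_one] at h1'
        exact udp3_good x a b t h1' c (hzmono _ ht) hz1
    -- two columns supported in `{a, b}`
    apply hWin
    apply h2 hF hq n hn X hX hM x hxX hxm
    by_contra hno
    push Not at hno
    -- a column with nonzero entry in row `a`
    obtain ⟨c₁, hc₁⟩ : ∃ c₁, (x : Matrix (Fin n) (Fin n) F) a c₁ ≠ 0 := by
      by_contra hcon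
      push Not at hcon
      have e := gl_mul_inv_apply x a a
      rw [if_pos rfl, Finset.sum_eq_zero (fun c _ => by rw [hcon c, zero_mul])] at e
      exact zero_ne_one e
    have hS₁ : ∀ r, r ≠ a → r ≠ b → (x : Matrix (Fin n) (Fin n) F) r c₁ = 0 := by
      rcases hgood c₁ with h | h
      · exact absurd h.1 hc₁
      · exact h
    have hrest : ∀ c, c ≠ c₁ → (x : Matrix (Fin n) (Fin n) F) a c = 0 ∧
        (x : Matrix (Fin n) (Fin n) F) b c = 0 := by
      intro c hc
      rcases hgood c with h | h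
      · exact h
      · exfalso
        obtain ⟨r, hra, hrb, hr⟩ := hno c₁ c a b (Ne.symm hc)
        exact hr (hS₁ r hra hrb) (h r hra hrb)
    have e1 := gl_mul_inv_apply x a a
    have e2 := gl_mul_inv_apply x b a
    have e3 := gl_mul_inv_apply x b b
    rw [if_pos rfl, Finset.sum_eq_single c₁ (fun c _ hc => by rw [(hrest c hc).1, zero_mul])
      (fun h => absurd (Finset.mem_univ _) h)] at e1
    rw [if_neg (Ne.symm hab), Finset.sum_eq_single c₁
      (fun c _ hc => by rw [(hrest c hc).2, zero_mul])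
      (fun h => absurd (Finset.mem_univ _) h)] at e2
    rw [if_pos rfl, Finset.sum_eq_single c₁ (fun c _ hc => by rw [(hrest c hc).2, zero_mul])
      (fun h => absurd (Finset.mem_univ _) h)] at e3
    rcases mul_eq_zero.mp e2 with h | h
    · rw [h, zero_mul] at e3
      exact zero_ne_one e3
    · rw [h, mul_zero] at e1
      exact zero_ne_one e1
  refine ⟨hcol, ?_⟩
  rintro x hxX hxm a k k' hkk' ⟨hk1, hk2⟩
  apply hcol x⁻¹ (X.inv_mem hxX) (fun h => hxm ((isMono_inv_iff x).mp h)) a k k' hkk'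
  refine ⟨?_, ?_⟩
  · rw [udk_inv_apply hF x (hXG hxX), hk1, zero_pow (herm_q_ne_zero hF)]
  · rw [udk_inv_apply hF x (hXG hxX), hk2, zero_pow (herm_q_ne_zero hF)]

end Cfsg.Agent.Lib.Helper44.UD
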