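import Mathlib
import Cfsg.Agent.Lib.Helper44.UDDefs
import Cfsg.Agent.Lib.Helper44.UDH1A

/-!
# S5655 piece TRX (helper44): from the two-reflection lemma to a transvection centre.
-/

set_option autoImplicit false
set_option linter.unusedSectionVars false
set_option linter.unusedVariables false

namespace Cfsg.Agent.Lib.Helper44.UD

open Matrix Cfsg.Agent.Lib.Helper93 Cfsg.Agent.Lib.Helper18 Cfsg.Agent.Lib.Helper7

section
variable {F : Type*} [Field F] [Fintype F] {q : ℕ}

/-- an element of norm one, different from `1`, whose trace is not `1` (`q ≥ 3`) -/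
theorem udtrx_exists_t0 (hF : Fintype.card F = q ^ 2) (hq : 3 ≤ q) :
    ∃ t : F, t ^ (q + 1) = 1 ∧ t ≠ 1 ∧ t + t ^ q ≠ 1 := by
  classical
  by_contra hcon
  push Not at hcon
  have hcard := herm_card_norm_one (F := F) hF
  obtain ⟨p, hp⟩ : ∃ p : Polynomial F, p = Polynomial.X ^ 2 - Polynomial.X + 1 := ⟨_, rfl⟩
  have hdeg : p.natDegree = 2 := by
    rw [hp]
    compute_degree!
  have hp0 : p ≠ 0 := by
    intro h0
    rw [h0] at hdeg
    simp at hdeg
  have hsub : (Finset.univ.filter (fun x : F => x ^ (q + 1) = 1)) ⊆ insert 1 p.roots.toFinset := by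
    intro t ht
    rw [Finset.mem_filter] at ht
    rw [Finset.mem_insert]
    by_cases h1 : t = 1
    · exact Or.inl h1
    · right
      rw [Multiset.mem_toFinset, Polynomial.mem_roots hp0, Polynomial.IsRoot, hp]
      have h2 := hcon t ht.2 h1
      have ht0 : t ≠ 0 := by
        rintro rfl
        rw [zero_pow (Nat.succ_ne_zero q)] at ht
        exact zero_ne_one ht.2
      have h3 : t ^ q * t = 1 := by rw [← pow_succ]; exact ht.2
      simp only [Polynomial.eval_add, Polynomial.eval_sub, Polynomial.eval_pow,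
        Polynomial.eval_X, Polynomial.eval_one]
      have h4 : t ^ q = 1 - t := by linear_combination h2
      rw [h4] at h3
      linear_combination -h3
  have h5 := Finset.card_le_card hsub
  have h6 : (insert 1 p.roots.toFinset).card ≤ 3 := by
    refine (Finset.card_insert_le _ _).trans ?_
    have h7 : p.roots.toFinset.card ≤ 2 := by
      refine (Multiset.toFinset_card_le _).trans ?_
      rw [← hdeg]
      exact Polynomial.card_roots' p
    omega
  rw [hcard] at h5
  omega

end

theorem ud_trx {F : Type*} [Field F] [Fintype F] (q : ℕ) (h1 : TRStmt F q) : TRXStmt F q := by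
  intro hF hq N Y hY u e huu he hsupp hab hr1 hr2
  obtain ⟨a, b, hab, hua, hub⟩ := hab
  have hq0 := herm_q_ne_zero hF
  -- `e ⟂ u'` whenever the support of `u'` avoids that of `e`
  have hperp : ∀ u' : Fin N → F, (∀ i, u' i ≠ 0 → e i = 0) → Cfsg.hermForm N F q e u' = 0 := by
    intro u' hu'
    unfold Cfsg.hermForm
    apply Finset.sum_eq_zero
    intro i _
    by_cases hi : u' i = 0
    · rw [hi, zero_pow hq0, mul_zero]
    · rw [hu' i hi, zero_mul]
  -- the engine: case 1
  have core : ∀ (u' : Fin N → F) (j : Fin N), Cfsg.hermForm N F q u' u' = 1 →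
      (∀ i, u' i ≠ 0 → e i = 0) → u' j ≠ 0 → u' j ^ (q + 1) ≠ 1 →
      (∀ t : F, t ^ (q + 1) = 1 → MIn Y (qrefl q N (Pi.single j 1) t * qrefl q N e t⁻¹)) →
      (∀ t : F, t ^ (q + 1) = 1 → MIn Y (qrefl q N u' t * qrefl q N e t⁻¹)) →
      ∃ w : Fin N → F, w ≠ 0 ∧ Cen q Y w ∧ ∀ c, u' c = 0 → w c = 0 := by
    intro u' j hu'u' hu's hj hjN hrj hru
    have hejej : Cfsg.hermForm N F q (Pi.single j (1 : F)) (Pi.single j 1) = 1 := by
      rw [hf_single_right hF, Pi.single_eq_same]
    have heju : Cfsg.hermForm N F q (Pi.single j (1 : F)) u' = u' j ^ q := hf_single_left N j u'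
    have huej : Cfsg.hermForm N F q u' (Pi.single j (1 : F)) = u' j := hf_single_right hF N u' j
    have hne0 : Cfsg.hermForm N F q (Pi.single j (1 : F)) u' ≠ 0 := by
      rw [heju]
      exact pow_ne_zero _ hj
    have hneN : Cfsg.hermForm N F q (Pi.single j (1 : F)) u' ^ (q + 1) ≠ 1 := by
      rw [heju, ← pow_mul, mul_comm, pow_mul, herm_norm_fixed hF]
      exact hjN
    have heej : Cfsg.hermForm N F q e (Pi.single j (1 : F)) = 0 := by
      rw [hf_single_right hF]
      exact hu's j hj
    have key := h1 hF N Y hY (Pi.single j 1) u' e hejej hu'u' hne0 hneN he heej (hperp u' hu's)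
      hrj hru
    -- the isotropic vector
    have hd0 : u' j ^ (q + 1) - 1 ≠ 0 := sub_ne_zero.mpr hjN
    have hdq : (u' j ^ (q + 1) - 1) ^ q = u' j ^ (q + 1) - 1 := by
      rw [herm_sub_pow hF, herm_norm_fixed hF, one_pow]
    obtain ⟨d, hd0', hd⟩ := herm_norm_surj hF _ hd0 hdq
    obtain ⟨c, hc⟩ : ∃ c : F, c = u' j - d := ⟨_, rfl⟩
    obtain ⟨w, hw⟩ : ∃ w : Fin N → F, w = (-c) • Pi.single j (1 : F) + (1 : F) • u' := ⟨_, rfl⟩
    have hww : Cfsg.hermForm N F q w w = 0 := by
      rw [hw]
      simp only [hf_add_left, hf_add_right hF, hf_smul_left, hf_smul_right, hejej, heju, huej,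
        hu'u', one_pow, herm_neg_pow hF]
      have h3 : d ^ (q + 1) = (u' j - c) * (u' j ^ q - c ^ q) := by
        rw [pow_succ, ← herm_sub_pow hF, hc]
        ring
      rw [h3] at hd
      linear_combination hd
    refine ⟨w, ?_, key w ⟨-c, 1, hw⟩ hww, ?_⟩
    · intro hw0
      apply hjN
      have h3 : u' = c • Pi.single j (1 : F) := by
        rw [hw0] at hw
        funext i
        have h4 := congrFun hw i
        simp only [Pi.zero_apply, Pi.add_apply, Pi.smul_apply, smul_eq_mul] at h4 ⊢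
        linear_combination -h4
      have h5 : u' j = c := by
        rw [h3, Pi.smul_apply, Pi.single_eq_same, smul_eq_mul, mul_one] at *
      rw [h3, hf_smul_left, hf_smul_right, hejej] at hu'u'
      rw [h5, pow_succ, mul_comm]
      linear_combination hu'u'
    · intro c' hc'
      have hc'j : c' ≠ j := by
        rintro rfl
        exact hj hc'
      rw [hw, Pi.add_apply, Pi.smul_apply, Pi.smul_apply, Pi.single_eq_of_ne hc'j, hc']
      simp
  by_cases hex : ∃ j, u j ≠ 0 ∧ u j ^ (q + 1) ≠ 1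
  · obtain ⟨j, hj, hjN⟩ := hex
    exact core u j huu hsupp hj hjN (hr1 j hj) hr2
  · push Not at hex
    -- case 2
    obtain ⟨t0, ht0, ht01, ht0tr⟩ := udtrx_exists_t0 hF hq
    have ht00 : t0 ≠ 0 := by
      rintro rfl
      rw [zero_pow (Nat.succ_ne_zero q)] at ht0
      exact zero_ne_one ht0
    obtain ⟨B, hB⟩ : ∃ B : Matrix (Fin N) (Fin N) F, B = qrefl q N u t0 * qrefl q N e t0⁻¹ :=
      ⟨_, rfl⟩
    have hBY : MIn Y B := by rw [hB]; exact hr2 t0 ht0
    have hBpres : suPres q N B := by
      obtain ⟨g, hg, hgB⟩ := hBY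
      rw [← hgB]
      exact hY hg
    have heu : Cfsg.hermForm N F q e u = 0 := hperp u hsupp
    -- `B e_b = u'`
    obtain ⟨u', hu'⟩ : ∃ u' : Fin N → F, u' = Pi.single b (1 : F) + ((t0 - 1) * u b ^ q) • u :=
      ⟨_, rfl⟩
    have hBb : B *ᵥ Pi.single b 1 = u' := by
      have h3 : qrefl q N e t0⁻¹ *ᵥ Pi.single b (1 : F) = Pi.single b 1 := by
        rw [qrefl_mulVec, hf_single_left, hsupp b hub, zero_pow hq0, mul_zero, zero_smul,
          add_zero]
      rw [hB, ← Matrix.mulVec_mulVec, h3, qrefl_mulVec, hf_single_left, hu']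
    have hBe : B *ᵥ e = t0⁻¹ • e := by
      have h3 : qrefl q N e t0⁻¹ *ᵥ e = t0⁻¹ • e := by
        rw [qrefl_mulVec]
        rcases he with he0 | he1
        · simp only [he0, smul_zero, add_zero]
        · rw [he1, mul_one]
          module
      rw [hB, ← Matrix.mulVec_mulVec, h3, Matrix.mulVec_smul, qrefl_mulVec, heu, mul_zero,
        zero_smul, add_zero]
    have hu'u' : Cfsg.hermForm N F q u' u' = 1 := by
      rw [← hBb, hBpres, hf_single_right hF, Pi.single_eq_same]
    have hu'z : ∀ c, u c = 0 → u' c = 0 := by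
      intro c hc
      have hcb : c ≠ b := by
        rintro rfl
        exact hub hc
      rw [hu', Pi.add_apply, Pi.smul_apply, Pi.single_eq_of_ne hcb, hc]
      simp
    have hu's : ∀ i, u' i ≠ 0 → e i = 0 := by
      intro i hi
      apply hsupp
      intro h0
      exact hi (hu'z i h0)
    have hu'a : u' a = (t0 - 1) * u b ^ q * u a := by
      rw [hu', Pi.add_apply, Pi.smul_apply, Pi.single_eq_of_ne hab, smul_eq_mul, zero_add]
    have ht0q : t0 ^ q * t0 = 1 := by rw [← pow_succ]; exact ht0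
    have hu'a0 : u' a ≠ 0 := by
      rw [hu'a]
      exact mul_ne_zero (mul_ne_zero (sub_ne_zero.mpr ht01) (pow_ne_zero _ hub)) hua
    have hu'aN : u' a ^ (q + 1) ≠ 1 := by
      rw [hu'a, mul_pow, mul_pow, ← pow_mul, mul_comm q (q + 1), pow_mul, hex b hub, one_pow,
        hex a hua, mul_one, mul_one]
      intro h3
      apply ht0tr
      have h4 : (t0 - 1) ^ (q + 1) = (t0 - 1) * (t0 ^ q - 1) := by
        rw [pow_succ, herm_sub_pow hF, one_pow]
        ring
      rw [h4] at h3
      linear_combination ht0q - h3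
    have hru' : ∀ t : F, t ^ (q + 1) = 1 → MIn Y (qrefl q N u' t * qrefl q N e t⁻¹) := by
      intro t ht
      refine MIn.conj hBY (hr1 b hub t ht) ?_
      have ht0i : t0⁻¹ ^ (q + 1) = 1 := by rw [inv_pow, ht0, inv_one]
      rw [← Matrix.mul_assoc, udk_qrefl_conj hBpres, Matrix.mul_assoc, udk_qrefl_conj hBpres,
        ← Matrix.mul_assoc, hBb, hBe, udk_qrefl_smul _ _ _ ht0i]
    obtain ⟨w, hw0, hwC, hwz⟩ := core u' a hu'u' hu's hu'a0 hu'aN (hr1 a hua) hru'
    exact ⟨w, hw0, hwC, fun c hc => hwz c (hu'z c hc)⟩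

end Cfsg.Agent.Lib.Helper44.UD
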