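import Mathlib
import Cfsg.Agent.Lib.Helper44.UnitaryInv

/-!
# Centralizer elements of prescribed determinant (helper44)

`exists_centralizer_det_aniso`: for a hermitian form `B`, a selfadjoint `N`, an anisotropic
vector `v` with `N v = 0` and `σ μ * μ = 1`, the quasi-reflection
`x ↦ x + (μ - 1) * B v x / B v v • v` is an isometry commuting with `N` of determinant `μ`.
-/

set_option autoImplicit false

namespace Cfsg.Agent.Lib.Helper44

open Module

section UnitaryInv2

variable {F V : Type*} [Field F] [AddCommGroup V] [Module F V]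

theorem exists_centralizer_det_aniso [FiniteDimensional F V] (σ : F →+* F)
    (B : V →ₛₗ[σ] V →ₗ[F] F) (hS : B.IsSymm) (N : V →ₗ[F] V)
    (hN : ∀ x y, B (N x) y = B x (N y)) (v : V) (hv : N v = 0) (hvv : B v v ≠ 0) (μ : F)
    (hμ : σ μ * μ = 1) :
    ∃ c : V →ₗ[F] V, (∀ x y : V, B (c x) (c y) = B x y) ∧ (∀ x, c (N x) = N (c x)) ∧
      LinearMap.det c = μ := by
  obtain ⟨β, hβ⟩ : ∃ β, β = B v v := ⟨_, rfl⟩
  rw [← hβ] at hvv
  have hβσ : σ β = β := by rw [hβ, hS.eq]
  have hc : ∀ x, LinearMap.transvection (((μ - 1) / β) • B v) v x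
      = x + ((μ - 1) / β * B v x) • v := by
    intro x
    rw [LinearMap.transvection.apply, LinearMap.smul_apply, smul_eq_mul]
  refine ⟨LinearMap.transvection (((μ - 1) / β) • B v) v, ?_, ?_, ?_⟩
  · intro x y
    rw [hc, hc]
    have e1 : σ (B v x) = B x v := hS.eq v x
    simp only [map_add, map_smulₛₗ, LinearMap.add_apply, LinearMap.smul_apply,
      smul_eq_mul, map_mul, map_div₀, map_sub, map_one, hβσ, e1, ← hβ, RingHom.id_apply]
    field_simp
    linear_combination (B x v * B v y) * hμ
  · intro x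
    have e1 : B v (N x) = 0 := by rw [← hN, hv, map_zero, LinearMap.zero_apply]
    rw [hc, hc, e1, mul_zero, zero_smul, add_zero, map_add, LinearMap.map_smul, hv, smul_zero,
      add_zero]
  · rw [LinearMap.transvection.det, LinearMap.smul_apply, ← hβ, smul_eq_mul,
      div_mul_cancel₀ _ hvv]
    ring

/-- a nonzero isotropic vector `u` in a hermitian space of dimension at least three has an
anisotropic vector orthogonal to it -/
theorem exists_aniso_orth [Finite F] [FiniteDimensional F V] (σ : F →+* F)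
    (hσ : σ ≠ RingHom.id F) (B : V →ₛₗ[σ] V →ₗ[F] F) (hS : B.IsSymm) (hB : B.Nondegenerate)
    (h3 : 3 ≤ finrank F V) (u : V) (hu : u ≠ 0) (huu : B u u = 0) :
    ∃ v, B u v = 0 ∧ B v v ≠ 0 := by
  classical
  obtain ⟨w, hw⟩ : ∃ w, B u w ≠ 0 := by
    by_contra hcon
    push Not at hcon
    exact hu (hB.1 u hcon)
  have hw' : B w u ≠ 0 := by
    rw [← hS.eq]
    intro h
    exact hw ((map_eq_zero σ).1 h)
  have hZ : ∀ r ∈ Submodule.span F {u, w}, (∀ x ∈ Submodule.span F {u, w}, B x r = 0) → r = 0 := by
    intro r hr hx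
    obtain ⟨a, b, rfl⟩ := Submodule.mem_span_pair.1 hr
    have h1 := hx u (Submodule.subset_span (by simp))
    have h2 := hx w (Submodule.subset_span (by simp))
    rw [map_add, map_smul, map_smul, huu, smul_zero, zero_add, smul_eq_mul] at h1
    have hb : b = 0 := by
      rcases mul_eq_zero.1 h1 with h | h
      · exact h
      · exact absurd h hw
    rw [hb, zero_smul, add_zero, map_smul, smul_eq_mul] at h2
    have ha : a = 0 := by
      rcases mul_eq_zero.1 h2 with h | h
      · exact h
      · exact absurd h hw'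
    rw [ha, hb, zero_smul, zero_smul, add_zero]
  have hZtop : Submodule.span F {u, w} ≠ (⊤ : Submodule F V) := by
    intro h
    have h1 : finrank F (Submodule.span F ((({u, w} : Finset V)) : Set V)) ≤ 2 :=
      (finrank_span_finset_le_card ({u, w} : Finset V)).trans Finset.card_le_two
    rw [Finset.coe_pair, h, finrank_top] at h1
    omega
  obtain ⟨v, hv1, hv2⟩ := Cfsg.Agent.S0751.exists_nonisotropic σ hσ B hS hB _ hZ hZtop
  exact ⟨v, hv1 u (Submodule.subset_span (by simp)), hv2⟩

end UnitaryInv2

end Cfsg.Agent.Lib.Helper44
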